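/-
S5806 (residual class of `Sp₆(q)`): vocabulary and chunk statements.  Paper proofs: `notes/SP6.md`.
-/
import Cfsg.Agent.H27.Asch25
import Cfsg.Prelude.Def_Spor_Mathieu
import Cfsg.Prelude.Def_Spor_J1
import Cfsg.Prelude.Def_Spor_J2
import Cfsg.Prelude.Def_G2
import Cfsg.Prelude.Def_Sz
import Cfsg.Prelude.Def_LieTwisted
import Cfsg.Prelude.Def_CaseTheorems
import Cfsg.Prelude.Def_KGroupFacts

set_option autoImplicit false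
set_option linter.unusedSectionVars false

namespace H6.SP
open Matrix Cfsg Cfsg.Geo H27.Asch Module
open scoped commutatorElement MatrixGroups

abbrev I6 := Fin 3 ⊕ Fin 3
abbrev V6 (k : Type*) := I6 → k
abbrev M6 (k : Type*) := Matrix I6 I6 k
abbrev G6 (k : Type*) [Field k] := GL I6 k
abbrev S6 (k : Type*) [Field k] : Subgroup (G6 k) := spGL 3 k

section
variable {k : Type*} [Field k] {G : Type*} [Group G]

/-- the symplectic form -/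
def fm (u v : V6 k) : k := (spΦ 3 k).f u v
/-- the adjoint -/
def ad (m : M6 k) : M6 k := (spΦ 3 k).adj m
/-- `x ↦ fm x v • u` -/
def E (u v : V6 k) : M6 k := (spΦ 3 k).E u v
/-- the trace -/
def T (x : G6 k) : k := x.val.trace
/-- the rank of `x - 1` -/
noncomputable def rk (x : G6 k) : ℕ := (x.val - 1).rank
/-- intertwiners `m` with `x m = m y` -/
def hm {ι : Type} [Fintype ι] (x : M6 k) (y : Matrix ι ι k) : Submodule k (Matrix I6 ι k) where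
  carrier := {m | x * m = m * y}
  add_mem' {a b} ha hb := by simp only [Set.mem_setOf_eq] at *; rw [Matrix.mul_add, Matrix.add_mul, ha, hb]
  zero_mem' := by simp
  smul_mem' c a ha := by simp only [Set.mem_setOf_eq] at *; rw [Matrix.mul_smul, Matrix.smul_mul, ha]
noncomputable def dh {ι : Type} [Fintype ι] (x : M6 k) (y : Matrix ι ι k) : ℕ := finrank k (hm x y)
/-- the symplectic Lie algebra -/
def spL (k : Type*) [Field k] : Submodule k (M6 k) where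
  carrier := {m | ad m = -m}
  add_mem' {a b} ha hb := by simp only [Set.mem_setOf_eq, ad] at *; rw [Frm.adj_add, ha, hb, neg_add]
  zero_mem' := by simp [ad, Frm.adj_zero]
  smul_mem' c a ha := by simp only [Set.mem_setOf_eq, ad] at *; rw [Frm.adj_smul, ha]; simp
/-- dimension of the centraliser in the symplectic Lie algebra -/
noncomputable def cs (x : G6 k) : ℕ := finrank k ↥(hm x.val x.val ⊓ spL k)
/-- the diagonal torus -/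
def dg (d : Fin 3 → kˣ) : M6 k := diagonal (Sum.elim (fun i => (d i : k)) fun i => ((d i)⁻¹ : kˣ))

def NoTv (P : Subgroup (G6 k)) : Prop := ∀ x ∈ P, rk x ≠ 1
/-- `P` fixes a quadratic form polarising to `fm` -/
def FixQ (P : Subgroup (G6 k)) : Prop := ∃ Q : V6 k → k, (∀ c v, Q (c • v) = c ^ 2 * Q v) ∧
  (∀ u v, Q (u + v) = Q u + Q v + fm u v) ∧ ∀ x ∈ P, ∀ v, Q (x.val *ᵥ v) = Q v
/-- realisable over no proper subfield -/
def Fld (P : Subgroup (G6 k)) : Prop := ∀ K : Subfield k, K ≠ ⊤ → ¬ RealisableOver K (matrixSet P)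

/-- a perfect absolutely irreducible symplectic group, `G` = `P` modulo scalars is simple -/
structure Rq (P : Subgroup (G6 k)) (π : P →* G) : Prop where
  sp : P ≤ S6 k
  top : alg P = ⊤
  perf : ⁅P, P⁆ = P
  sur : Function.Surjective π
  ker : ∀ x : P, π x = 1 ↔ x.1 = 1 ∨ x.1 = -1
  simp : IsSimpleGroup G
  nab : ¬ IsMulCommutative G
  fin : Finite G

/-- moreover no transvections and no invariant quadratic form -/
structure Rp (P : Subgroup (G6 k)) (π : P →* G) : Prop extends Rq P π where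
  ntv : NoTv P
  nq : ¬ FixQ P

/-- `H` is maximal in `Sp₆` with core `P` -/
structure St (H P : Subgroup (G6 k)) (π : P →* G) : Prop extends Rp P π where
  max : IsMaximalIn (S6 k) H
  le : P ≤ H
  nrm : ∀ h ∈ H, ∀ x ∈ P, h * x * h⁻¹ ∈ P
  cen : ∀ h ∈ H, (∀ x ∈ P, h * x * h⁻¹ * x⁻¹ ∈ scalars I6 k) → h ∈ scalars I6 k
  fld : Fld P

/-- `x`, `y` generate `P` modulo scalars -/
def Gn {P : Subgroup (G6 k)} (π : P →* G) (x y : P) : Prop := Subgroup.closure {π x, π y} = ⊤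
end

universe u v

/-! ### tools -/

/-- base change -/
def UP : Prop := ∀ (F K G : Type u) [Field F] [Field K] [Group G] (σ : F →+* K) (P : Subgroup (G6 F)) (π : P →* G), Rp P π →
  ∃ π' : P.map (GeneralLinearGroup.map σ) →* G, Rp _ π' ∧ ∀ x : P, π' ⟨_, x.1, x.2, rfl⟩ = π x

/-- symplectic diagonalisation -/
def DG : Prop := ∀ (K : Type u) [Field K] [IsAlgClosed K] (S : Set (G6 K)), (∀ a ∈ S, a ∈ S6 K) →
  (∀ a ∈ S, ∀ b ∈ S, a * b = b * a) → (∀ a ∈ S, ∃ n : ℕ, (n : K) ≠ 0 ∧ a ^ n = 1) →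
  ∃ B ∈ S6 K, ∀ a ∈ S, ∃ d, (B⁻¹ * a * B).val = dg d

/-- weights: the characters of an abelian odd `p'`-subgroup have orbits of length at most six -/
def W6 : Prop := ∀ (K G : Type u) [Field K] [IsAlgClosed K] [Group G] (P : Subgroup (G6 K)) (π : P →* G), Rq P π →
  ∀ (A : Subgroup G) (n : ℕ), Odd n → (n : K) ≠ 0 → (∀ a ∈ A, a ^ n = 1) → (∀ a ∈ A, ∀ b ∈ A, a * b = b * a) → A ≠ ⊥ →
  ∃ χ : A →* Kˣ, χ ≠ 1 ∧ ∃ W : Finset (A →* Kˣ), W.card ≤ 6 ∧ χ ∈ W ∧ (∀ ψ ∈ W, ψ⁻¹ ∈ W) ∧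
    ∀ ψ ∈ W, ∀ g : G, ∀ φ : A →* A, (∀ a : A, (φ a : G) = g * a * g⁻¹) → ψ.comp φ ∈ W

/-- Scott's lemma on `V`, `End V`, `sp V`, `Hom (W, V)` -/
def SC : Prop := ∀ (k G : Type u) [Field k] [Group G] (P : Subgroup (G6 k)) (π : P →* G), Rq P π → ∀ x y : P, Gn π x y →
  12 ≤ rk x.1 + rk y.1 + rk (x * y).1 ∧
  dh x.1.val x.1.val + dh y.1.val y.1.val + dh (x * y).1.val (x * y).1.val ≤ 38 ∧
  ((2 : k) ≠ 0 → cs x.1 + cs y.1 + cs (x * y).1 ≤ 21) ∧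
  (∀ (m : ℕ) (X Y : GL (Fin m) k), m < 6 → dh x.1.val X.val + dh y.1.val Y.val + dh (x * y).1.val (X * Y).val ≤ 6 * m) ∧
  ∀ X Y : G6 k, 36 < dh x.1.val X.val + dh y.1.val Y.val + dh (x * y).1.val (X * Y).val →
    ∃ B : G6 k, B * X * B⁻¹ = x.1 ∧ B * Y * B⁻¹ = y.1

/-- centraliser dimensions in `sp₆`, odd characteristic -/
def CS : Prop := ∀ (K : Type u) [Field K] [IsAlgClosed K], (2 : K) ≠ 0 → ∀ x ∈ S6 K, cs (-x) = cs x ∧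
  (x ^ 2 = 1 → x ≠ 1 → x ≠ -1 → 13 ≤ cs x) ∧ (x ^ 2 = -1 → 9 ≤ cs x) ∧ (x ^ 3 = 1 → 7 ≤ cs x) ∧
  (x ^ 3 = 1 → rk x = 2 → (3 : K) ≠ 0 → 11 ≤ cs x) ∧ (x ^ 4 = 1 → x ^ 2 ≠ -1 → 7 ≤ cs x) ∧ (x ^ 4 = -1 → 5 ≤ cs x) ∧
  (x ^ 5 = 1 → 5 ≤ cs x) ∧ (x ^ 7 = 1 → 3 ≤ cs x) ∧ ∀ n : ℕ, (n : K) ≠ 0 → x ^ n = 1 → 3 ≤ cs x

/-- `x ^ 4 = -1` forces a square root of two; `x ^ 8 ≠ -1` over the field with nine elements -/
def R2 : Prop := ∀ (F : Type u) [Field F] [Fintype F], (2 : F) ≠ 0 → ∀ x ∈ S6 F,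
  (x ^ 4 = -1 → IsSquare (2 : F)) ∧ (Fintype.card F = 9 → x ^ 8 ≠ -1)

/-- `SL₂(E)` is the largest cover by a 2-group -/
def LF : Prop := ∀ (E : Type) [Field E] [Fintype E] (Γ : Type u) [Group Γ] [Finite Γ] (π : Γ →* PSL(2, E)),
  Odd (Fintype.card E) → 5 ≤ Fintype.card E → Function.Surjective π → commutator Γ = ⊤ → π.ker ≤ Subgroup.center Γ →
  Nat.card π.ker ≤ 2 → ∃ φ : SL(2, E) →* Γ, Function.Surjective φ ∧ ∀ g, π (φ g) = QuotientGroup.mk g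

/-- automorphisms are induced by `H` or `H = ± P` -/
def OU : Prop := ∀ (k G : Type u) [Field k] [Group G] (H P : Subgroup (G6 k)) (π : P →* G), St H P π →
  Nat.card (MulAut G) ≤ 2 * Nat.card G → Nat.card H ≤ 4 * Nat.card G ∧ (∀ h ∈ H, h ^ 2 ∈ P ∨ -h ^ 2 ∈ P) ∧
    ((∀ h ∈ H, h ∈ P ∨ -h ∈ P) ∨ ∀ α : MulAut G, ∃ h ∈ H, ∀ x y : P, y.1 = h * x.1 * h⁻¹ → π y = α (π x))

/-- the spin module in characteristic two -/
def M8 : Prop := ∀ (F G : Type u) [Field F] [Fintype F] [CharP F 2] [Group G] (H P : Subgroup (G6 F)) (π : P →* G), St H P π →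
  (∀ h ∈ H, h ^ 2 ∈ P) → ∀ x y : P, Gn π x y → x ^ 2 = 1 → y ^ 3 = 1 → (x * y) ^ 7 = 1 →
  Nat.card (S6 F) ≤ Nat.card H * Fintype.card F ^ 8

/-- the affine space of quadratic forms -/
def W7 : Prop := ∀ (K G : Type u) [Field K] [IsAlgClosed K] [CharP K 2] [Group G] (P : Subgroup (G6 K)) (π : P →* G), Rp P π →
  ∀ x y : P, Gn π x y → Odd (orderOf x) → Odd (orderOf y) → Odd (orderOf (x * y)) → 12 < rk x.1 + rk y.1 + rk (x * y).1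

/-- irreducible representations of `SL₂(E)` of degree six in the defining characteristic -/
def SL : Prop := ∀ (E : Type) [Field E] [Fintype E] (K : Type u) [Field K] [IsAlgClosed K] (p : ℕ) [Fact p.Prime] [CharP E p]
  [CharP K p] (ρ : SL(2, E) →* G6 K), alg ρ.range = ⊤ → ∃ σ : E →+* K,
    (7 ≤ p ∧ ∀ g, T (ρ g) = σ (g.1.trace ^ 5 - 4 * g.1.trace ^ 3 + 3 * g.1.trace)) ∨
    (3 ≤ p ∧ ∃ τ : E →+* K, σ ≠ τ ∧ ∀ g, T (ρ g) = σ g.1.trace * (τ g.1.trace ^ 2 - 1))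

/-- odd Schur multiplier -/
def NS : Prop := ∀ (k G : Type u) [Field k] [Group G] (P : Subgroup (G6 k)) (π : P →* G), Rq P π →
  ∀ (G' : Type) [Group G'] (m : ℕ), Nonempty (G ≃* G') → HasCyclicSchurMultiplier G' m → Odd m → Function.Injective π

/-- traces determine the field and the representation -/
def TE : Prop := ∀ (F : Type u) [Field F] [Fintype F], (∀ P : Subgroup (G6 F), alg P = ⊤ → Fld P → ∀ K : Subfield F,
  (∀ x ∈ P, T x ∈ K) → K = ⊤) ∧ ∀ (Γ : Type v) [Group Γ] (ρ ρ' : Γ →* G6 F), alg ρ.range = ⊤ → (∀ g, T (ρ g) = T (ρ' g)) →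
  ∃ B : G6 F, ∀ g, B * ρ g * B⁻¹ = ρ' g

/-- overgroups -/
def NM : Prop := ∀ (k G : Type u) [Field k] [Group G] (H P : Subgroup (G6 k)) (π : P →* G), St H P π →
  ∀ (M : Subgroup (G6 k)) (J : M6 k) (B : G6 k), J ≠ 0 → (∀ m ∈ M, m.valᵀ * J * m.val = J) → (∀ h ∈ H, B * h * B⁻¹ ∈ M) →
  (∀ m ∈ M, B⁻¹ * m * B ∈ H) ∨ ∀ g ∈ S6 k, B * g * B⁻¹ ∈ M

/-- `SU₃` is generated by the stabilisers of the basis vectors -/
def GS : Prop := ∀ (E : Type) [Field E] [Fintype E] (r : ℕ), Fintype.card E = r ^ 2 → 3 ≤ r →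
  Subgroup.closure {g : SU 3 E r | ∃ i, g.1.1 *ᵥ Pi.single i 1 = Pi.single i 1} = ⊤

/-! ### the conditions on the field -/

def C5 (q p : ℕ) : Prop := q = p ∧ (p % 40 = 3 ∨ p % 40 = 37 ∨ p % 40 = 13 ∨ p % 40 = 27 ∨ p % 8 = 1 ∨ p % 8 = 7)
def C7 (q p : ℕ) : Prop := (q = p ∧ p ≠ 7 ∧ (p % 16 = 1 ∨ p % 16 = 15 ∨ p % 16 = 7 ∨ p % 16 = 9)) ∨
  (q = p ^ 2 ∧ (p % 16 = 3 ∨ p % 16 = 13 ∨ p % 16 = 5 ∨ p % 16 = 11))
def C13 (q p : ℕ) : Prop := (q = p ∧ (p % 13 = 1 ∨ p % 13 = 12 ∨ p % 13 = 3 ∨ p % 13 = 10 ∨ p % 13 = 4 ∨ p % 13 = 9)) ∨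
  (q = p ^ 2 ∧ (p % 13 = 2 ∨ p % 13 = 11 ∨ p % 13 = 5 ∨ p % 13 = 8 ∨ p % 13 = 6 ∨ p % 13 = 7))
def CJ (q p : ℕ) : Prop := (q = p ∧ (p % 5 = 0 ∨ p % 5 = 1 ∨ p % 5 = 4)) ∨ (q = p ^ 2 ∧ (p % 5 = 2 ∨ p % 5 = 3))

/-! ### the groups -/

section
variable (G : Type u) [Group G]
def L2 (r : ℕ) : Prop := ∃ (E : Type) (_ : Field E) (_ : Fintype E), Fintype.card E = r ∧ Nonempty (G ≃* PSL(2, E))
def L3 (r : ℕ) : Prop := ∃ (E : Type) (_ : Field E) (_ : Fintype E), Fintype.card E = r ∧ Nonempty (G ≃* PSL(3, E))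
def U3 (r : ℕ) : Prop := ∃ (E : Type) (_ : Field E) (_ : Fintype E), Fintype.card E = r ^ 2 ∧ Nonempty (G ≃* PSU 3 E r)
def S4 (r : ℕ) : Prop := ∃ (E : Type) (_ : Field E) (_ : Fintype E), Fintype.card E = r ∧ Nonempty (G ≃* PSp 2 E)
def G2 (r : ℕ) : Prop := ∃ (E : Type) (_ : Field E) (_ : Fintype E), Fintype.card E = r ∧ Nonempty (G ≃* Lie.chevG2.group E)
def D4 (r : ℕ) : Prop := ∃ (E : Type) (_ : Field E) (_ : Fintype E), Fintype.card E = r ^ 3 ∧ Nonempty (G ≃* Lie.twistedD4 E r)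
def Ln (n r : ℕ) : Prop := ∃ (E : Type) (_ : Field E) (_ : Fintype E), Fintype.card E = r ∧ Nonempty (G ≃* PSL(n, E))
def Un (n r : ℕ) : Prop := ∃ (E : Type) (_ : Field E) (_ : Fintype E), Fintype.card E = r ^ 2 ∧ Nonempty (G ≃* PSU n E r)
def Al (n : ℕ) : Prop := Nonempty (G ≃* alternatingGroup (Fin n))
end

/-- statements about representations over an algebraically closed field of characteristic `p` -/
def Kl (X : ∀ (G : Type u) [Group G], ℕ → Prop) : Prop := ∀ (K G : Type u) [Field K] [IsAlgClosed K] [Group G] (p : ℕ) [Fact p.Prime]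
  [CharP K p] (P : Subgroup (G6 K)) (π : P →* G), Rp P π → X G p

/-- statements about maximal subgroups over the field with `q` elements and characteristic `p` -/
def Ml (X : ∀ (G : Type u) [Group G], ℕ → ℕ → Prop) : Prop := ∀ (F G : Type u) [Field F] [Fintype F] [Group G] (p : ℕ) [Fact p.Prime]
  [CharP F p] (H P : Subgroup (G6 F)) (π : P →* G), St H P π → X G (Fintype.card F) p

def LX : Prop := Kl.{u} fun G _ p => ∀ r, Odd r → ¬ p ∣ r → L2 G r → r = 5 ∨ r = 7 ∨ r = 9 ∨ r = 13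
def A6 : Prop := Kl.{u} fun G _ p => p ≠ 3 → ¬ Al G 6
def LD : Prop := Ml.{u} fun G _ q p => ∀ r, p ∣ r → L2 G r → 7 ≤ p ∧ r = q
def A5 : Prop := Ml.{u} fun G _ q p => p ≠ 2 → p ≠ 5 → L2 G 5 → C5 q p
def L7 : Prop := Ml.{u} fun G _ q p => p ≠ 2 → p ≠ 7 → L2 G 7 → C7 q p
def L7t : Prop := Ml.{u} fun G _ q _ => q = 9 → ¬ L2 G 7
def L13 : Prop := Ml.{u} fun G _ q p => p ≠ 2 → p ≠ 13 → L2 G 13 → C13 q p
def HW : Prop := Ml.{u} fun G _ _ p => p = 2 → ¬ L2 G 7 ∧ ¬ L2 G 13 ∧ ¬ Spor.IsoJ2 G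
def A7 : Prop := Kl.{u} fun G _ p => Al G 7 → p = 3
def A7t : Prop := Ml.{u} fun G _ q p => p = 3 → Al G 7 → q = 9
def MM : Prop := Kl.{u} fun G _ _ => ¬ Spor.IsoM11 G ∧ ¬ Spor.IsoM12 G
def JR : Prop := Kl.{u} fun G _ p => p = 2 → ¬ Spor.IsoJ1 G ∧ ¬ Lie.IsoRee G
def L3U : Prop := Kl.{u} fun G _ p => p ≠ 2 → ∀ r, Odd r → 5 ≤ r → ¬ L3 G r ∧ ¬ U3 G r
def U33 : Prop := Kl.{u} fun G _ p => p = 3 → ¬ U3 G 3
def L33 : Prop := Kl.{u} fun G _ p => p ≠ 2 → ¬ L3 G 3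
def U34 : Prop := Kl.{u} fun G _ p => p ≠ 2 → ¬ U3 G 4
def U3q : Prop := Ml.{u} fun G _ q p => U3 G 3 → q = p
def U3a : Prop := ∀ (F G : Type u) [Field F] [Fintype F] [Group G] (H P : Subgroup (G6 F)) (π : P →* G), St H P π →
  (2 : F) ≠ 0 → (3 : F) ≠ 0 → U3 G 3 → IsSquare (3 : F) ∨ ∀ h ∈ H, h ∈ P ∨ -h ∈ P
def U3b : Prop := ∀ (F G : Type u) [Field F] [Fintype F] [Group G] (H P : Subgroup (G6 F)) (π : P →* G), St H P π →
  (2 : F) ≠ 0 → (3 : F) ≠ 0 → U3 G 3 → (∀ h ∈ H, h ∈ P ∨ -h ∈ P) → ¬ IsSquare (5 : F)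
/-- arithmetic, from `U3q U3a U3b` -/
def U3o : Prop := Ml.{u} fun G _ _ p => 5 ≤ p → U3 G 3 →
  p % 60 = 7 ∨ p % 60 = 53 ∨ p % 60 = 17 ∨ p % 60 = 43 ∨ p % 12 = 1 ∨ p % 12 = 11
def J2o : Prop := Ml.{u} fun G _ q p => p ≠ 2 → Spor.IsoJ2 G → CJ q p
def E2 : Prop := Kl.{u} fun G _ p => p = 2 → ∀ r, Even r → 4 ≤ r → ¬ L3 G r ∧ ¬ U3 G r
def SZ : Prop := Kl.{u} fun G _ p => p = 2 → ¬ Lie.IsoSuzuki G
def TD : Prop := Kl.{u} fun G _ p => p = 2 → ∀ r, Even r → ¬ D4 G r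
def S4e : Prop := Kl.{u} fun G _ p => p = 2 → ∀ r, Even r → 4 ≤ r → ¬ S4 G r

/-! ### odd characteristic -/

/-- elementary abelian 2-subgroups split into two unfused parts -/
def Two (G : Type u) [Group G] : Prop := ∀ A : Subgroup G, (∀ x ∈ A, x * x = 1) → ∃ B ≤ A, Nat.card B ≤ 4 ∧
  Nat.card A ≤ 4 * Nat.card B ∧ ∀ x ∈ B, ∀ y ∈ A, IsConj x y → y ∈ B

def EL : Prop := ∀ (k G : Type u) [Field k] [Group G] (P : Subgroup (G6 k)) (π : P →* G), (2 : k) ≠ 0 → Rq P π →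
  Two G ∧ (Function.Injective π → PRankLE 2 2 G)

def TVo : Prop := ∀ (F G : Type u) [Field F] [Fintype F] [Group G] (P : Subgroup (G6 F)) (π : P →* G), (2 : F) ≠ 0 →
  Rq P π → Fld P → NoTv P ∨ S6 F ≤ P

/-- groups with odd Schur multiplier -/
def GK1 : Prop := ∀ (k G : Type u) [Field k] [Group G] (P : Subgroup (G6 k)) (π : P →* G), Rq P π →
  (∃ r, Odd r ∧ (G2 G r ∨ D4 G r ∨ Ln G 5 r ∨ Un G 5 r)) ∨ U3 G 8 ∨ Lie.IsoRee G ∨ Spor.IsoJ1 G → Function.Injective π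
def GK2 : Prop := ∀ (G : Type u) [Group G] [Finite G], Two G → (∀ r, Even r → 8 ≤ r → ¬ L2 G r) ∧
  (∀ n, 8 ≤ n → ¬ Al G n) ∧ ∀ (E : Type) [Field E] [Fintype E], Fintype.card E = 8 → ¬ Nonempty (G ≃* Lie.Sz E 4)
def GK3 : Prop := ∀ (G : Type u) [Group G] [Finite G], Two G → ∀ r, Odd r → ¬ S4 G r ∧ ¬ Ln G 4 r ∧ ¬ Un G 4 r

section
variable {k : Type u} [Field k]
abbrev M2 (k : Type u) := Matrix (Fin 2) (Fin 2) k
abbrev M32 (k : Type u) := Matrix (Fin 3) (Fin 3) (M2 k)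
def sd : I6 → Fin 3 × Fin 2 := Sum.elim (·, 0) (·, 1)
/-- `3 × 3` matrices of `2 × 2` blocks; block `i` is the plane spanned by `inl i`, `inr i` -/
def kr (A : M32 k) : M6 k := Matrix.of fun s t => A (sd s).1 (sd t).1 (sd s).2 (sd t).2
def Mem (P : Subgroup (G6 k)) (A : M32 k) : Prop := ∃ g ∈ P, g.val = kr A
def bl (a b c : M2 k) : M32 k := !![a, 0, 0; 0, b, 0; 0, 0, c]
def sw : M32 k := !![0, 1, 0; 1, 0, 0; 0, 0, 1]
def sw' : M32 k := !![1, 0, 0; 0, 0, 1; 0, 1, 0]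
/-- `κ` on `{(w, -w, 0)}`, the identity on its perp -/
def rf (κ : M2 k) : M32 k :=
  !![(2 : k)⁻¹ • (1 + κ), (2 : k)⁻¹ • (1 - κ), 0; (2 : k)⁻¹ • (1 - κ), (2 : k)⁻¹ • (1 + κ), 0; 0, 0, 1]
def InB (g : G6 k) : Prop := ∃ a b c : SL(2, k), g.val = kr (bl a.1 b.1 c.1) ∨ g.val = kr (bl a.1 b.1 c.1 * sw)
def No4 (P : Subgroup (G6 k)) : Prop := ∀ x ∈ P, x ^ 4 = 1 → x ^ 2 ≠ 1 → rk x ≠ 2
def O4 (P : Subgroup (G6 k)) : Set (M2 k) := {a | a * a = -1 ∧ Mem P (bl a 1 1)}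
def Ph (P : Subgroup (G6 k)) : Set SL(2, k) := {φ | Mem P (bl (φ⁻¹).1 φ.1 1)}
def Syl (P S : Subgroup (G6 k)) : Prop := S ≤ P ∧ IsPGroup 2 S ∧ ∀ T ≤ P, IsPGroup 2 T → S ≤ T → T = S

structure Cf (P S : Subgroup (G6 k)) : Prop where
  neg : -1 ∈ P
  s1 : Mem P sw
  s2 : Mem P sw'
  syl : Syl P S
  inB : ∀ s ∈ S, InB s
  o4 : (O4 P).Nonempty
  cj : ∃ g ∈ P, g.val * kr sw = kr (bl (-1) 1 1) * g.val

def C2 (P : Subgroup (G6 k)) : Prop := (∀ κ, κ ∈ O4 P ↔ κ * κ = -1 ∧ Mem P (rf κ)) ∧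
  ∀ κ ∈ O4 P, ∀ a ∈ O4 P, ∃ b ∈ O4 P, (1 + κ) * a = b * (1 + κ)

theorem kr_mul (A B : M32 k) : kr (A * B) = kr A * kr B := by
  ext s t
  simp [kr, Matrix.mul_apply, Matrix.sum_apply, Fintype.sum_sum_type, sd, Fin.sum_univ_two, Finset.sum_add_distrib]
theorem kr_one : kr (1 : M32 k) = 1 := by
  ext s t
  rcases s with s | s <;> rcases t with t | t <;> by_cases h : s = t <;> simp [kr, sd, Matrix.one_apply, h]
theorem kr_inj {A B : M32 k} (h : kr A = kr B) : A = B := by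
  ext i j a b
  have := congrFun (congrFun h (if a = 0 then .inl i else .inr i)) (if b = 0 then .inl j else .inr j)
  fin_cases a <;> fin_cases b <;> simpa [kr, sd] using this
theorem Mem.mul {P : Subgroup (G6 k)} {A B : M32 k} : Mem P A → Mem P B → Mem P (A * B)
  | ⟨g, hg, e⟩, ⟨h, hh, f⟩ => ⟨g * h, P.mul_mem hg hh, by rw [Units.val_mul, e, f, kr_mul]⟩
theorem Mem.inv {P : Subgroup (G6 k)} {A B : M32 k} (e : A * B = 1) : Mem P A → Mem P B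
  | ⟨g, hg, f⟩ => ⟨g⁻¹, P.inv_mem hg, Units.inv_eq_of_mul_eq_one_right (by rw [f, ← kr_mul, e, kr_one])⟩
end

/-- statements about the configuration -/
def Cl (X : ∀ (F : Type u) [Field F], Subgroup (G6 F) → Prop) : Prop := ∀ (F G : Type u) [Field F] [Fintype F] [Group G]
  (P S : Subgroup (G6 F)) (π : P →* G), (2 : F) ≠ 0 → Rp P π → Cf P S → X F P

def MO : Prop := ∀ (F : Type u) [Field F] [Fintype F], (2 : F) ≠ 0 → ∀ S ≤ S6 F, IsPGroup 2 S →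
  ∃ g ∈ S6 F, ∀ s ∈ S, InB (g * s * g⁻¹)
def SR : Prop := ∀ (F : Type u) [Field F] [Fintype F], (2 : F) ≠ 0 → ∀ A N : Subgroup (G6 F), IsPGroup 2 A → (∀ a ∈ A, InB a) →
  No4 A → N ≤ A → -1 ∈ N → (∀ a ∈ A, a * a ∈ N) → N.relIndex A ≤ 16
/-- glue, from `MO SR` -/
def R4 : Prop := ∀ (F G : Type u) [Field F] [Fintype F] [Group G] (P : Subgroup (G6 F)) (π : P →* G), (2 : F) ≠ 0 →
  Rq P π → -1 ∈ P → No4 P → SectionalPRankLE 2 4 G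
def CA1 : Prop := ∀ (F G : Type u) [Field F] [Fintype F] [Group G] (P : Subgroup (G6 F)) (π : P →* G), (2 : F) ≠ 0 →
  Rq P π → -1 ∈ P → ¬ No4 P → PRankLE 2 2 G ∨ ∃ g ∈ S6 F, ∃ S, Cf (P.map (MulAut.conj g).toMonoidHom) S
def CA2 : Prop := Cl.{u} fun _ _ P => C2 P
def CA3 : Prop := Cl.{u} fun _ _ P => C2 P → ∀ κ ∈ O4 P, ∃ j ∈ Ph P, j.1 * j.1 = -1 ∧ j.1 ≠ κ ∧ j.1 ≠ -κ
def CA4 : Prop := Cl.{u} fun _ _ P => C2 P → ∀ κ ∈ O4 P, ∀ j ∈ Ph P, j.1 * j.1 = -1 → j.1 ≠ κ → j.1 ≠ -κ →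
  ∃ a ∈ O4 P, a ≠ κ ∧ a ≠ -κ
def CA5 : Prop := Cl.{u} fun _ _ P => C2 P → ∀ κ ∈ O4 P, ∀ a ∈ O4 P, a ≠ κ → a ≠ -κ → ∃ i ∈ O4 P, ∃ j ∈ O4 P, i * j = -(j * i)
def CA6 : Prop := Cl.{u} fun F _ P => C2 P → ∀ i ∈ O4 P, ∀ j ∈ O4 P, i * j = -(j * i) →
  (3 : F) ≠ 0 ∧ Mem P (bl ((2 : F)⁻¹ • (-1 + i - j + i * j)) 1 1)
def CA7 : Prop := Cl.{u} fun F _ P => C2 P → IsSquare (2 : F) → (3 : F) ≠ 0 → ∀ i ∈ O4 P, ∀ j ∈ O4 P, i * j = -(j * i) →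
  Mem P (bl ((2 : F)⁻¹ • (-1 + i - j + i * j)) 1 1) → ∀ a ∈ O4 P, a = i ∨ a = -i ∨ a = j ∨ a = -j ∨ a = i * j ∨ a = -(i * j)
def CA8 : Prop := Cl.{u} fun F _ P => C2 P → (3 : F) ≠ 0 → ∀ i ∈ O4 P, ∀ j ∈ O4 P, i * j = -(j * i) →
  Mem P (bl ((2 : F)⁻¹ • (-1 + i - j + i * j)) 1 1) →
  ¬ ∀ a ∈ O4 P, a = i ∨ a = -i ∨ a = j ∨ a = -j ∨ a = i * j ∨ a = -(i * j)

end H6.SP
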