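/-
S5806, characteristic two: transvections and involutions of type `a₂`.  Paper proofs: `notes/SP6.md`, part D.
-/
import Cfsg.Agent.H6.SP0

set_option autoImplicit false
set_option linter.unusedSectionVars false

namespace H6.SP
open Matrix Cfsg Cfsg.Geo H27.Asch Module Submodule
open scoped commutatorElement MatrixGroups

universe u v

section
variable {k : Type u} [Field k]

/-- the transvection of `u` lies in `P` -/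
def Uv (P : Subgroup (G6 k)) (u : V6 k) : Prop := u ≠ 0 ∧ ∃ g ∈ P, g.val = 1 + E u u
def U1 (P : Subgroup (G6 k)) : Prop := ∀ u (c : k), Uv P u → Uv P (c • u) → c = 1
def U3v (P : Subgroup (G6 k)) : Prop := ∃ u w, Uv P u ∧ Uv P w ∧ Uv P (u + w) ∧ fm u w = 0

/-- the bivector `u ∧ w` as the map `x ↦ fm x w • u + fm x u • w` -/
def N (u w : V6 k) : M6 k := E u w + E w u
/-- the `a₂`-involution of `u ∧ w` lies in `P` -/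
def A2 (P : Subgroup (G6 k)) (u w : V6 k) : Prop := fm u w = 0 ∧ N u w ≠ 0 ∧ ∃ g ∈ P, g.val = 1 + N u w
def pr (u w u' w' : V6 k) : k := fm u u' * fm w w' + fm u w' * fm w u'
def T0 (P : Subgroup (G6 k)) : Prop := ∃ u w, A2 P u w
def T1 (P : Subgroup (G6 k)) : Prop := ∃ p x y, A2 P p x ∧ A2 P p y ∧ fm x y = 0 ∧ y ∉ span k {p, x}
def T2 (P : Subgroup (G6 k)) : Prop := ∃ p x y, A2 P p x ∧ A2 P p y ∧ fm x y ≠ 0
def Ty3 (u w u' w' : V6 k) : Prop := fm u u' = 0 ∧ fm u w' = 0 ∧ fm w u' = 0 ∧ fm w w' ≠ 0 ∧ u' ∉ span k {u}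
def T3 (P : Subgroup (G6 k)) : Prop := ∃ u w u' w', A2 P u w ∧ A2 P u' w' ∧ Ty3 u w u' w'
def E1 (P : Subgroup (G6 k)) : Prop := ∀ u w (c : k), A2 P u w → A2 P u (c • w) → c = 1
def EK (P : Subgroup (G6 k)) (K : Subfield k) : Prop := ∀ u w, A2 P u w → ∀ c, c ∈ K ↔ c = 0 ∨ A2 P u (c • w)
def PK (P : Subgroup (G6 k)) (K : Subfield k) : Prop := ∀ u w u' w', A2 P u w → A2 P u' w' → pr u w u' w' ∈ K
def Big (K : Subfield k) : Prop := ∃ c ∈ K, c ≠ 0 ∧ c ≠ 1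
/-- every line has a special point different from a given point -/
def Tp (P : Subgroup (G6 k)) : Prop := ∀ p x, A2 P p x → ∃ (α : k) (z : V6 k), A2 P (x + α • p) z ∧ fm p z ≠ 0
def CG (P : Subgroup (G6 k)) : Prop := ∀ p x y z, A2 P p x → A2 P p y → A2 P p z → fm x y ≠ 0 → fm x z ≠ 0 → fm x y = fm x z
def Cq (P : Subgroup (G6 k)) (p : V6 k) {n : ℕ} (w : Fin n → V6 k) : Prop :=
  (∀ i, A2 P p (w i)) ∧ (∀ i j, i ≠ j → fm (w i) (w j) = 1) ∧ ∀ y, A2 P p y → ∃ i, N p y = N p (w i)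

/-- the facts every chunk may use -/
structure Kt (P : Subgroup (G6 k)) : Prop where
  /-- pairs with pairing zero meet or are of type three -/
  ty : ∀ u w u' w' : V6 k, fm u w = 0 → fm u' w' = 0 → N u w ≠ 0 → N u' w' ≠ 0 → pr u w u' w' = 0 → ∃ a b a' b',
    N u w = N a b ∧ N u' w' = N a' b' ∧ fm a b = 0 ∧ fm a' b' = 0 ∧ (a' = a ∨ Ty3 a b a' b')
  /-- opposite pairs are swapped -/
  sw : ∀ u w u' w', A2 P u w → A2 P u' w' → pr u w u' w' ≠ 0 → ∃ n ∈ P, ∃ ν : k, ν ^ 2 * pr u w u' w' = 1 ∧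
    n.val *ᵥ u = ν • N u' w' *ᵥ u ∧ n.val *ᵥ w = ν • N u' w' *ᵥ w ∧ n.val *ᵥ u' = ν • N u w *ᵥ u' ∧
    n.val *ᵥ w' = ν • N u w *ᵥ w' ∧ ∀ v, fm v u = 0 → fm v w = 0 → fm v u' = 0 → fm v w' = 0 → n.val *ᵥ v = v
  one : ∀ u w u' w', A2 P u w → A2 P u' w' → ∃ g ∈ P, N (g.val *ᵥ u) (g.val *ᵥ w) = N u' w'
  opp : ∀ u w, A2 P u w → ∃ u' w', A2 P u' w' ∧ pr u w u' w' ≠ 0
  gen : T0 P → P ≤ Subgroup.closure {g | ∃ u w, A2 P u w ∧ g.val = 1 + N u w}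

/-- position in the flag `e₁ < e₂ < e₃ < f₃ < f₂ < f₁` -/
def ps : I6 → ℕ := Sum.elim (fun i => i) fun i => 5 - i
def Ut (g : G6 k) : Prop := ∀ s t, ps t ≤ ps s → (g.val - 1) s t = 0
end

/-! ### transvections -/

def Vl (X : ∀ (F : Type u) [Field F], Subgroup (G6 F) → Prop) : Prop := ∀ (F G : Type u) [Field F] [Fintype F] [CharP F 2]
  [Group G] (P : Subgroup (G6 F)) (π : P →* G), Rq P π → Fld P → (∃ u, Uv P u) → X F P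

/-- basic facts -/
def V0 {F : Type u} [Field F] (P : Subgroup (G6 F)) : Prop :=
  (∀ u w, Uv P u → Uv P w → ∃ g ∈ P, g.val *ᵥ u = w) ∧ span F {u | Uv P u} = ⊤ ∧
  P ≤ Subgroup.closure {g | ∃ u, Uv P u ∧ g.val = 1 + E u u} ∧
  ∀ u w, Uv P u → Uv P w → fm u w ≠ 0 → ∃ n ∈ P, n.val *ᵥ u = w ∧ n.val *ᵥ w = u ∧ ∀ v, fm v u = 0 → fm v w = 0 → n.val *ᵥ v = v
def V3 {F : Type u} [Field F] (P : Subgroup (G6 F)) : Prop := ∀ u v w, Uv P u → Uv P v → Uv P w → fm u v ≠ 0 →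
  w ∉ span F {u, v} → ∃ w', Uv P w' ∧ w' ∈ span F {u, v, w} ∧ fm w' u = 0 ∧ w' ∉ span F {u}
def V4 {F : Type u} [Field F] (P : Subgroup (G6 F)) : Prop := ∀ u v z (a : F), Uv P u → Uv P v → Uv P (a • u + z) → fm u v ≠ 0 →
  fm z u = 0 → fm z v = 0 → a ≠ 0 → a ≠ 1 → z ≠ 0 → Uv P ((1 + a)⁻¹ • z)
def TV0 : Prop := Vl.{u} fun _ _ P => V0 P
def TV3 : Prop := Vl.{u} fun _ _ P => V0 P → U1 P → V3 P
def TV4 : Prop := Vl.{u} fun _ _ P => V0 P → V4 P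
def TVa : Prop := Vl.{u} fun F _ P => V0 P → ¬ U1 P → S6 F ≤ P
def TVb : Prop := Vl.{u} fun _ _ P => V0 P → U1 P → V3 P → V4 P → U3v P
def TVc : Prop := Vl.{u} fun F _ P => V0 P → U1 P → V3 P → V4 P → U3v P → S6 F ≤ P

/-! ### `a₂`-involutions -/

def Gl (X : ∀ (F G : Type u) [Field F] [Group G], Subgroup (G6 F) → Prop) : Prop := ∀ (F G : Type u) [Field F] [Fintype F]
  [CharP F 2] [Group G] (P : Subgroup (G6 F)) (π : P →* G), Rp P π → Fld P → Kt P → X F G P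

def KT : Prop := ∀ (F G : Type u) [Field F] [Fintype F] [CharP F 2] [Group G] (P : Subgroup (G6 F)) (π : P →* G), Rq P π → Kt P
def EF : Prop := Gl.{u} fun F _ _ _ P => ∃ K : Subfield F, EK P K ∧ (Big K → PK P K)
def TP : Prop := Gl.{u} fun _ _ _ _ P => T2 P → Tp P ∧ (T1 P → T3 P)
def RK : Prop := Gl.{u} fun F _ _ _ P => T3 P → ∀ K : Subfield F, EK P K → PK P K → Big K → K = ⊤
def N1 : Prop := Gl.{u} fun F _ _ _ P => Tp P → T3 P → E1 P → ∀ c : F, c = 0 ∨ c = 1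
def N2 : Prop := Gl.{u} fun _ _ _ _ P => Tp P → T1 P → ¬ EK P ⊤
def DA : Prop := Gl.{u} fun F _ _ _ P => T0 P → Tp P → ¬ T3 P → ∀ K : Subfield F, EK P K → PK P K → ¬ Big K
def DB : Prop := Gl.{u} fun _ _ _ _ P => Tp P → ¬ T1 P → ¬ T3 P → E1 P → CG P
def DC0 : Prop := Gl.{u} fun F _ _ _ P => T2 P → ¬ T1 P → E1 P → CG P →
  ∃ (p : V6 F) (n : ℕ) (w : Fin n → V6 F), Cq P p w ∧ 2 ≤ n ∧ n ≤ 5
def DC2 : Prop := Gl.{u} fun F _ _ _ P => ¬ T3 P → ∀ (p : V6 F) (n : ℕ) (w : Fin n → V6 F), Cq P p w → 2 ≤ n → Odd n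
def DC3 : Prop := Gl.{u} fun F _ _ _ P => Tp P → ¬ T1 P → ¬ T3 P → E1 P → CG P → ∀ (p : V6 F) (w : Fin 3 → V6 F), ¬ Cq P p w
def DD : Prop := Gl.{u} fun F _ _ _ P => Tp P → ¬ T1 P → ¬ T3 P → E1 P → CG P → ∀ (p : V6 F) (w : Fin 5 → V6 F), ¬ Cq P p w
def S3 : Prop := Gl.{u} fun _ G _ _ P => T0 P → ¬ T2 P → (∃ r, Even r ∧ 4 ≤ r ∧ (L2 G r ∨ L3 G r ∨ U3 G r ∨ G2 G r)) ∨
  L3 G 2 ∨ Lie.IsoSuzuki G ∨ (∃ r, Even r ∧ D4 G r) ∨ Al G 6 ∨ U3 G 3 ∨ Spor.IsoJ2 G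

/-- a Sylow 2-subgroup of `G₂(2ⁿ)` -/
def GG : Prop := ∀ (E : Type) [Field E] [Fintype E] [CharP E 2], ∃ S : Sylow 2 (Lie.chevG2.group E),
  Nat.card ↥(S.1 ⊓ Subgroup.centralizer (S.1 : Set (Lie.chevG2.group E))) = Fintype.card E ∧
  ∃ a ∈ S.1, ∃ b ∈ S.1, a * b ≠ b * a ∧ ∀ z ∈ S.1 ⊓ Subgroup.centralizer (S.1 : Set (Lie.chevG2.group E)), z ≠ 1 →
    IsConj z a ∧ IsConj z b
def GF : Prop := Gl.{u} fun F G _ _ P => T0 P → ¬ T2 P → ∀ r, Even r → G2 G r → ∀ K : Subfield F, EK P K → T3 P ∧ Nat.card K = r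
def GI : Prop := ∀ (E : Type) (F : Type u) [Field E] [Fintype E] [Field F] [Fintype F] [CharP F 2],
  Fintype.card E = Fintype.card F → 2 < Fintype.card F → Nonempty (Lie.chevG2.group E ≃* Lie.G2 F)

def FL : Prop := ∀ (k : Type u) [Field k] [CharP k 2], ∀ S ≤ S6 k, Finite S → IsPGroup 2 S →
  ∃ g ∈ S6 k, ∀ s ∈ S, Ut (g * s * g⁻¹)
def CL : Prop := ∀ (k : Type u) [Field k] [Fintype k] [CharP k 2], ∀ S ≤ S6 k, (∀ s ∈ S, Ut s) → NoTv S → ¬ T0 S →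
  ∀ x ∈ S, ∀ y ∈ S, ∀ z ∈ S, Commute ⁅x, y⁆ z
/-- from `FL CL`, S2921, S1170 -/
def NA : Prop := Gl.{u} fun _ G _ _ P => ¬ T0 P → (∃ r, L2 G r) ∨ (∃ r, Even r ∧ 4 ≤ r ∧ (L3 G r ∨ U3 G r ∨ S4 G r)) ∨
  L3 G 2 ∨ Lie.IsoRee G ∨ Spor.IsoJ1 G ∨ Lie.IsoSuzuki G ∨ Al G 7

end H6.SP
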