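/-
S5806, characteristic two: identities for bivectors.
-/
import Cfsg.Agent.H6.SP1
import Cfsg.Agent.H11.SP2
import Cfsg.Agent.S0111

set_option autoImplicit false
set_option linter.unusedSectionVars false

namespace H6.SP
open Matrix Cfsg Cfsg.Geo H27.Asch Module Submodule H11.SP
open scoped commutatorElement MatrixGroups

universe u
variable {k : Type u} [Field k] {G : Type*} [Group G] {P : Subgroup (G6 k)} {π : P →* G} {u w u' w' p x y v : V6 k} {c : k}

theorem mext {a b : M6 k} (h : ∀ v, a *ᵥ v = b *ᵥ v) : a = b := Matrix.toLin'.injective (LinearMap.ext h)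
theorem gext {a b : G6 k} (h : ∀ v, a.val *ᵥ v = b.val *ᵥ v) : a = b := Units.ext (mext h)
theorem E_mv (u w v : V6 k) : E u w *ᵥ v = fm v w • u := Frm.E_mulVec ..
theorem N_mv (u w v : V6 k) : N u w *ᵥ v = fm v w • u + fm v u • w := by rw [N, add_mulVec, E_mv, E_mv]
theorem r_mv (u w v : V6 k) : (1 + N u w) *ᵥ v = v + (fm v w • u + fm v u • w) := by rw [add_mulVec, one_mulVec, N_mv]
theorem t_mv (u v : V6 k) : (1 + E u u) *ᵥ v = v + fm v u • u := by rw [add_mulVec, one_mulVec, E_mv]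
theorem mul_mv (g h : G6 k) (v : V6 k) : (g * h).val *ᵥ v = g.val *ᵥ (h.val *ᵥ v) := by rw [Units.val_mul, mulVec_mulVec]
theorem inv_mv (g : G6 k) (v : V6 k) : (g⁻¹).val *ᵥ (g.val *ᵥ v) = v := by rw [← mul_mv, inv_mul_cancel]; simp
theorem mv_inv (g : G6 k) (v : V6 k) : g.val *ᵥ ((g⁻¹).val *ᵥ v) = v := by rw [← mul_mv, mul_inv_cancel]; simp
theorem fm_iso {g : G6 k} (h : g ∈ S6 k) (u v : V6 k) : fm (g.val *ᵥ u) (g.val *ᵥ v) = fm u v := mem_S6.1 h u v
theorem fm_inv {g : G6 k} (h : g ∈ S6 k) (u v : V6 k) : fm ((g⁻¹).val *ᵥ u) v = fm u (g.val *ᵥ v) := by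
  rw [← fm_iso h, mv_inv]
theorem fm_nd' (h : ∀ u, fm u v = 0) : v = 0 := fm_nd fun u => by rw [fm_swap, h, neg_zero]
theorem N_comm (u w : V6 k) : N u w = N w u := add_comm _ _
theorem N_add_r (u w w' : V6 k) : N u (w + w') = N u w + N u w' := mext fun v => by simp only [N_mv, add_mulVec, fm_add_r]; module
theorem N_add_l (u u' w : V6 k) : N (u + u') w = N u w + N u' w := by rw [N_comm, N_add_r, N_comm w, N_comm w]
theorem N_smul_r (c : k) (u w : V6 k) : N u (c • w) = c • N u w := mext fun v => by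
  simp only [N_mv, smul_mulVec, fm_smul_r]; module
theorem N_smul_l (c : k) (u w : V6 k) : N (c • u) w = c • N u w := by rw [N_comm, N_smul_r, N_comm]
theorem N_zero_r (u : V6 k) : N u 0 = 0 := mext fun v => by simp [N_mv]
theorem N_zero_l (u : V6 k) : N 0 u = 0 := by rw [N_comm, N_zero_r]
theorem E_cj {g : G6 k} (h : g ∈ S6 k) (u w : V6 k) : g.val * E u w * (g⁻¹).val = E (g.val *ᵥ u) (g.val *ᵥ w) := mext fun v => by
  rw [← mulVec_mulVec, ← mulVec_mulVec, E_mv, E_mv, mulVec_smul, fm_inv h]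
theorem N_cj {g : G6 k} (h : g ∈ S6 k) (u w : V6 k) : g.val * N u w * (g⁻¹).val = N (g.val *ᵥ u) (g.val *ᵥ w) := by
  rw [N, mul_add, add_mul, E_cj h, E_cj h, N]
theorem r_cj {g a : G6 k} (h : g ∈ S6 k) (e : a.val = 1 + N u w) : (g * a * g⁻¹).val = 1 + N (g.val *ᵥ u) (g.val *ᵥ w) := by
  rw [Units.val_mul, Units.val_mul, e, mul_add, add_mul, N_cj h, mul_one, Units.mul_inv]
theorem t_cj {g a : G6 k} (h : g ∈ S6 k) (e : a.val = 1 + E u u) : (g * a * g⁻¹).val = 1 + E (g.val *ᵥ u) (g.val *ᵥ u) := by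
  rw [Units.val_mul, Units.val_mul, e, mul_add, add_mul, E_cj h, mul_one, Units.mul_inv]
theorem mv_ne (g : G6 k) (h : u ≠ 0) : g.val *ᵥ u ≠ 0 := fun e => h (by rw [← inv_mv g u, e, mulVec_zero])
theorem Uv.cj (hP : P ≤ S6 k) (h : Uv P u) {g : G6 k} (hg : g ∈ P) : Uv P (g.val *ᵥ u) :=
  let ⟨h0, a, ha, e⟩ := h; ⟨mv_ne g h0, _, P.mul_mem (P.mul_mem hg ha) (P.inv_mem hg), t_cj (hP hg) e⟩
theorem A2.cj (hP : P ≤ S6 k) (h : A2 P u w) {g : G6 k} (hg : g ∈ P) : A2 P (g.val *ᵥ u) (g.val *ᵥ w) := by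
  obtain ⟨h0, h1, a, ha, e⟩ := h
  refine ⟨by rw [fm_iso (hP hg), h0], fun z => h1 ?_, _, P.mul_mem (P.mul_mem hg ha) (P.inv_mem hg), r_cj (hP hg) e⟩
  rw [← N_cj (hP hg)] at z
  simpa [mul_assoc] using congrArg (fun m => (g⁻¹).val * m * g.val) z
theorem A2.symm (h : A2 P u w) : A2 P w u := ⟨by rw [fm_swap, h.1, neg_zero], N_comm u w ▸ h.2.1, N_comm u w ▸ h.2.2⟩
theorem A2.congr (h : A2 P u w) (e : N u w = N u' w') (z : fm u' w' = 0) : A2 P u' w' := ⟨z, e ▸ h.2.1, e ▸ h.2.2⟩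
theorem A2.ne_l (h : A2 P u w) : u ≠ 0 := fun e => h.2.1 (by rw [e, N_zero_l])
theorem A2.mono {Q : Subgroup (G6 k)} (l : P ≤ Q) (h : A2 P u w) : A2 Q u w :=
  let ⟨a, b, g, hg, e⟩ := h; ⟨a, b, g, l hg, e⟩
theorem pr_eq (u w u' w' : V6 k) : pr u w u' w' = fm u u' * fm w w' + fm u w' * fm w u' := rfl
theorem pr_cj {g : G6 k} (h : g ∈ S6 k) : pr (g.val *ᵥ u) (g.val *ᵥ w) (g.val *ᵥ u') (g.val *ᵥ w') = pr u w u' w' := by
  simp only [pr, fm_iso h]
theorem rk_E (hu : u ≠ 0) (hc : c ≠ 0) {g : G6 k} (e : g.val = 1 + c • E u u) : rk g = 1 := by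
  rw [rk, e, add_sub_cancel_left, Matrix.rank, ← finrank_span_singleton (K := k) hu]
  refine congrArg (fun W : Submodule k (V6 k) => finrank k W) (le_antisymm ?_ (span_le.2 ?_))
  · rintro _ ⟨v, rfl⟩
    rw [mulVecLin_apply, smul_mulVec, E_mv]; exact smul_mem _ _ (smul_mem _ _ (mem_span_singleton_self u))
  · rintro _ ⟨⟩
    obtain ⟨v, hv⟩ : ∃ v, fm v u ≠ 0 := by by_contra! h; exact hu (fm_nd' h)
    exact ⟨(c * fm v u)⁻¹ • v, by
      rw [mulVecLin_apply, smul_mulVec, E_mv, fm_smul_l, smul_smul, mul_left_comm, inv_mul_cancel₀ (mul_ne_zero hc hv), one_smul]⟩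
theorem NoTv.eq (h : NoTv P) (hu : u ≠ 0) {g : G6 k} (hg : g ∈ P) (e : g.val = 1 + c • E u u) : c = 0 :=
  by_contra fun hc => h g hg (rk_E hu hc e)

/-- invariance under generators -/
theorem irr_gen (h : Rq P π) {S : Set (G6 k)} (hS : P ≤ Subgroup.closure S) (W : Submodule k (V6 k))
    (i : ∀ g ∈ S, ∀ v ∈ W, g.val *ᵥ v ∈ W) : W = ⊥ ∨ W = ⊤ := by
  refine irr_of_alg h.top W fun g hg => ?_
  refine Subgroup.closure_induction (p := fun g _ => ∀ v ∈ W, g.val *ᵥ v ∈ W) i (by simp) (fun a b _ _ ha hb v hv => ?_)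
    (fun a _ ha v hv => ?_) (hS hg)
  · rw [mul_mv]; exact ha _ (hb _ hv)
  · let f : W →ₗ[k] W := (Matrix.toLin' a.val).restrict fun v hv => ha v hv
    have : Function.Injective f := fun x y e => Subtype.ext (by
      have e' : a.val *ᵥ x.1 = a.val *ᵥ y.1 := congrArg Subtype.val e
      rw [← inv_mv a x.1, e', inv_mv])
    obtain ⟨x, hx⟩ := LinearMap.injective_iff_surjective.1 this ⟨v, hv⟩
    have e' : a.val *ᵥ x.1 = v := congrArg Subtype.val hx
    rw [← e', inv_mv]; exact x.2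

/-- a spanning set with rational pairings gives a rational form -/
theorem kf (hF : Fld P) (K : Subfield k) {κ : k} (hκ : κ ≠ 0) (L : Set (V6 k)) (hL : span k L = ⊤)
    (h : ∀ g ∈ P, ∀ v ∈ L, ∀ w ∈ L, κ * fm (g.val *ᵥ v) w ∈ K) : K = ⊤ := by
  classical
  by_contra hK
  obtain ⟨b, hb, sp, li⟩ := exists_linearIndependent k L
  let B : Basis b k (V6 k) := Basis.mk li (by rw [Subtype.range_coe_subtype, Set.setOf_mem_eq, sp, hL])
  let e : b ≃ I6 := B.indexEquiv (Pi.basisFun k I6)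
  let C : Basis I6 k (V6 k) := B.reindex e
  have hC : ∀ i, C i ∈ L := fun i => by simp only [C, B, Basis.reindex_apply, Basis.mk_apply]; exact hb (e.symm i).2
  let M : M6 k := (Pi.basisFun k I6).toMatrix C
  let iM : Invertible M := (Pi.basisFun k I6).invertibleToMatrix C
  have Mc : ∀ v, M *ᵥ v = ∑ j, v j • C j := fun v => by
    ext i; simp [M, Basis.toMatrix_apply, mulVec, dotProduct, mul_comm]
  let A : M6 k → M6 k := fun g => Matrix.of fun i j => κ * fm (C i) (g *ᵥ C j)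
  have Av : ∀ g v i, (A g *ᵥ v) i = κ * fm (C i) (g *ᵥ (M *ᵥ v)) := fun g v i => by
    rw [Mc, mulVec_sum, ← fl_ap, map_sum, Finset.mul_sum]
    simp only [A, mulVec_smul, fl_ap, fm_smul_r]
    simp [mulVec, dotProduct, mul_comm, mul_left_comm]
  have AK : ∀ g ∈ P, ∀ i j, A g.val i j ∈ K := fun g hg i j => by
    have := K.neg_mem (h g hg _ (hC j) _ (hC i))
    rwa [← mul_neg, ← fm_swap] at this
  let A0 : Matrix I6 I6 K := Matrix.of fun i j => ⟨_, AK 1 P.one_mem i j⟩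
  have e0 : A0.map K.subtype = A 1 := rfl
  have d : A0.det ≠ 0 := fun z => by
    have : (A 1).det = 0 := by rw [← e0, ← RingHom.mapMatrix_apply, ← RingHom.map_det, z, map_zero]
    obtain ⟨v, hv, z⟩ := exists_mulVec_eq_zero_iff.2 this
    refine hv (?_ : v = 0)
    have : M *ᵥ v = 0 := fm_nd' fun a => by
      rw [← C.sum_repr a, fm_swap, ← fl_ap, map_sum, Finset.sum_eq_zero, neg_zero]
      intro i _
      have := Av 1 v i
      rw [z, one_mulVec] at this
      rw [map_smul, fl_ap, fm_swap, (mul_eq_zero.1 this.symm).resolve_left hκ]; simp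
    rw [← one_mulVec v, ← invOf_mul_self M, ← mulVec_mulVec, this, mulVec_zero]
  refine hF K hK ⟨(unitOfInvertible M)⁻¹, ?_⟩
  rintro _ ⟨g, hg, rfl⟩ i j
  have e1 : A 1 * (⅟M * g.val * M) = A g.val := mext fun v => funext fun i => by
    rw [← mulVec_mulVec, Av, Av, one_mulVec, mulVec_mulVec, ← mul_assoc, ← mul_assoc, mul_invOf_self, one_mul, mulVec_mulVec]
  have e2 : ⅟M * g.val * M = A0⁻¹.map K.subtype * A g.val := by
    rw [← e1, ← e0, ← mul_assoc, ← Matrix.map_mul, nonsing_inv_mul _ (Ne.isUnit d), Matrix.map_one _ (map_zero _) (map_one _), one_mul]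
  change (⅟M * g.val * M) i j ∈ K
  rw [e2, Matrix.mul_apply]
  exact sum_mem fun l _ => mul_mem (A0⁻¹ i l).2 (AK g hg l j)

variable [CharP k 2]

theorem two : (2 : k) = 0 := by exact_mod_cast CharP.cast_eq_zero k 2
theorem aa (c : k) : c + c = 0 := by rw [← two_mul, two, zero_mul]
theorem vv {V : Type*} [AddCommGroup V] [Module k V] (v : V) : v + v = 0 := by rw [← two_smul k, two, zero_smul]
theorem fm_sy (u v : V6 k) : fm u v = fm v u := by rw [fm_swap, neg_eq_of_add_eq_zero_left (aa _)]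
theorem N_self (u : V6 k) : N u u = 0 := vv (k := k) _
theorem N_shift (u w : V6 k) (c : k) : N u (w + c • u) = N u w := by rw [N_add_r, N_smul_r, N_self, smul_zero, add_zero]
theorem N_shift' (u w : V6 k) (c : k) : N (u + c • w) w = N u w := by rw [N_comm, N_shift, N_comm]
theorem pr_N (u w u' w' : V6 k) : pr u w u' w' = fm (N u' w' *ᵥ u) w := by
  rw [N_mv, fm_add_l, fm_smul_l, fm_smul_l, pr, fm_sy u' w, fm_sy w' w, add_comm]
theorem pr_symm (u w u' w' : V6 k) : pr u w u' w' = pr u' w' u w := by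
  simp only [pr, fm_sy u', fm_sy w']; ring
theorem pr_congr {a b a' b' : V6 k} (e : N u w = N a b) (e' : N u' w' = N a' b') : pr u w u' w' = pr a b a' b' := by
  rw [pr_N, e', ← pr_N, pr_symm, pr_N, e, ← pr_N, pr_symm]
theorem NN_u (u w u' w' : V6 k) : N u w *ᵥ (N u' w' *ᵥ u) = pr u w u' w' • u := by
  simp only [N_mv, fm_add_l, fm_smul_l, pr, fm_sy u' u, fm_sy w' u, fm_sy u' w, fm_sy w' w]
  linear_combination (norm := module) (fm u u' * fm u w') • vv (k := k) w
theorem NN_w (u w u' w' : V6 k) : N u w *ᵥ (N u' w' *ᵥ w) = pr u w u' w' • w := by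
  rw [N_comm u, NN_u, pr_congr (N_comm w u) rfl]
theorem NNN (u w u' w' : V6 k) : N u w * N u' w' * N u w = pr u w u' w' • N u w := mext fun v => by
  rw [← mulVec_mulVec, ← mulVec_mulVec, N_mv u w v, mulVec_add, mulVec_add, mulVec_smul, mulVec_smul, mulVec_smul, mulVec_smul,
    NN_u, NN_w, smul_mulVec, N_mv]; module
theorem r_mul (hx : fm p x = 0) (hy : fm p y = 0) :
    (1 + N p x) * (1 + N p y) = 1 + N p (x + y) + fm x y • E p p := mext fun v => by
  simp only [← mulVec_mulVec, r_mv, add_mulVec, one_mulVec, N_mv, smul_mulVec, E_mv, fm_add_l, fm_add_r, fm_smul_l, fm_self, hx,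
    fm_sy y p, hy, fm_sy y x]
  module
theorem r_sq (h : fm u w = 0) : (1 + N u w) * (1 + N u w) = 1 := by
  rw [r_mul h h, vv (k := k) w, N_zero_r, fm_self, zero_smul, add_zero, add_zero]
theorem N_sq (h : fm u w = 0) : N u w * N u w = 0 := mext fun v => by
  simp [← mulVec_mulVec, N_mv, h, fm_sy w u]
/-- the involution of an isotropic bivector -/
def rr (u w : V6 k) (h : fm u w = 0) : G6 k := ⟨1 + N u w, 1 + N u w, r_sq h, r_sq h⟩
theorem r_S6 (h : fm u w = 0) {g : G6 k} (e : g.val = 1 + N u w) : g ∈ S6 k := mem_S6.2 fun a b => by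
  simp only [e, r_mv, fm_add_l, fm_add_r, fm_smul_l, fm_smul_r, fm_self, h, fm_sy w u, fm_sy u b, fm_sy w b]
  linear_combination (fm a w * fm b u + fm a u * fm b w) * two (k := k)
theorem r_inv (h : fm u w = 0) {g : G6 k} (e : g.val = 1 + N u w) : g * g = 1 := Units.ext (by rw [Units.val_mul, e, r_sq h]; rfl)
theorem N_ne : N u w ≠ 0 ↔ u ≠ 0 ∧ w ∉ span k {u} := by
  refine ⟨fun h => ⟨fun e => h (by rw [e, N_zero_l]), fun m => h ?_⟩, fun ⟨hu, hw⟩ e => hw ?_⟩
  · obtain ⟨c, rfl⟩ := mem_span_singleton.1 m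
    rw [N_smul_r, N_self, smul_zero]
  · obtain ⟨v, hv⟩ : ∃ v, fm v u ≠ 0 := by by_contra! h; exact hu (fm_nd' h)
    have := congrArg (· *ᵥ v) e
    simp only [N_mv, zero_mulVec] at this
    refine mem_span_singleton.2 ⟨-(fm v w / fm v u), ?_⟩
    apply smul_right_injective _ hv
    simp only [smul_smul, mul_neg, mul_div_cancel₀ _ hv]
    linear_combination (norm := module) -this
theorem A2.nm (h : A2 P u w) : w ∉ span k {u} := (N_ne.1 h.2.1).2
/-- a dual pair -/
theorem dual (h : N u w ≠ 0) : ∃ v, fm v u = 1 ∧ fm v w = 0 := by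
  obtain ⟨hw, hu⟩ := N_ne.1 (N_comm u w ▸ h)
  by_contra! H
  obtain ⟨a, ha⟩ : ∃ v, fm v w ≠ 0 := by by_contra! h; exact hw (fm_nd' h)
  have z : ∀ v, fm v w = 0 → fm v u = 0 := fun v hv => by_contra fun n =>
    H ((fm v u)⁻¹ • v) (by rw [fm_smul_l, inv_mul_cancel₀ n]) (by rw [fm_smul_l, hv, mul_zero])
  refine hu (mem_span_singleton.2 ⟨fm a u / fm a w, (sub_eq_zero.1 (fm_nd' fun v => ?_)).symm⟩)
  have := z (v - (fm v w / fm a w) • a) (by rw [fm_sub_l, fm_smul_l, div_mul_cancel₀ _ ha, sub_self])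
  rw [fm_sub_l, fm_smul_l] at this
  rw [fm_sub_r, fm_smul_r]; field_simp at this ⊢; linear_combination this
theorem mem_of_N (h : N u w ≠ 0) (e : N u w = N u' w') : u ∈ span k {u', w'} ∧ w ∈ span k {u', w'} := by
  have m : ∀ v, N u w *ᵥ v ∈ span k {u', w'} := fun v => by
    rw [e, N_mv]; exact mem_span_pair.2 ⟨_, _, rfl⟩
  obtain ⟨a, a1, a0⟩ := dual h
  obtain ⟨b, b1, b0⟩ := dual (N_comm u w ▸ h)
  exact ⟨by simpa [N_mv, b1, b0] using m b, by simpa [N_mv, a1, a0] using m a⟩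
theorem N_pair (a b c d : k) (u w : V6 k) : N (a • u + b • w) (c • u + d • w) = (a * d + b * c) • N u w := by
  simp only [N_add_l, N_add_r, N_smul_l, N_smul_r, N_self, N_comm w u]; module
theorem N_inj (hp : p ≠ 0) (e : N p x = N p y) : ∃ c : k, y = x + c • p := by
  have : N p (x + y) = 0 := by rw [N_add_r, e, vv (k := k)]
  obtain ⟨c, hc⟩ := mem_span_singleton.1 (by_contra fun n => N_ne.2 ⟨hp, n⟩ this)
  exact ⟨c, by rw [hc, ← add_assoc, vv (k := k), zero_add]⟩
theorem A2.shift (h : A2 P u w) (c : k) : A2 P u (w + c • u) := h.congr (N_shift ..).symm (by simp [h.1])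
theorem A2.scale (h : A2 P u w) (hc : c ≠ 0) : A2 P (c • u) (c⁻¹ • w) :=
  h.congr (by rw [N_smul_l, N_smul_r, smul_smul, mul_inv_cancel₀ hc, one_smul]) (by simp [h.1])
theorem A2.move (h : A2 P (c • u) w) (hc : c ≠ 0) : A2 P u (c • w) :=
  h.congr (by rw [N_smul_l, N_smul_r]) (by simpa [hc] using h.1)
/-- type at most one -/
theorem A2.add (hx : A2 P p x) (hy : A2 P p y) (z : fm x y = 0) (n : N p (x + y) ≠ 0) : A2 P p (x + y) := by
  obtain ⟨a, -, g, hg, e⟩ := hx
  obtain ⟨b, -, h, hh, f⟩ := hy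
  exact ⟨by simp [a, b], n, g * h, P.mul_mem hg hh, by rw [Units.val_mul, e, f, r_mul a b, z, zero_smul, add_zero]⟩
/-- type three: the commutator -/
theorem A2.t3 (hP : P ≤ S6 k) (h : A2 P u w) (h' : A2 P u' w') (t : Ty3 u w u' w') : A2 P u (fm w w' • u') := by
  obtain ⟨t1, t2, t3, t4, t5⟩ := t
  obtain ⟨a, -, g, hg, e⟩ := h'
  have c := h.cj hP hg
  rw [e, r_mv, r_mv, t1, t2, t3, zero_smul, zero_smul, add_zero, add_zero, add_zero] at c
  have := h.add c (by simp [t3]) (N_ne.2 ⟨h.ne_l, ?_⟩)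
  · rwa [← add_assoc, vv (k := k), zero_add] at this
  · rw [← add_assoc, vv (k := k), zero_add]; exact fun m => t5 ((smul_mem_iff _ t4).1 m)

theorem neg1 : (-1 : G6 k) = 1 := Units.ext (by rw [Units.val_neg, neg_eq_of_add_eq_zero_left (vv (k := k) _)])
theorem inj2 (h : Rq P π) : Function.Injective π := (injective_iff_map_eq_one _).2 fun x e =>
  Subtype.ext (((h.ker x).1 e).elim id (·.trans neg1))
noncomputable def iso2 (h : Rq P π) : P ≃* G := MulEquiv.ofBijective π ⟨inj2 h, h.sur⟩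
theorem simple2 (h : Rq P π) : IsSimpleGroup P := have := h.simp; (iso2 h).isSimpleGroup

/-- elements of a 2-group are unipotent -/
theorem unip {g : G6 k} {n : ℕ} (h : g ^ 2 ^ n = 1) : (g.val - 1) ^ 2 ^ n = 0 := by
  have : CharP (M6 k) 2 := inferInstance
  rw [sub_pow_char_pow_of_commute _ _ (Commute.one_right _), ← Units.val_pow_eq_pow_val, h, one_pow, Units.val_one, sub_self]
theorem eig1 {g : G6 k} {n : ℕ} (h : g ^ 2 ^ n = 1) (hv : v ≠ 0) (e : g.val *ᵥ v = c • v) : c = 1 := by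
  have : ∀ m : ℕ, (g ^ m).val *ᵥ v = c ^ m • v := fun m => by
    induction m with
    | zero => simp
    | succ m i => rw [pow_succ, mul_mv, e, mulVec_smul, i, smul_smul, pow_succ']
  have e2 := this (2 ^ n)
  rw [h, Units.val_one, one_mulVec] at e2
  have e3 : c ^ 2 ^ n = 1 := smul_left_injective k hv (by simpa using e2.symm)
  have : (c - 1) ^ 2 ^ n = 0 := by rw [sub_pow_char_pow, e3, one_pow, sub_self]
  exact sub_eq_zero.1 (pow_eq_zero_iff (by positivity) |>.1 this)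

/-- Thompson transfer -/
theorem tt (h : Rq P π) (S : Sylow 2 P) (χ : S.1 →* Multiplicative (ZMod 2)) (t : S.1) (ht : t * t = 1) (hχ : χ t ≠ 1) :
    ∃ (g : P) (m : g * t * g⁻¹ ∈ S.1), χ ⟨_, m⟩ = 1 := by
  have := fin_P h
  have su : Function.Surjective χ := fun a => by
    rcases (by decide : ∀ a b : Multiplicative (ZMod 2), b ≠ 1 → a = 1 ∨ a = b) a _ hχ with rfl | rfl
    exacts [⟨1, map_one _⟩, ⟨t, rfl⟩]
  have o : orderOf t.1 = 2 := orderOf_eq_prime (by rw [sq]; exact congrArg Subtype.val ht) fun e => hχ (by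
    rw [show t = 1 from Subtype.ext e, map_one])
  rcases Cfsg.Agent.S0111.result S (χ.ker.map S.1.subtype) (Subgroup.map_subtype_le _) (by
    rw [Subgroup.relIndex, Subgroup.subgroupOf, Subgroup.comap_map_eq_self_of_injective S.1.subtype_injective, Subgroup.index_ker,
      MonoidHom.range_eq_top.2 su]; simp) t.1 o t.2 (fun ⟨x, hx, e⟩ => hχ (by rw [← show x = t from Subtype.ext e]; exact hx))
    with ⟨M, n, i, -⟩ | ⟨g, x, hx, e⟩
  · have := simple2 h
    rcases n.eq_bot_or_eq_top with rfl | rfl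
    · rw [Subgroup.index_bot] at i
      have := isCyclic_of_prime_card i
      have := comm_top h
      rw [(commutator_eq_bot_iff P).2 inferInstance] at this
      exact absurd this bot_ne_top
    · simp at i
  · exact ⟨g, e ▸ x.2, by rw [← show x = ⟨_, e ▸ x.2⟩ from Subtype.ext e]; exact hx⟩

end H6.SP
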