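/-
S5806, characteristic two: cliques of `a₂`-involutions.
-/
import Cfsg.Agent.H6.SP2

set_option autoImplicit false
set_option linter.unusedSectionVars false

namespace H6.SP
open Matrix Cfsg Cfsg.Geo H27.Asch Module Submodule H11.SP
open scoped commutatorElement MatrixGroups

universe u
variable {k : Type u} [Field k] [CharP k 2] {G : Type*} [Group G] {P : Subgroup (G6 k)} {π : P →* G}
  {u w u' w' p x y z v : V6 k} {c : k}

theorem add_eq {V : Type*} [AddCommGroup V] [Module k V] {a b : V} : a + b = 0 ↔ a = b :=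
  ⟨fun h => by rw [← add_zero a, ← vv (k := k) b, ← add_assoc, h, zero_add], fun h => by rw [h, vv (k := k)]⟩

theorem pr0 {a b : G6 k} {n : ℕ} (h : fm u w = 0) (h' : fm u' w' = 0) (hu : u ≠ 0) (ea : a.val = 1 + N u w)
    (eb : b.val = 1 + N u' w') (e : (a * b) ^ 2 ^ n = 1) : pr u w u' w' = 0 := by
  by_contra hc
  set c := pr u w u' w'
  set D := (a * b).val - 1
  have n0 : N u w *ᵥ u = 0 := by simp [N_mv, h]
  have n1 : N u' w' *ᵥ (N u' w' *ᵥ u) = 0 := by rw [mulVec_mulVec, N_sq h', zero_mulVec]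
  have d : ∀ v, D *ᵥ v = N u w *ᵥ v + N u' w' *ᵥ v + N u w *ᵥ (N u' w' *ᵥ v) := fun v => by
    simp only [D, sub_mulVec, mul_mv, ea, eb, add_mulVec, one_mulVec, mulVec_add]; abel
  have e1 : (c⁻¹ • (D * (D + c • 1))) *ᵥ u = u := by
    rw [smul_mulVec, ← mulVec_mulVec, add_mulVec, smul_mulVec, one_mulVec, d u, n0, NN_u, zero_add, add_assoc, vv (k := k), add_zero,
      d, n1, NN_u, mulVec_zero, add_zero, add_zero, smul_smul, inv_mul_cancel₀ hc, one_smul]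
  have e2 : ∀ m : ℕ, (c⁻¹ • (D * (D + c • 1))) ^ m *ᵥ u = u := fun m => by
    induction m with
    | zero => simp
    | succ m i => rw [pow_succ, ← mulVec_mulVec, e1, i]
  have := e2 (2 ^ n)
  rw [smul_pow, Commute.mul_pow ((Commute.refl D).add_right ((Commute.one_right D).smul_right c)), unip e] at this
  exact hu (by simpa using this.symm)

theorem fm_span {a b : V6 k} (h : fm u w = 0) (ha : a ∈ span k {u, w}) (hb : b ∈ span k {u, w}) : fm a b = 0 := by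
  obtain ⟨c, d, rfl⟩ := mem_span_pair.1 ha
  obtain ⟨c', d', rfl⟩ := mem_span_pair.1 hb
  simp [h, fm_sy w u]

theorem meet (K : Kt P) (t : ¬ T3 P) (a : A2 P u w) (b : A2 P u' w') (z : pr u w u' w' = 0) :
    ∃ s x y, A2 P s x ∧ A2 P s y ∧ N u w = N s x ∧ N u' w' = N s y := by
  obtain ⟨s, x, s', y, e, e', f, f', rfl | h⟩ := K.ty u w u' w' a.1 b.1 a.2.1 b.2.1 z
  · exact ⟨_, x, y, a.congr e f, b.congr e' f', e, e'⟩
  · exact (t ⟨_, _, _, _, a.congr e f, b.congr e' f', h⟩).elim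

theorem thru (K : Kt P) (t : ¬ T3 P) (a : A2 P p x) (b : A2 P p y) (h : fm x y ≠ 0) (d : A2 P u w) (z1 : pr p x u w = 0)
    (z2 : pr p y u w = 0) : ∃ z, A2 P p z ∧ N u w = N p z := by
  obtain ⟨s, x1, y1, a1, b1, e, e'⟩ := meet K t a d z1
  obtain ⟨s', x2, y2, a2, b2, f, f'⟩ := meet K t b d z2
  obtain ⟨α, β, rfl⟩ := mem_span_pair.1 (mem_of_N a1.2.1 e.symm).1
  obtain ⟨α', β', rfl⟩ := mem_span_pair.1 (mem_of_N a2.2.1 f.symm).1
  have := fm_span d.1 (mem_of_N b1.2.1 e'.symm).1 (mem_of_N b2.2.1 f'.symm).1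
  simp only [fm_add_l, fm_add_r, fm_smul_l, fm_smul_r, fm_self, b.1, fm_sy x p, a.1, mul_zero, zero_add, mul_eq_zero, h,
    or_false] at this
  rcases this with rfl | rfl
  · rw [zero_smul, add_zero] at b2 f'
    exact ⟨_, b2.move (left_ne_zero_of_smul b2.ne_l), by rw [f', N_smul_l, N_smul_r]⟩
  · rw [zero_smul, add_zero] at b1 e'
    exact ⟨_, b1.move (left_ne_zero_of_smul b1.ne_l), by rw [e', N_smul_l, N_smul_r]⟩

theorem q_mv (p φ : V6 k) (c : k) (v : V6 k) : (1 + N p φ + c • E p p) *ᵥ v = v + (fm v φ + c * fm v p) • p + fm v p • φ := by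
  rw [add_mulVec, r_mv, smul_mulVec, E_mv]; module
theorem q_mul {φ ψ : V6 k} (h : fm p φ = 0) (h' : fm p ψ = 0) (c d : k) : (1 + N p φ + c • E p p) * (1 + N p ψ + d • E p p) =
    1 + N p (φ + ψ) + (c + d + fm φ ψ) • E p p := mext fun v => by
  simp only [← mulVec_mulVec, q_mv, fm_add_l, fm_add_r, fm_smul_l, fm_self, h, fm_sy ψ p, h', fm_sy ψ φ]
  module

/-- membership in the unipotent radical of the stabiliser of `p` -/
def Qm (P : Subgroup (G6 k)) (p φ : V6 k) (c : k) : Prop := fm p φ = 0 ∧ ∃ g ∈ P, g.val = 1 + N p φ + c • E p p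
theorem Qm.mul {φ ψ : V6 k} {d : k} : Qm P p φ c → Qm P p ψ d → Qm P p (φ + ψ) (c + d + fm φ ψ)
  | ⟨a, g, hg, e⟩, ⟨b, h, hh, f⟩ => ⟨by simp [a, b], g * h, P.mul_mem hg hh, by rw [Units.val_mul, e, f, q_mul a b]⟩
theorem A2.qm (h : A2 P p x) : Qm P p x 0 := ⟨h.1, by simpa using h.2.2⟩
theorem Qm.zero : Qm P p 0 0 := ⟨by simp, 1, P.one_mem, by simp [N_zero_r]⟩
theorem Qm.a2 (h : Qm P p x 0) (n : x ∉ span k {p}) (hp : p ≠ 0) : A2 P p x := ⟨h.1, N_ne.2 ⟨hp, n⟩, by simpa using h.2⟩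
theorem Qm.shift (h : Qm P p x c) (d : k) : Qm P p (x + d • p) c := ⟨by simp [h.1], by rw [N_shift]; exact h.2⟩
theorem Qm.tv (t : NoTv P) (hp : p ≠ 0) (h : Qm P p x c) (m : x ∈ span k {p}) : c = 0 := by
  obtain ⟨d, rfl⟩ := mem_span_singleton.1 m
  obtain ⟨-, g, hg, e⟩ := h
  exact t.eq hp hg (by rw [e, N_smul_r, N_self, smul_zero, add_zero])
theorem Qm.cj (hP : P ≤ S6 k) (h : Qm P p x c) {g : G6 k} (hg : g ∈ P) (e : g.val *ᵥ p = p) : Qm P p (g.val *ᵥ x) c := by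
  obtain ⟨a, b, hb, f⟩ := h
  refine ⟨by rw [← a, ← fm_iso (hP hg) p x, e], _, P.mul_mem (P.mul_mem hg hb) (P.inv_mem hg), ?_⟩
  rw [Units.val_mul, Units.val_mul, f, mul_add, mul_add, add_mul, add_mul, N_cj (hP hg), Matrix.mul_smul, Matrix.smul_mul,
    E_cj (hP hg), e, mul_one, Units.mul_inv]

def Qp (P : Subgroup (G6 k)) (p : V6 k) : Subgroup P where
  carrier := {g | ∃ (φ : V6 k) (c : k), fm p φ = 0 ∧ g.1.val = 1 + N p φ + c • E p p}
  mul_mem' := fun ⟨φ, c, a, e⟩ ⟨ψ, d, b, f⟩ => ⟨φ + ψ, c + d + fm φ ψ, by simp [a, b], by rw [Subgroup.coe_mul, Units.val_mul, e, f, q_mul a b]⟩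
  one_mem' := ⟨0, 0, by simp, by simp [N_zero_r]⟩
  inv_mem' := fun {g} ⟨φ, c, a, e⟩ => ⟨φ, c, a, Units.inv_eq_of_mul_eq_one_right (by
    rw [e, q_mul a a, vv (k := k), aa, N_zero_r]; simp)⟩
theorem Qp_sq {g : P} (h : g ∈ Qp P p) : g * g = 1 := by
  obtain ⟨φ, c, a, e⟩ := h
  exact Subtype.ext (Units.ext (by rw [Subgroup.coe_mul, Units.val_mul, e, q_mul a a, vv (k := k), aa, N_zero_r]; simp))

/-- a Sylow subgroup containing the clique at `p` -/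
structure Sy (P : Subgroup (G6 k)) (p : V6 k) (S : Sylow 2 P) : Prop where
  le : Qp P p ≤ S.1
  th : ∀ g ∈ S.1, ∀ u w, fm u w = 0 → N u w ≠ 0 → g.1.val = 1 + N u w → ∃ z, A2 P p z ∧ N u w = N p z
  fx : ∀ g ∈ S.1, g.1.val *ᵥ p = p

theorem ex_sy (h : Rq P π) (K : Kt P) (t : ¬ T3 P) (a : A2 P p x) (b : A2 P p y) (n : fm x y ≠ 0) : ∃ S, Sy P p S := by
  have := fin_P h
  obtain ⟨S, le⟩ := IsPGroup.exists_le_sylow (p := 2) (P := Qp P p) fun g => ⟨1, Subtype.ext (by simpa [sq] using Qp_sq g.2)⟩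
  have hk : ∀ {x}, A2 P p x → ∀ g ∈ S.1, ∀ u w, fm u w = 0 → g.1.val = 1 + N u w → pr p x u w = 0 := fun {x} a g hg u w z e => by
    obtain ⟨a0, -, d, hd, f⟩ := id a
    obtain ⟨m, hm⟩ := S.2 (⟨⟨d, hd⟩, le ⟨x, 0, a0, by simpa using f⟩⟩ * ⟨g, hg⟩)
    exact pr0 a0 z a.ne_l f e (congrArg (fun x : S.1 => x.1.1) hm)
  have th : ∀ g ∈ S.1, ∀ u w, fm u w = 0 → N u w ≠ 0 → g.1.val = 1 + N u w → ∃ z, A2 P p z ∧ N u w = N p z :=
    fun g hg u w z n0 e => thru K t a b n ⟨z, n0, g, g.2, e⟩ (hk a g hg u w z e) (hk b g hg u w z e)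
  refine ⟨S, le, th, fun g hg => ?_⟩
  have m : ∀ {x}, A2 P p x → p ∈ span k {g.1.val *ᵥ p, g.1.val *ᵥ x} := fun {x} a => by
    obtain ⟨a0, -, d, hd, f⟩ := id a
    have c := a.cj h.sp g.2
    obtain ⟨z, az, e⟩ := th (g * ⟨d, hd⟩ * g⁻¹) (mul_mem (mul_mem hg (le ⟨x, 0, a0, by simpa using f⟩)) (inv_mem hg)) _ _ c.1 c.2.1
      (r_cj (h.sp g.2) f)
    exact (mem_of_N az.2.1 e.symm).1
  obtain ⟨α, β, e⟩ := mem_span_pair.1 (m a)
  have := fm_span (b.cj h.sp g.2).1 (m b) (subset_span (show g.1.val *ᵥ y ∈ _ by simp))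
  rw [← e, fm_add_l, fm_smul_l, fm_smul_l, fm_iso (h.sp g.2), fm_iso (h.sp g.2), b.1, mul_zero, zero_add] at this
  rw [(mul_eq_zero.1 this).resolve_right n, zero_smul, add_zero] at e
  have α0 : α ≠ 0 := fun z => a.ne_l (by rw [← e, z, zero_smul])
  have e' : g.1.val *ᵥ p = α⁻¹ • p := by rw [eq_inv_smul_iff₀ α0, e]
  obtain ⟨m, hm⟩ := S.2 ⟨g, hg⟩
  rw [e', eig1 (congrArg (fun x : S.1 => x.1.1) hm) a.ne_l e', one_smul]

theorem Sy.tr (h : Rq P π) {S : Sylow 2 P} (s : Sy P p S) (a : A2 P p x) (χ : S.1 →* Multiplicative (ZMod 2))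
    (hχ : ∀ (g : S.1) z, A2 P p z → g.1.1.val = 1 + N p z → χ g ≠ 1) : False := by
  obtain ⟨a0, -, d, hd, f⟩ := id a
  have m : (⟨d, hd⟩ : P) ∈ Qp P p := ⟨x, 0, a0, by simpa using f⟩
  obtain ⟨g, hg, e⟩ := tt h S χ ⟨_, s.le m⟩ (Subtype.ext (Qp_sq m)) (hχ _ x a f)
  have c := a.cj h.sp g.2
  obtain ⟨z, az, e'⟩ := s.th _ hg _ _ c.1 c.2.1 (r_cj (h.sp g.2) f)
  exact hχ _ z az (e' ▸ r_cj (h.sp g.2) f) e

theorem ex_one (hp : p ≠ 0) : ∃ v, fm p v = 1 := by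
  obtain ⟨v, hv⟩ : ∃ v, fm p v ≠ 0 := by by_contra! h; exact hp (fm_nd h)
  exact ⟨(fm p v)⁻¹ • v, by rw [fm_smul_r, inv_mul_cancel₀ hv]⟩

theorem Sy.tr' (h : Rq P π) {S : Sylow 2 P} (s : Sy P p S) (a : A2 P p x) (hy : fm p y = 0)
    (f : ∀ g ∈ S.1, ∃ c : k, g.1.val *ᵥ y = y + c • p) (o : ∀ z, A2 P p z → fm y z = 1) : False := by
  let _ := ZMod.algebra k 2
  obtain ⟨l, hl⟩ : ∃ l : Module.Dual (ZMod 2) k, l 1 ≠ 0 := by
    by_contra! H; exact one_ne_zero ((Module.forall_dual_apply_eq_zero_iff _ _).1 H)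
  obtain ⟨v, hv⟩ := ex_one a.ne_l
  have e : ∀ (g : G6 k) (c : k), g.val *ᵥ y = y + c • p → fm (g.val *ᵥ y) v + fm y v = c := fun g c e => by
    rw [e, fm_add_l, fm_smul_l, hv, mul_one, add_right_comm, aa, zero_add]
  refine s.tr h a (MonoidHom.mk' (fun g => Multiplicative.ofAdd (l (fm (g.1.1.val *ᵥ y) v + fm y v))) fun g g' => ?_) fun g z az ez => ?_
  · obtain ⟨c, hc⟩ := f _ g.2
    obtain ⟨d, hd⟩ := f _ g'.2
    rw [← ofAdd_add, ← map_add, e _ _ hc, e _ _ hd, e _ (c + d)]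
    rw [Subgroup.coe_mul, Subgroup.coe_mul, mul_mv, hd, mulVec_add, hc, mulVec_smul, s.fx _ g.2]; module
  · rw [MonoidHom.mk'_apply, e _ 1 (by rw [ez, r_mv, o z az, fm_sy y p, hy, zero_smul, add_zero])]
    exact hl

theorem Cq.ex {n : ℕ} {w : Fin n → V6 k} (c : Cq P p w) (a : A2 P p y) : ∃ (i : Fin n) (d : k), y = w i + d • p :=
  let ⟨i, e⟩ := c.2.2 y a; ⟨i, N_inj a.ne_l e.symm⟩

theorem Cq.perm (hP : P ≤ S6 k) {n : ℕ} {w : Fin n → V6 k} (c : Cq P p w) {g : G6 k} (hg : g ∈ P) (e : g.val *ᵥ p = p) :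
    ∃ (σ : Equiv.Perm (Fin n)) (d : Fin n → k), ∀ i, g.val *ᵥ w i = w (σ i) + d i • p := by
  choose σ d h using fun i => c.ex (e ▸ (c.1 i).cj hP hg)
  refine ⟨Equiv.ofBijective σ (Finite.injective_iff_bijective.1 fun i j z => by_contra fun n => ?_), d, h⟩
  have := c.2.1 i j n
  rw [← fm_iso (hP hg), h, h, z] at this
  simp [(c.1 _).1, fm_sy _ p] at this

theorem fm_sum_l {ι : Type*} (s : Finset ι) (f : ι → V6 k) (v : V6 k) : fm (∑ i ∈ s, f i) v = ∑ i ∈ s, fm (f i) v := by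
  simp only [fm_sy _ v, ← fl_ap, map_sum]

theorem Cq.sum {n : ℕ} {w : Fin n → V6 k} (c : Cq P p w) (j : Fin n) : fm (∑ i, w i) (w j) = (n : k) + 1 := by
  rw [fm_sum_l, ← Finset.add_sum_erase _ _ (Finset.mem_univ j), fm_self, zero_add,
    Finset.sum_congr rfl fun i hi => c.2.1 i j (Finset.ne_of_mem_erase hi), Finset.sum_const, Finset.card_erase_of_mem (Finset.mem_univ j),
    Finset.card_fin, nsmul_eq_mul, mul_one, Nat.cast_pred j.pos, sub_eq_add_neg, neg_eq_of_add_eq_zero_left (aa 1)]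

theorem dc2 : DC2.{u} := fun F G _ _ _ _ P π h _ K t p n w c n2 => by
  by_contra o
  obtain ⟨S, s⟩ := ex_sy h.toRq K t (c.1 ⟨0, by omega⟩) (c.1 ⟨1, n2⟩) (by rw [c.2.1 _ _ (by simp)]; exact one_ne_zero)
  refine s.tr' h.toRq (y := ∑ i, w i) (c.1 ⟨1, n2⟩) ?_ (fun g hg => ?_) fun z a => ?_
  · rw [fm_sy, fm_sum_l]; exact Finset.sum_eq_zero fun i _ => by rw [fm_sy, (c.1 i).1]
  · obtain ⟨σ, d, e⟩ := c.perm h.sp g.2 (s.fx g hg)
    exact ⟨∑ i, d i, by rw [mulVec_sum, Finset.sum_congr rfl fun i _ => e i, Finset.sum_add_distrib, Equiv.sum_comp σ w, Finset.sum_smul]⟩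
  · obtain ⟨j, d, rfl⟩ := c.ex a
    obtain ⟨m, rfl⟩ := Nat.not_odd_iff_even.1 o
    rw [fm_add_r, c.sum, fm_smul_r, fm_sum_l, Finset.sum_eq_zero fun i _ => by rw [fm_sy, (c.1 i).1], Nat.cast_add, aa]; simp

theorem same (t : ¬ T1 P) (e : E1 P) (a : A2 P p x) (b : A2 P p y) (z : fm x y = 0) : N p x = N p y := by
  obtain ⟨α, β, rfl⟩ := mem_span_pair.1 (by_contra fun n => t ⟨p, x, y, a, b, z, n⟩)
  rw [add_comm] at b ⊢
  rw [N_shift, e p x β a (b.congr (N_shift ..) (by simp [a.1])), one_smul]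

theorem fm_N (hp : p ≠ 0) (e : N p x = N p y) (h : fm p z = 0) : fm x z = fm y z := by
  obtain ⟨c, rfl⟩ := N_inj hp e
  simp [h]

theorem dc0 : DC0.{u} := fun F G _ _ _ _ P π h _ K ⟨p, x, y, a, b, n⟩ t e cg => by
  classical
  obtain ⟨ρ, hρ⟩ := FiniteField.isSquare_of_char_two (ringChar.eq F 2) (fm x y)
  have ρ0 : ρ ≠ 0 := fun z => n (by rw [hρ, z, mul_zero])
  have g1 : ∀ z, A2 P p z → N p x ≠ N p z → fm x z = fm x y := fun z c d => cg p x z y a c b (mt (same t e a c) d) n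
  have g : ∀ z z', A2 P p z → A2 P p z' → N p z ≠ N p z' → fm z z' = fm x y := fun z z' c c' d => by
    by_cases i : N p x = N p z
    · rw [← fm_N a.ne_l i c'.1, g1 z' c' (i ▸ d)]
    · rw [cg p z z' x c c' a (mt (same t e c c') d) (mt (same t e c a) (Ne.symm i)), fm_sy, g1 z c i]
  let A : Finset (M6 F) := Finset.univ.filter fun m => ∃ z, A2 P p z ∧ N p z = m
  choose w hw using fun i : Fin A.card => (Finset.mem_filter.1 (A.equivFin.symm i).2).2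
  have ex : ∀ z, A2 P p z → ∃ i, N p z = N p (w i) := fun z c =>
    ⟨A.equivFin ⟨_, Finset.mem_filter.2 ⟨Finset.mem_univ _, z, c, rfl⟩⟩, by rw [(hw _).2, Equiv.symm_apply_apply]⟩
  have c : Cq P (ρ • p) fun i => ρ⁻¹ • w i := ⟨fun i => (hw i).1.scale ρ0, fun i j d => by
    rw [fm_smul_l, fm_smul_r, g _ _ (hw i).1 (hw j).1 fun z => d (A.equivFin.symm.injective (Subtype.ext (by
      rw [← (hw i).2, z, (hw j).2]))), hρ]; field_simp, fun z c => (ex _ (c.move ρ0)).imp fun i e => by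
    rw [N_smul_l, ← N_smul_r, e, N_smul_l, N_smul_r, smul_smul, mul_inv_cancel₀ ρ0, one_smul]⟩
  refine ⟨_, _, _, c, ?_, by_contra fun l => ?_⟩
  · obtain ⟨i, hi⟩ := ex x a
    obtain ⟨j, hj⟩ := ex y b
    have : i ≠ j := fun z => n (by rw [fm_N a.ne_l (hi.trans (z ▸ hj.symm)) b.1, fm_self])
    have := i.2; have := j.2
    by_contra; omega
  · let v : Fin 6 → V6 F := fun i => ρ⁻¹ • w (Fin.castLE (by omega) i)
    have hv : ∀ i j, i ≠ j → fm (v i) (v j) = 1 := fun i j d => c.2.1 _ _ fun z => d (Fin.castLE_injective _ z)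
    let L : V6 F →ₗ[F] Fin 6 → F := LinearMap.pi fun j => fl (v j)
    have su : Function.Surjective L := by
      rw [← LinearMap.range_eq_top, eq_top_iff, ← (Pi.basisFun F (Fin 6)).span_eq, span_le]
      rintro _ ⟨i, rfl⟩
      refine ⟨∑ j ∈ Finset.univ.erase i, v j, funext fun j => ?_⟩
      simp only [L, LinearMap.pi_apply, map_sum, fl_ap, Pi.basisFun_apply, Finset.sum_apply]
      by_cases d : j = i
      · subst d
        rw [Finset.sum_congr rfl fun l hl => hv j l (Finset.ne_of_mem_erase hl).symm]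
        simp; linear_combination 2 * two (k := F)
      · rw [← Finset.add_sum_erase _ _ (Finset.mem_erase.2 ⟨d, Finset.mem_univ j⟩), fm_self,
          Finset.sum_congr rfl fun l hl => hv j l (Finset.ne_of_mem_erase hl).symm]
        simp [Finset.card_erase_of_mem, d]; linear_combination 2 * two (k := F)
    refine a.ne_l ((LinearMap.injective_iff_surjective_of_finrank_eq_finrank (by simp)).2 su (funext fun j => ?_))
    simp [L, v, fm_sy _ p, (hw _).1.1]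

/-- the configuration at a pair of type two -/
theorem cfg (tp : Tp P) (a : A2 P p x) (y : V6 k) : ∃ (α β : k) (z : V6 k), A2 P (x + α • p) z ∧ fm p z ≠ 0 ∧ fm (y + β • p) z = 0 :=
  let ⟨α, z, b, m⟩ := tp p x a
  ⟨α, fm y z / fm p z, z, b, m, by rw [fm_add_l, fm_smul_l, div_mul_cancel₀ _ m, aa]⟩

theorem Kt.sw' (K : Kt P) (a : A2 P p y) (b : A2 P x z) (h1 : fm p x = 0) (h2 : fm y z = 0) (m : fm p z ≠ 0) (m' : fm x y ≠ 0) :
    ∃ n ∈ P, ∃ ν : k, ν ^ 2 * (fm p z * fm x y) = 1 ∧ n.val *ᵥ p = (ν * fm p z) • x ∧ n.val *ᵥ y = (ν * fm x y) • z ∧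
      n.val *ᵥ x = (ν * fm x y) • p ∧ n.val *ᵥ z = (ν * fm p z) • y ∧
      ∀ v, fm v p = 0 → fm v y = 0 → fm v x = 0 → fm v z = 0 → n.val *ᵥ v = v := by
  have e : pr p y x z = fm p z * fm x y := by rw [pr, h1, zero_mul, zero_add, fm_sy y]
  obtain ⟨n, hn, ν, h0, e1, e2, e3, e4, e5⟩ := K.sw p y x z a b (e ▸ mul_ne_zero m m')
  refine ⟨n, hn, ν, e ▸ h0, ?_, ?_, ?_, ?_, e5⟩
  · rw [e1, N_mv, h1, zero_smul, add_zero, smul_smul]
  · rw [e2, N_mv, h2, zero_smul, zero_add, smul_smul, fm_sy y]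
  · rw [e3, N_mv, fm_sy x p, h1, zero_smul, add_zero, smul_smul]
  · rw [e4, N_mv, fm_sy z y, h2, zero_smul, zero_add, smul_smul, fm_sy z]

end H6.SP
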