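import Cfsg.Agent.H6.Real3
import Cfsg.Agent.H5.RepEquiv
import Cfsg.Agent.H24.Wie2p
import Cfsg.Prelude.Def_Perm

/-! The centraliser algebra of a representation; permutation characters. -/

set_option autoImplicit false
set_option linter.unusedSectionVars false
set_option linter.overlappingInstances false

open Cfsg Module MulAction

namespace H6

open H5
open scoped ComplexConjugate Classical

variable {G : Type*} [Group G]

section rep
variable {V : Type*} [AddCommGroup V] [Module ℂ V] [FiniteDimensional ℂ V]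
  {ρ : Representation ℂ G V} {S T : End ℂ V} {χ ψ : G → ℂ}

/-- `T` commutes with the representation -/
def Cm (ρ : Representation ℂ G V) (T : End ℂ V) : Prop := ∀ g, Commute (ρ g) T

theorem mem_inv_iff : T ∈ (ρ.linHom ρ).invariants ↔ Cm ρ T :=
  forall_congr' fun g => by
    rw [Representation.linHom_apply]
    refine ⟨fun h => ?_, fun h => ?_⟩
    · change ρ g * T = T * ρ g
      conv_rhs => rw [← h]
      change _ = ρ g * (T * ρ g⁻¹) * ρ g
      rw [mul_assoc, mul_assoc, ← map_mul, inv_mul_cancel, map_one, mul_one]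
    · change ρ g * (T * ρ g⁻¹) = T
      rw [← mul_assoc, h, mul_assoc, ← map_mul, mul_inv_cancel, map_one, mul_one]

theorem Cm.mul (h : Cm ρ S) (h' : Cm ρ T) : Cm ρ (S * T) := fun g => (h g).mul_right (h' g)

/-- `g ↦ tr (ρ g T)` -/
noncomputable def trf (ρ : Representation ℂ G V) : End ℂ V →ₗ[ℂ] G → ℂ where
  toFun T g := LinearMap.trace ℂ V (ρ g * T)
  map_add' S T := funext fun g => by simp [mul_add]
  map_smul' c T := funext fun g => by simp

theorem trf_apply (T : End ℂ V) (g : G) : trf ρ T g = LinearMap.trace ℂ V (ρ g * T) := rfl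

theorem trf_one : trf ρ 1 = ρ.character := funext fun g => by
  rw [trf_apply, mul_one]; rfl

theorem trf_cf (h : Cm ρ T) : IsClassFunction G (trf ρ T) := fun g x => by
  rw [trf_apply, trf_apply, map_mul ρ, map_mul ρ, mul_assoc, mul_assoc, LinearMap.trace_mul_comm,
    (h x⁻¹).eq, mul_assoc, mul_assoc, ← map_mul ρ, inv_mul_cancel, map_one ρ, mul_one]

theorem trace_decomp (hT : Cm ρ T) : ∃ (s : Finset ℂ) (ψ : ℂ → G → ℂ), (∀ μ, IsCharacter G (ψ μ)) ∧
    (∀ μ ∈ s, T.HasEigenvalue μ) ∧ ρ.character = ∑ μ ∈ s, ψ μ ∧ trf ρ T = ∑ μ ∈ s, μ • ψ μ := by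
  have h1 := DirectSum.isInternal_submodule_of_iSupIndep_of_iSup_eq_top
    T.independent_maxGenEigenspace T.iSup_maxGenEigenspace_eq_top
  have h2 := WellFoundedGT.finite_ne_bot_of_iSupIndep T.independent_maxGenEigenspace
  have h3 := fun g μ => End.mapsTo_maxGenEigenspace_of_comm (hT g).symm μ
  have h4 := fun μ => End.mapsTo_maxGenEigenspace_of_comm (Commute.refl T) μ
  refine ⟨h2.toFinset, fun μ => (ρ.subrepresentation (T.maxGenEigenspace μ)
    fun g => h3 g μ).character, fun μ => isCharacter_character _, fun μ h => ?_,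
    funext fun g => ?_, funext fun g => ?_⟩
  · exact (End.hasUnifEigenvalue_iff_hasUnifEigenvalue_one (k := ⊤) (by simp)).1
      (h2.mem_toFinset.1 h)
  · rw [Finset.sum_apply]
    exact LinearMap.trace_eq_sum_trace_restrict' h1 h2 (h3 g)
  · rw [Finset.sum_apply, trf_apply, LinearMap.trace_eq_sum_trace_restrict' h1 h2
      (f := ρ g * T) fun μ => (h3 g μ).comp (h4 μ)]
    refine Finset.sum_congr rfl fun μ _ => ?_
    refine LinearMap.trace_comp_eq_mul_of_commute_of_isNilpotent (f := (ρ g).restrict (h3 g μ))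
      (g := T.restrict (h4 μ)) μ (LinearMap.restrict_commute (hT g) _ _) ?_
    convert T.isNilpotent_restrict_maxGenEigenspace_sub_algebraMap μ using 1
    exact LinearMap.ext fun _ => rfl

theorem integral_of_eigen (hi : IsIntegral ℤ T) {μ : ℂ} (h : T.HasEigenvalue μ) : IsIntegral ℤ μ := by
  obtain ⟨p, h1, h2⟩ := hi
  obtain ⟨v, hv⟩ := h.exists_hasEigenvector
  refine ⟨p, h1, ?_⟩
  have := End.aeval_apply_of_hasEigenvector (p := p.map (algebraMap ℤ ℂ)) hv
  rw [Polynomial.aeval_map_algebraMap, Polynomial.aeval_def, h2, Polynomial.eval_map] at this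
  exact (smul_eq_zero.1 this.symm).resolve_right hv.2

variable [Fintype G]

theorem trf_integral (hT : Cm ρ T) (hi : IsIntegral ℤ T) (hχ : IsIrrCharacter G χ) :
    IsIntegral ℤ (classInner (trf ρ T) χ) := by
  obtain ⟨s, ψ, h1, h2, -, h3⟩ := trace_decomp hT
  rw [h3, classInner_sum_left]
  refine IsIntegral.sum _ fun μ h => ?_
  obtain ⟨n, e⟩ := (h1 μ).exists_classInner_nat hχ.isCharacter
  rw [classInner_smul_left, e]
  exact (integral_of_eigen hi (h2 μ h)).mul (isIntegral_natCast n)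

theorem trf_inner_zero (hT : Cm ρ T) (hχ : IsIrrCharacter G χ)
    (h : classInner ρ.character χ = 0) : classInner (trf ρ T) χ = 0 := by
  obtain ⟨s, ψ, h1, -, h2, h3⟩ := trace_decomp hT
  choose n e using fun μ => (h1 μ).exists_classInner_nat hχ.isCharacter
  rw [h2, classInner_sum_left, Finset.sum_congr rfl fun μ _ => e μ, ← Nat.cast_sum,
    Nat.cast_eq_zero, Finset.sum_eq_zero_iff] at h
  rw [h3, classInner_sum_left]
  exact Finset.sum_eq_zero fun μ a => by rw [classInner_smul_left, e, h μ a]; simp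

/-- the isotypic projection -/
noncomputable def Eid (ρ : Representation ℂ G V) (χ : G → ℂ) : End ℂ V :=
  (χ 1 / Nat.card G) • ∑ g, conj (χ g) • ρ g

theorem Cm.comm_Eid (h : Cm ρ T) (χ : G → ℂ) : Commute T (Eid ρ χ) :=
  (Commute.sum_right _ _ _ fun g _ => (h g).symm.smul_right _).smul_right _

theorem cm_Eid (h : IsClassFunction G χ) : Cm ρ (Eid ρ χ) := fun x => by
  refine Commute.smul_right ?_ _
  rw [Commute, SemiconjBy, Finset.mul_sum, Finset.sum_mul]
  refine Fintype.sum_equiv (MulAut.conj x).toEquiv _ _ fun g => ?_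
  simp [h g x, ← map_mul]

theorem trf_mul_Eid (hT : Cm ρ T) (hχ : IsIrrCharacter G χ) :
    trf ρ (T * Eid ρ χ) = classInner (trf ρ T) χ • χ := funext fun x => by
  have h1 : trf ρ (T * Eid ρ χ) x = χ 1 / Nat.card G * ∑ g, conj (χ g) * trf ρ T (g * x) := by
    rw [Eid, mul_smul_comm, Finset.mul_sum, map_smul, map_sum, Pi.smul_apply, Finset.sum_apply]
    refine congrArg _ (Finset.sum_congr rfl fun g _ => ?_)
    rw [mul_smul_comm, map_smul, Pi.smul_apply, trf_apply, trf_apply, ← mul_assoc,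
      LinearMap.trace_mul_comm, ← mul_assoc, map_mul ρ, smul_eq_mul]
  have h2 : ∀ φ : IrrCharacter G, ∑ g, conj (χ g) * (φ : G → ℂ) (g * x) =
      if (φ : G → ℂ) = χ then Nat.card G / χ 1 * χ x else 0 := fun φ => by
    rw [φ.2.sum_mul_apply_mul (f := fun g => conj (χ g)) fun g y => congrArg _ (hχ.isClassFunction g y),
      Finset.sum_congr rfl fun g _ => mul_comm _ _, ← card_mul_classInner, inner_irr φ.2 hχ]
    split_ifs with e
    · rw [e, mul_one]
    · simp
  rw [h1, Finset.sum_congr rfl fun g _ => by rw [eq_sum_irr (trf_cf hT), Finset.sum_apply,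
    Finset.mul_sum], Finset.sum_comm, Finset.sum_eq_single ⟨χ, hχ⟩]
  · simp only [Pi.smul_apply, smul_eq_mul, mul_left_comm (conj _), ← Finset.mul_sum]
    rw [h2 ⟨χ, hχ⟩, if_pos rfl]
    field_simp [hχ.apply_one_ne_zero, card_ne_zero_complex G]
  · intro φ _ e
    simp only [Pi.smul_apply, smul_eq_mul, mul_left_comm (conj _), ← Finset.mul_sum]
    rw [h2 φ, if_neg fun c => e (Subtype.ext c), mul_zero]
  · simp

/-- multiplicity free -/
def MF (π : G → ℂ) : Prop :=
  ∀ χ, IsIrrCharacter G χ → classInner π χ = 0 ∨ classInner π χ = 1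

theorem eq_sum_Eid (h : MF ρ.character) (hS : Cm ρ S) :
    S = ∑ χ : IrrCharacter G, classInner (trf ρ S) χ • Eid ρ χ := by
  let I := {χ : IrrCharacter G // classInner ρ.character χ = 1}
  have h0 : ∀ (c : I → ℂ) (χ : I), classInner (trf ρ (∑ φ, c φ • Eid ρ φ.1)) χ.1 = c χ := by
    intro c χ
    rw [map_sum, classInner_sum_left, Finset.sum_eq_single χ]
    · rw [map_smul, ← one_mul (Eid ρ _), trf_mul_Eid (fun _ => Commute.one_right _) χ.1.2, trf_one,
        χ.2, one_smul, classInner_smul_left, inner_irr_self χ.1.2, mul_one]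
    · intro φ _ e
      rw [map_smul, ← one_mul (Eid ρ _), trf_mul_Eid (fun _ => Commute.one_right _) φ.1.2, trf_one,
        φ.2, one_smul, classInner_smul_left, inner_irr_ne φ.1.2 χ.1.2 fun c =>
          e (Subtype.ext (Subtype.ext c)), mul_zero]
    · simp
  let F : (I → ℂ) →ₗ[ℂ] (ρ.linHom ρ).invariants := Fintype.linearCombination ℂ fun φ =>
    ⟨Eid ρ φ.1, mem_inv_iff.2 (cm_Eid φ.1.2.isClassFunction)⟩
  have h1 : ∀ c, (F c : End ℂ V) = ∑ φ, c φ • Eid ρ φ.1 := fun c => by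
    simp [F, Fintype.linearCombination_apply]
  have h2 : Function.Injective F := fun c d e => funext fun χ => by
    rw [← h0 c, ← h0 d, ← h1, ← h1, e]
  have h3 : finrank ℂ (I → ℂ) = finrank ℂ (ρ.linHom ρ).invariants := by
    have := invertibleOfNonzero (card_ne_zero_complex G)
    have hρ := isCharacter_character ρ
    rw [← Nat.cast_inj (R := ℂ), ← Representation.card_inv_mul_sum_char_eq_finrank,
      Finset.sum_congr rfl fun g _ => by
        rw [Representation.char_linHom, hρ.apply_inv, mul_comm], ← classInner_def,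
      inner_eq_sum_irr hρ.isClassFunction, finrank_fintype_fun_eq_card, Fintype.card_subtype,
      Finset.card_filter, Nat.cast_sum]
    refine Finset.sum_congr rfl fun χ _ => ?_
    rw [← conj_classInner ρ.character]
    rcases h χ χ.2 with e | e <;> simp [e]
  obtain ⟨c, e⟩ := (LinearMap.injective_iff_surjective_of_finrank_eq_finrank h3).1 h2
    ⟨S, mem_inv_iff.2 hS⟩
  replace e : ∑ φ, c φ • Eid ρ φ.1 = S := (h1 c).symm.trans (congrArg Subtype.val e)
  rw [← Fintype.sum_subtype_add_sum_subtype fun χ : IrrCharacter G => classInner ρ.character χ = 1,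
    Finset.sum_eq_zero (s := Finset.univ (α := {χ : IrrCharacter G // ¬ _})) fun χ _ => by
      rw [trf_inner_zero hS χ.1.2 ((h _ χ.1.2).resolve_right χ.2), zero_smul], add_zero]
  exact e.symm.trans (Finset.sum_congr rfl fun χ _ => by rw [← e, h0])

theorem comm_of_mf (h : MF ρ.character) (hS : Cm ρ S) (hT : Cm ρ T) : Commute T S := by
  rw [eq_sum_Eid h hS]
  exact Commute.sum_right _ _ _ fun χ _ => (hT.comm_Eid _).smul_right _

theorem inner_trf_mul (h : MF ρ.character) (hS : Cm ρ S) (hT : Cm ρ T) (hχ : IsIrrCharacter G χ) :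
    classInner (trf ρ (T * S)) χ = classInner (trf ρ T) χ * classInner (trf ρ S) χ := by
  conv_lhs => rw [eq_sum_Eid h hS]
  rw [Finset.mul_sum, map_sum, classInner_sum_left, Finset.sum_eq_single ⟨χ, hχ⟩]
  · rw [mul_smul_comm, map_smul, trf_mul_Eid hT hχ, classInner_smul_left, classInner_smul_left,
      inner_irr_self hχ, mul_one, mul_comm]
  · intro φ _ e
    rw [mul_smul_comm, map_smul, trf_mul_Eid hT φ.2, classInner_smul_left, classInner_smul_left,
      inner_irr_ne φ.2 hχ fun c => e (Subtype.ext c), mul_zero, mul_zero]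
  · simp

theorem mf_of_comm (h : ∀ S T, Cm ρ S → Cm ρ T → S * T = T * S) : MF ρ.character := by
  intro χ hχ
  by_contra! c
  have h1 := char_sub_of_inner_ne_zero (isCharacter_character ρ) hχ c.1
  obtain ⟨k, τ, h2⟩ := char_sub_of_inner_ne_zero h1 hχ (by
    rw [classInner_sub_left, inner_irr_self hχ]; exact sub_ne_zero.2 c.2)
  obtain ⟨n, σ, h3, rfl⟩ := hχ
  obtain ⟨e⟩ := nonempty_equiv_of_char_eq ((σ.prod σ).prod τ) ρ (by
    rw [char_prod, char_prod, h2]; abel)
  have h4 : ∀ X, Cm ((σ.prod σ).prod τ) X → Cm ρ (e.toLinearEquiv.conj X) := fun X a g => by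
    rw [← e.conj_apply_self g]
    exact (a g).map (e.toLinearEquiv.conjAlgEquiv ℂ)
  have h5 := h _ _
    (h4 (LinearMap.inl _ _ _ ∘ₗ LinearMap.inl _ _ _ ∘ₗ LinearMap.snd _ _ _ ∘ₗ LinearMap.fst _ _ _)
      fun g => LinearMap.ext fun x => by simp [Representation.prod])
    (h4 (LinearMap.inl _ _ _ ∘ₗ LinearMap.inl _ _ _ ∘ₗ LinearMap.fst _ _ _ ∘ₗ LinearMap.fst _ _ _)
      fun g => LinearMap.ext fun x => by simp [Representation.prod])
  obtain ⟨v, hv⟩ := finrank_pos_iff_exists_ne_zero.1 (finrank_pos_of_isIrreducible σ)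
  replace h5 := LinearMap.congr_fun h5 (e.toLinearEquiv ((0, v), 0))
  generalize e.toLinearEquiv = f at h5
  exact hv (by simpa using h5.symm)

end rep

section perm
variable {Ω : Type*} [Fintype Ω] [MulAction G Ω] {A B : Matrix Ω Ω ℤ} {χ : G → ℂ} {a b : Ω}

variable (G Ω) in
/-- the permutation character -/
noncomputable abbrev pc : G → ℂ := fun g => (Nat.card (fixedBy Ω g) : ℂ)

theorem permRep_char : (Cfsg.permRep ℂ G Ω).character = pc G Ω :=
  funext fun g => permRep_character Ω g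

variable (G) in
/-- invariant integer matrices -/
def InvZ (A : Matrix Ω Ω ℤ) : Prop := ∀ (g : G) x y, A (g • x) (g • y) = A x y

/-- the operator of an integer matrix -/
noncomputable def opM : Matrix Ω Ω ℤ →+* End ℂ (Ω → ℂ) :=
  (Matrix.toLinAlgEquiv' (R := ℂ)).toRingHom.comp (Int.castRingHom ℂ).mapMatrix

theorem opM_apply (A : Matrix Ω Ω ℤ) (f : Ω → ℂ) (x : Ω) : opM A f x = ∑ y, A x y * f y := rfl

theorem integral_opM (A : Matrix Ω Ω ℤ) : IsIntegral ℤ (opM A) :=
  (Matrix.isIntegral A).map (opM (Ω := Ω)).toIntAlgHom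

theorem InvZ.cm (h : InvZ G A) : Cm (Cfsg.permRep ℂ G Ω) (opM A) := fun g =>
  LinearMap.ext fun f => funext fun x => by
    change ∑ y, A (g⁻¹ • x) y * f y = ∑ y, A x y * f (g⁻¹ • y)
    exact Fintype.sum_equiv (toPerm g) _ _ fun y => by
      rw [toPerm_apply, inv_smul_smul, ← h g, smul_inv_smul]

theorem InvZ.trf (h : InvZ G A) (g : G) :
    trf (Cfsg.permRep ℂ G Ω) (opM A) g = ∑ x, (A x (g • x) : ℂ) := by
  rw [trf_apply, LinearMap.trace_eq_matrix_trace ℂ (Pi.basisFun ℂ Ω), Matrix.trace]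
  refine Finset.sum_congr rfl fun x _ => ?_
  rw [Matrix.diag_apply, LinearMap.toMatrix_apply, Pi.basisFun_repr, Pi.basisFun_apply]
  change ∑ y, A (g⁻¹ • x) y * Pi.single (M := fun _ => ℂ) x 1 y = _
  rw [Finset.sum_eq_single x (fun y _ e => by simp [e]) (by simp), ← h g, smul_inv_smul]
  simp

theorem InvZ.tr (h : InvZ G A) : InvZ G A.transpose := fun g x y => h g y x

theorem InvZ.inner_tr [Fintype G] (h : InvZ G A) (hχ : IsCharacter G χ) :
    classInner (H6.trf (Cfsg.permRep ℂ G Ω) (opM A.transpose)) χ =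
      conj (classInner (H6.trf (Cfsg.permRep ℂ G Ω) (opM A)) χ) := by
  rw [conj_classInner, classInner_def, classInner_def]
  refine congrArg _ (Fintype.sum_equiv (Equiv.inv G) _ _ fun g => ?_)
  rw [Equiv.inv_apply, h.tr.trf, h.trf, hχ.apply_inv, map_sum, mul_comm]
  exact congrArg _ (Finset.sum_congr rfl fun x _ => by
    rw [map_intCast, ← h g x, smul_inv_smul, Matrix.transpose_apply, ← h g⁻¹, inv_smul_smul,
      ← h g, smul_inv_smul])

theorem InvZ.exists_int [Fintype G] (h : InvZ G A) (hχ : IsIrrCharacter G χ)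
    (e : ∀ σ : ℂ →+* ℂ, (fun g => σ (χ g)) = χ) :
    ∃ n : ℤ, classInner (H6.trf (Cfsg.permRep ℂ G Ω) (opM A)) χ = n :=
  exists_int_of_fixed (trf_integral h.cm (integral_opM A) hχ) fun σ => by
    rw [← RingEquiv.coe_toRingHom, ← (irr_gen hχ).classInner_map_ringHom, e]
    exact congrArg (classInner · χ) (funext fun g => by simp [h.trf])

theorem InvZ.row [IsPretransitive G Ω] (h : InvZ G A) (a b : Ω) : ∑ y, A a y = ∑ y, A b y := by
  obtain ⟨g, rfl⟩ := exists_smul_eq G a b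
  exact Fintype.sum_equiv (toPerm g) _ _ fun y => (h g a y).symm

theorem sum_smul_trans [Fintype G] [IsPretransitive G Ω] (F : Ω → ℂ) (a : Ω) :
    Fintype.card Ω * ∑ g : G, F (g • a) = Nat.card G * ∑ y, F y := by
  have h : ∀ x, ∑ g : G, F (g • a) = ∑ g : G, F (g • x) := fun x => by
    obtain ⟨k, rfl⟩ := exists_smul_eq G x a
    exact Fintype.sum_equiv (Equiv.mulRight k) _ _ fun g => by simp [mul_smul]
  rw [← nsmul_eq_mul, ← Finset.card_univ, ← Finset.sum_const, Finset.sum_congr rfl fun x _ => h x,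
    Finset.sum_comm, Finset.sum_congr rfl fun (g : G) _ =>
      show ∑ x, F (g • x) = ∑ x, F x from Equiv.sum_comp (toPerm g) F, Finset.sum_const,
    nsmul_eq_mul, Finset.card_univ, Nat.card_eq_fintype_card]

theorem InvZ.inner_one [Fintype G] [IsPretransitive G Ω] (h : InvZ G A) (a : Ω) :
    classInner (H6.trf (Cfsg.permRep ℂ G Ω) (opM A)) (fun _ => 1) = (∑ y, A a y : ℤ) := by
  have : Nonempty Ω := ⟨a⟩
  have h0 : (Fintype.card Ω : ℂ) ≠ 0 := Nat.cast_ne_zero.2 Fintype.card_ne_zero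
  rw [classInner_one_right, Finset.sum_congr rfl fun g _ => h.trf g, Finset.sum_comm,
    inv_mul_eq_iff_eq_mul₀ (card_ne_zero_complex G), ← mul_right_inj' h0, Finset.mul_sum,
    Finset.sum_congr rfl fun x _ => by
      rw [sum_smul_trans (G := G) (fun y => (A x y : ℂ)), ← Int.cast_sum, h.row x a]]
  simp

variable (G) in
/-- the orbital matrix -/
noncomputable def orbZ (a b : Ω) : Matrix Ω Ω ℤ :=
  fun x y => if ∃ g : G, g • a = x ∧ g • b = y then 1 else 0

theorem orbZ_inv (a b : Ω) : InvZ G (orbZ G a b) := fun g x y => if_congr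
  ⟨fun ⟨k, c, d⟩ => ⟨g⁻¹ * k, by simp [mul_smul, c], by simp [mul_smul, d]⟩,
    fun ⟨k, c, d⟩ => ⟨g * k, by simp [mul_smul, c], by simp [mul_smul, d]⟩⟩ rfl rfl

theorem orbZ_row (a b : Ω) : ∑ y, orbZ G a b a y = Nat.card (orbit (stabilizer G a) b) := by
  rw [Nat.card_eq_fintype_card, Fintype.card_subtype, Finset.card_filter, Nat.cast_sum]
  refine Finset.sum_congr rfl fun y _ => ?_
  rw [Nat.cast_ite, Nat.cast_one, Nat.cast_zero]
  exact if_congr ⟨fun ⟨g, c, d⟩ => ⟨⟨g, c⟩, d⟩, fun ⟨g, c⟩ => ⟨g, g.2, c⟩⟩ rfl rfl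

theorem orbZ_diag (h : b ≠ a) (x : Ω) : orbZ G a b x x = 0 :=
  if_neg fun ⟨g, c, d⟩ => h (MulAction.injective g (d.trans c.symm))

theorem orbZ_sq (a b x y : Ω) : orbZ G a b x y * orbZ G a b x y = orbZ G a b x y := by
  unfold orbZ; split_ifs <;> simp

theorem orbit_card_pos (H : Type*) [Group H] [MulAction H Ω] (b : Ω) : 0 < Nat.card (orbit H b) :=
  Nat.card_pos_iff.2 ⟨⟨⟨b, mem_orbit_self b⟩⟩, inferInstance⟩

theorem card_fixedBy_eq (g : G) : Nat.card (fixedBy Ω g) = ∑ x : Ω, if g • x = x then 1 else 0 := by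
  rw [Nat.card_eq_fintype_card, Fintype.card_subtype, Finset.card_filter]; rfl

theorem swap_iff [Fintype G] : (∀ a b : Ω, ∃ g : G, g • a = b ∧ g • b = a) ↔
    ∑ g : G, Nat.card (fixedBy Ω (g * g)) = ∑ g : G, Nat.card (fixedBy Ω g) ^ 2 := by
  have h1 : ∑ g : G, Nat.card (fixedBy Ω (g * g)) = ∑ x : Ω × Ω,
      (Finset.univ.filter fun g : G => g • x.1 = x.2 ∧ g • x.2 = x.1).card := by
    simp only [Finset.card_filter, card_fixedBy_eq, Fintype.sum_prod_type]
    rw [Finset.sum_comm]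
    refine Finset.sum_congr rfl fun x _ => Finset.sum_comm.trans
      (Finset.sum_congr rfl fun g _ => ?_) |>.symm
    rw [Finset.sum_eq_single (g • x) (fun y _ e => if_neg fun c => e c.1.symm) (by simp)]
    simp [mul_smul]
  have h2 : ∑ g : G, Nat.card (fixedBy Ω g) ^ 2 = ∑ x : Ω × Ω,
      (Finset.univ.filter fun g : G => g • x.1 = x.1 ∧ g • x.2 = x.2).card := by
    simp only [Finset.card_filter, card_fixedBy_eq, sq, Finset.sum_mul_sum]
    rw [Finset.sum_comm (s := Finset.univ (α := Ω × Ω))]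
    refine Finset.sum_congr rfl fun g _ => ?_
    rw [Fintype.sum_prod_type]
    exact Finset.sum_congr rfl fun x _ => Finset.sum_congr rfl fun y _ => by
      by_cases c : g • x = x <;> simp [c]
  have h3 : ∀ x : Ω × Ω, (∃ g : G, g • x.1 = x.2 ∧ g • x.2 = x.1) →
      (Finset.univ.filter fun g : G => g • x.1 = x.2 ∧ g • x.2 = x.1).card =
      (Finset.univ.filter fun g : G => g • x.1 = x.1 ∧ g • x.2 = x.2).card := fun x ⟨s, c, d⟩ =>
    Finset.card_equiv (Equiv.mulLeft s) fun g => by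
      simp only [Finset.mem_filter, Finset.mem_univ, true_and, Equiv.coe_mulLeft, mul_smul]
      exact and_congr (by rw [← (MulAction.injective s).eq_iff, d])
        (by rw [← (MulAction.injective s).eq_iff, c])
  rw [h1, h2, Finset.sum_eq_sum_iff_of_le fun x _ => ?_]
  · refine ⟨fun h x _ => h3 x (h _ _), fun h a b => ?_⟩
    obtain ⟨g, e⟩ := Finset.card_pos.1 ((h (a, b) (Finset.mem_univ _)).symm ▸
      Finset.card_pos.2 ⟨1, by simp⟩)
    exact ⟨g, (Finset.mem_filter.1 e).2⟩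
  · by_cases c : ∃ g : G, g • x.1 = x.2 ∧ g • x.2 = x.1
    · exact (h3 x c).le
    · rw [Finset.filter_eq_empty_iff.2 fun g _ e => c ⟨g, e⟩]; exact Nat.zero_le _

theorem fchar_pc : FChar ℝ (pc G Ω) := by
  convert fchar_rep (Cfsg.permRep ℝ G Ω) with g
  rw [Representation.character, LinearMap.trace_eq_matrix_trace ℝ (Pi.basisFun ℝ Ω), Matrix.trace,
    pc, card_fixedBy_eq, Nat.cast_sum, map_sum]
  refine Finset.sum_congr rfl fun x _ => ?_
  rw [Matrix.diag_apply, LinearMap.toMatrix_apply, Pi.basisFun_repr, Pi.basisFun_apply]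
  change _ = algebraMap ℝ ℂ (Pi.single (M := fun _ => ℝ) x 1 (g⁻¹ • x))
  simp [Pi.single_apply, inv_smul_eq_iff, eq_comm (a := x), apply_ite]

variable [Fintype G] [IsPretransitive G Ω]

theorem inner_pc_self (a : Ω) :
    classInner (pc G Ω) (pc G Ω) = Nat.card (orbitRel.Quotient (stabilizer G a) Ω) := by
  have := Fintype.ofFinite (stabilizer G a)
  conv_lhs => enter [2]; rw [show pc G Ω = _ from funext (perm_eq_indFun_stabilizer Ω a)]
  rw [classInner_indFun_right _ _ (isCharacter_perm Ω).isClassFunction, ← classInner_perm_one]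
  rfl

theorem sum_irr_erase {M : Type*} [AddCommMonoid M] (F : IrrCharacter G → M) :
    ∑ χ, F χ = F ⟨_, isIrrCharacter_one⟩ + ∑ χ ∈ Finset.univ.erase ⟨_, isIrrCharacter_one⟩, F χ :=
  (Finset.add_sum_erase _ _ (Finset.mem_univ _)).symm

theorem dvd_subdeg {f : ℕ} (hf : ∀ χ, IsIrrCharacter G χ → χ ≠ (fun _ => 1) →
    classInner (pc G Ω) χ ≠ 0 → ∃ m : ℕ, χ 1 = f * m) (h : b ≠ a) :
    f ∣ Nat.card (orbit (stabilizer G a) b) := by
  have h1 := orbZ_inv (G := G) a b
  have h2 := congrFun (eq_sum_irr (trf_cf h1.cm)) 1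
  have h3 : ∀ χ : IrrCharacter G, ∃ z : ℂ, IsIntegral ℤ z ∧ (χ ≠ ⟨_, isIrrCharacter_one⟩ →
      (classInner (trf (Cfsg.permRep ℂ G Ω) (opM (orbZ G a b))) χ • (χ : G → ℂ)) 1 = f * z) := fun χ => by
    by_cases c : classInner (pc G Ω) χ = 0
    · exact ⟨0, isIntegral_zero, fun _ => by
        rw [trf_inner_zero h1.cm χ.2 (permRep_char (G := G) (Ω := Ω) ▸ c)]; simp⟩
    by_cases d : (χ : G → ℂ) = fun _ => 1
    · exact ⟨0, isIntegral_zero, fun e => absurd (Subtype.ext d) e⟩
    obtain ⟨m, e⟩ := hf χ χ.2 d c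
    exact ⟨_, (trf_integral h1.cm (integral_opM _) χ.2).mul (isIntegral_natCast m), fun _ => by
      rw [Pi.smul_apply, e, smul_eq_mul, mul_left_comm]⟩
  choose z h3 h4 using h3
  rw [h1.trf, Finset.sum_eq_zero fun x _ => by rw [one_smul, orbZ_diag h, Int.cast_zero],
    Finset.sum_apply, sum_irr_erase, Finset.sum_congr rfl fun χ a => h4 χ (Finset.mem_erase.1 a).1,
    ← Finset.mul_sum, h1.inner_one a, orbZ_row] at h2
  simp only [Int.cast_natCast, Pi.smul_apply, smul_eq_mul, mul_one] at h2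
  rcases eq_or_ne f 0 with rfl | h0
  · rw [Nat.cast_zero, zero_mul, add_zero, eq_comm, Nat.cast_eq_zero] at h2
    exact h2.symm.dvd
  refine nat_dvd_of_isIntegral_div h0 ?_
  rw [eq_neg_of_add_eq_zero_left h2.symm, neg_div, mul_div_cancel_left₀ _ (Nat.cast_ne_zero.2 h0)]
  exact (IsIntegral.sum _ fun χ _ => h3 χ).neg

/-- multiplicities in the permutation character -/
theorem exists_mult (a : Ω) : ∃ m : IrrCharacter G → ℕ, (∀ χ, classInner (pc G Ω) χ.1 = m χ) ∧
    m ⟨_, isIrrCharacter_one⟩ = 1 ∧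
    Nat.card (orbitRel.Quotient (stabilizer G a) Ω) = ∑ χ, m χ ^ 2 ∧ pc G Ω = ∑ χ, (m χ : ℂ) • χ.1 := by
  have : Nonempty Ω := ⟨a⟩
  have h : IsCharacter G (pc G Ω) := isCharacter_perm Ω
  choose m e using fun χ : IrrCharacter G => h.exists_classInner_nat χ.2.isCharacter
  refine ⟨m, e, Nat.cast_injective (R := ℂ) ((e ⟨_, isIrrCharacter_one⟩).symm.trans
    ((classInner_perm_one_of_pretransitive Ω).trans Nat.cast_one.symm)), ?_,
    (eq_sum_irr h.isClassFunction).trans (Finset.sum_congr rfl fun χ _ => by rw [e])⟩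
  rw [← Nat.cast_inj (R := ℂ), ← inner_pc_self, inner_eq_sum_irr h.isClassFunction, Nat.cast_sum]
  exact Finset.sum_congr rfl fun χ _ => by rw [← conj_classInner (pc G Ω), e]; simp [sq]

theorem rank_eq (a : Ω) : (Nat.card (orbitRel.Quotient (stabilizer G a) Ω) : ℚ) =
    1 + ∑ b ∈ Finset.univ.erase a, (Nat.card (orbit (stabilizer G a) b) : ℚ)⁻¹ := by
  rw [H24.card_quot_eq_sum, ← Finset.add_sum_erase _ _ (Finset.mem_univ a),
    show orbit (stabilizer G a) a = {a} from Set.eq_singleton_iff_unique_mem.2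
      ⟨mem_orbit_self a, fun _ ⟨g, e⟩ => e.symm.trans g.2⟩]
  simp

theorem two_le_subdeg [IsPreprimitive G Ω] (h : b ≠ a)
    (hr : Nat.card (orbitRel.Quotient (stabilizer G a) Ω) ≠ Fintype.card Ω) :
    2 ≤ Nat.card (orbit (stabilizer G a) b) := by
  by_contra! c
  have : Nontrivial Ω := ⟨b, a, h⟩
  have h1 : ∀ b : Ω, stabilizer G a ≤ stabilizer G b → Nat.card (orbit (stabilizer G a) b) = 1 :=
    fun b e => by
      rw [show orbit (stabilizer G a) b = {b} from Set.eq_singleton_iff_unique_mem.2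
        ⟨mem_orbit_self b, fun _ ⟨g, d⟩ => d.symm.trans (e g.2)⟩]; simp
  have h2 : stabilizer G a ≤ stabilizer G b := fun g d => congrArg Subtype.val
    ((Finite.card_le_one_iff_subsingleton.1 (Nat.lt_succ_iff.1 c)).elim
      (⟨_, mem_orbit b (⟨g, d⟩ : stabilizer G a)⟩ : orbit (stabilizer G a) b) ⟨b, mem_orbit_self b⟩)
  have h3 := IsPreprimitive.isCoatom_stabilizer_of_isPreprimitive G (X := Ω)
  obtain ⟨g, rfl⟩ := exists_smul_eq G a b
  have h4 : (stabilizer G a).Normal := Subgroup.normalizer_eq_top_iff.1 ((h3 a).2 _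
    (Subgroup.le_normalizer.lt_of_ne fun e => h (show g ∈ stabilizer G a from e ▸ fun x => by
      conv_rhs => rw [← ((h3 a).le_iff_eq (h3 _).1).1 h2]
      simp [mul_smul])))
  have h5 := rank_eq (G := G) a
  rw [Finset.sum_congr rfl (g := fun _ => ((1 : ℕ) : ℚ)⁻¹) fun x _ => by
    obtain ⟨k, rfl⟩ := exists_smul_eq G a x
    rw [h1 _ fun y d => by simpa [mul_smul, inv_smul_eq_iff] using h4.conj_mem' y d k]] at h5
  refine hr (Nat.cast_injective (R := ℚ) (h5.trans ?_))
  simp [Finset.card_erase_of_mem, Nat.cast_sub (Fintype.card_pos_iff.2 ⟨a⟩)]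

theorem mf_of_same_deg (a : Ω) {f : ℕ} (hf : ∀ χ, IsIrrCharacter G χ → χ ≠ (fun _ => 1) →
    classInner (pc G Ω) χ ≠ 0 → χ 1 = f) :
    MF (pc G Ω) ∧ ∀ b, b ≠ a → Nat.card (orbit (stabilizer G a) b) = f := by
  obtain ⟨m, h1, h2, h3, h4⟩ := exists_mult (G := G) a
  set I := Finset.univ.erase (⟨_, isIrrCharacter_one⟩ : IrrCharacter G)
  have h5 := orbit_card_pos (stabilizer G a) (Ω := Ω)
  have h6 : ∀ b ∈ Finset.univ.erase a, (f : ℚ) * (Nat.card (orbit (stabilizer G a) b) : ℚ)⁻¹ ≤ 1 :=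
    fun b c => by
      rw [← div_eq_mul_inv, div_le_one (by exact_mod_cast h5 b), Nat.cast_le]
      exact Nat.le_of_dvd (h5 b) (dvd_subdeg (fun χ x y z => ⟨1, by simpa using hf χ x y z⟩)
        (Finset.mem_erase.1 c).1)
  have h7 : ∀ χ ∈ I, (m χ : ℂ) * χ.1 1 = (f * m χ : ℕ) := fun χ c => by
    rcases eq_or_ne (m χ) 0 with e | e
    · simp [e]
    rw [hf χ χ.2 (fun e => (Finset.mem_erase.1 c).1 (Subtype.ext e)) (h1 χ ▸ Nat.cast_ne_zero.2 e),
      Nat.cast_mul, mul_comm]
  have h8 := congrFun h4 1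
  simp only [pc, fixedBy_one_eq_univ, Nat.card_univ, Finset.sum_apply, Pi.smul_apply, smul_eq_mul] at h8
  rw [sum_irr_erase, h2, Finset.sum_congr rfl h7, ← Nat.cast_sum, mul_one, ← Nat.cast_add,
    Nat.cast_inj] at h8
  have h9 := rank_eq (G := G) a
  rw [h3, sum_irr_erase, h2, one_pow, Nat.cast_add, Nat.cast_one, add_right_inj] at h9
  have h10 : ∑ b ∈ Finset.univ.erase a, (1 : ℚ) = (∑ χ ∈ I, f * m χ : ℕ) := by
    rw [Finset.sum_const, Finset.card_erase_of_mem (Finset.mem_univ a), Finset.card_univ,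
      ← Nat.card_eq_fintype_card, h8]
    simp
  have h11 : ∀ χ ∈ I, f * m χ ≤ f * m χ ^ 2 := fun χ _ =>
    Nat.mul_le_mul_left f (Nat.le_self_pow two_ne_zero _)
  have h12 : (∑ χ ∈ I, f * m χ ^ 2 : ℕ) = ∑ b ∈ Finset.univ.erase a,
      (f : ℚ) * (Nat.card (orbit (stabilizer G a) b) : ℚ)⁻¹ := by
    rw [← Finset.mul_sum, ← Finset.mul_sum, ← h9, Nat.cast_mul]
  have h13 : ∑ χ ∈ I, f * m χ = ∑ χ ∈ I, f * m χ ^ 2 := (Finset.sum_le_sum h11).antisymm (by
    rw [← Nat.cast_le (α := ℚ), h12, ← h10]; exact Finset.sum_le_sum h6)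
  refine ⟨fun χ c => ?_, fun b c => ?_⟩
  · rw [h1 ⟨χ, c⟩]
    by_cases e : (⟨χ, c⟩ : IrrCharacter G) ∈ I
    · have := (Finset.sum_eq_sum_iff_of_le h11).1 h13 _ e
      have h0 := h7 _ e
      rcases eq_or_ne f 0 with rfl | d
      · exact .inl (by simpa [c.apply_one_ne_zero] using h0)
      rw [Nat.mul_right_inj d, sq, eq_comm, mul_left_eq_self₀] at this
      exact this.symm.imp (by simp +contextual) (by simp +contextual)
    · rw [not_ne_iff.1 fun d => e (Finset.mem_erase.2 ⟨d, Finset.mem_univ _⟩), h2]; simp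
  · have := (Finset.sum_eq_sum_iff_of_le h6).1 (by rw [← h12, ← h13, h10]) b
      (Finset.mem_erase.2 ⟨c, Finset.mem_univ b⟩)
    rw [mul_inv_eq_one₀ (Nat.cast_ne_zero.2 (h5 b).ne')] at this
    exact_mod_cast this.symm

end perm

end H6
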