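import Cfsg.Agent.H6.Glaub5

/-! The odd order correspondence of Isaacs across an abelian section. -/

set_option autoImplicit false
set_option linter.unusedSectionVars false

open Cfsg Subgroup
namespace H6
open H20 H19
open scoped ComplexConjugate Classical commutatorElement

universe u

variable {Γ : Type u} [Group Γ] [Finite Γ] {A K T C D G H L M N P Q S U Z : Subgroup Γ}
  {θ χ ψ φ β γ ξ η : Γ → ℂ} {s g x k σ : Γ} {p : ℕ}

theorem cent_le_der' (hn : H ≤ N(K)) (hc : (#K).Coprime #H) (h : ⁅K, H⁆ = K) :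
    K ⊓ C(H) ≤ ⁅K, K⁆ := by
  have hK : K ≤ N(⁅K, K⁆) := (der_normal K).norm
  rw [← quo_eq_bot_iff (inf_le_left.trans hK), eq_bot_iff,
    ← ab_commg_inf_cent ((ab_quo_iff hK).2 le_rfl) (quo_norms hn) (cop_quo hc _),
    ← quo_comm hK (norms_der hn), h]
  exact le_inf (quo_mono _ inf_le_left) (quo_cents inf_le_right)

/-- uniqueness of the invariant character above an invariant one, abelian section without fixed
points -/
theorem inv_unique (hN : N ⊴ K) (hd : ⁅K, K⁆ ≤ N) (h1 : S ≤ N(K)) (hc : (#K).Coprime #S)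
    (hs : Sol K) (hC : K ⊓ C(S) ≤ N) (hθ : θ ∈ Irr N) (hi : CInv K θ) (hχ : χ ∈ IrrI K S)
    (hψ : ψ ∈ IrrI K S) (e1 : dot N χ θ ≠ 0) (e2 : dot N ψ θ ≠ 0) : ψ = χ := by
  obtain ⟨l, hl, h2, rfl⟩ := exists_lin_mul hN hd hθ hi (irrI_irr hχ) (irrI_irr hψ) e1 e2
  have hk : ∀ s ∈ S, ∀ x ∈ K, s * x * s⁻¹ ∈ K := fun s hs x hx => conj_mem_of_norm (h1 hs) hx
  let W : Subgroup Γ :=
    { carrier := {x | x ∈ K ∧ ∀ s ∈ S, l (s * x * s⁻¹) = l x}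
      one_mem' := ⟨K.one_mem, fun s _ => by simp⟩
      mul_mem' := fun {a b} ha hb => ⟨mul_mem ha.1 hb.1, fun s hs => by
        rw [show s * (a * b) * s⁻¹ = (s * a * s⁻¹) * (s * b * s⁻¹) by group,
          hl.map_mul (hk s hs a ha.1) (hk s hs b hb.1), ha.2 s hs, hb.2 s hs, hl.map_mul ha.1 hb.1]⟩
      inv_mem' := fun {a} ha => ⟨inv_mem ha.1, fun s hs => by
        have h3 := hl.mul_inv (hk s hs a ha.1)
        rw [ha.2 s hs, ← hl.mul_inv ha.1, show (s * a * s⁻¹)⁻¹ = s * a⁻¹ * s⁻¹ by group] at h3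
        exact mul_left_cancel₀ (hl.ne_zero ha.1) h3⟩ }
  have hW : W ≤ K := fun x hx => hx.1
  have h3 : S ≤ N(W) := norms_of_conj fun t ht x hx => ⟨hk t ht x hx.1, fun s hs => by
    rw [hx.2 t ht, ← hx.2 _ (mul_mem hs ht)]; congr 1; group⟩
  have h4 : W ≤ cker l := by
    rw [← commg_sup_cent h3 (hc.coprime_dvd_left (card_dvd hW)) (Or.inr (sol_mono hs hW))]
    refine sup_le (commutator_le.2 fun a ha s hs => ?_) ((inf_le_inf_right _ hW).trans (hC.trans h2))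
    have h4 := hk s hs _ (inv_mem ha.1)
    rw [commutatorElement_def, show a * s * a⁻¹ * s⁻¹ = a * (s * a⁻¹ * s⁻¹) by group,
      hl.mem_cker (mul_mem ha.1 h4), hl.map_mul ha.1 h4, (inv_mem ha).2 s hs, hl.mul_inv ha.1]
  funext x
  by_cases h5 : χ x = 0
  · simp [h5]
  have h6 : x ∈ K := by_contra fun e => h5 ((H20.irr_cf (irrI_irr hχ)).2 x e)
  have h7 : x ∈ W := ⟨h6, fun s hs => by
    have h7 := irrI_cinv hψ s hs x
    rw [Pi.mul_apply, Pi.mul_apply, irrI_cinv hχ s hs x] at h7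
    exact mul_right_cancel₀ h5 h7⟩
  rw [Pi.mul_apply, (hl.mem_cker h6).1 (h4 h7), one_mul]

theorem isa_core (hn : S ≤ N(G)) (hc : (#G).Coprime #S) (hs : Sol G) (ho : Odd #G)
    (h1 : σ ∈ N(G)) (h2 : σ * σ = 1) (h3 : σ ∈ C(S)) (h4 : G ⊓ C[σ] = G ⊓ C(S)) (hZ : Z ≤ G)
    (hZ' : G ≤ C(Z)) (hZS : Z ≤ C(S)) (hd : ⁅⁅G, S⁆, ⁅G, S⁆⁆ ≤ Z) :
    Corr (Gl 2 (G ⊓ C(S))) (IrrI G S) (Irr (G ⊓ C(S))) := by
  have hP : PG 2 (zpowers σ) := piG_zpowers.2 (((piN_prime (π := {2}) Nat.prime_two).2 rfl).dvd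
    (orderOf_dvd_of_pow_eq_one (by rw [sq, h2])))
  have hσ : zpowers σ ≤ N(G) := zpowers_le_of_mem h1
  have h5 := glauberman_p Nat.prime_two hP hσ ho.not_two_dvd_nat
  rw [cent_zpowers, h4] at h5
  set Q := ⁅G, S⁆ with hQ
  have hQG : Q ⊴ G := ⟨commg_le_left hn, commg_norml _ _⟩
  have hSQ : S ≤ N(Q) := commg_normr _ _
  have hσQ : zpowers σ ≤ N(Q) := norms_comm hσ (norms_of_cents (zpowers_le_of_mem h3))
  have hcQ : (#Q).Coprime #S := hc.coprime_dvd_left (card_dvd hQG.le)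
  have h6 : Q ⊓ C(S) ≤ Z := (cent_le_der' hSQ hcQ (commg_commg hn hc)).trans hd
  suffices IrrI G S = IrrI G (zpowers σ) from this ▸ h5
  refine Finset.Subset.antisymm (fun χ hχ => ?_) fun χ hχ => mem_IrrI.2 ⟨irrI_irr hχ,
    cinv_iff.2 fun s hs => ?_⟩
  · obtain ⟨θ, h7, h8⟩ := exists_inv_below hQG hn hSQ ((hc.coprime_dvd_left
      (relIndex_dvd_card _ _)).coprime_dvd_right (relIndex_dvd_card _ _))
      (Or.inr (sol_quo hs _)) hχ
    obtain ⟨l, h9, h10⟩ := irr_exists_below (irrI_irr h7) (inf_le_right : Z ⊓ Q ≤ Q)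
    have h11 : ∀ X ≤ C(Z), CInv X l := fun X hX =>
      cinv_of_cent (hX.trans (cent_mono inf_le_left)) (H20.irr_cf h9).2
    have h12 : zpowers σ ≤ C(Z) := zpowers_le_of_mem (le_cent1_iff.1
      ((le_inf hZ hZS).trans (h4.ge.trans inf_le_right)))
    have h13 : cfj σ θ = θ := inv_unique (N := Z ⊓ Q) ⟨inf_le_right, norms_inf
      (norms_of_cents (hQG.le.trans hZ')) le_normalizer⟩ (le_inf hd (der_le _)) hSQ hcQ
      (sol_mono hs hQG.le) (le_inf h6 inf_le_left) h9 (h11 _ (hQG.le.trans hZ')) h7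
      (irrI_cfj h7 (hσQ (mem_zpowers σ)) (cent_le_norm _ h3)) h10 (by
        rw [← (h11 _ h12).cfj_eq (mem_zpowers σ), dot_cfj_of_norm (norms_inf (norms_of_cents h12)
          hσQ (mem_zpowers σ))]
        exact h10)
    have h14 := (glauberman_ovr Nat.prime_two hQG hσ hσQ (hP.dvd (relIndex_dvd_card _ _))
      (fun e => ho.not_two_dvd_nat (e.trans (relIndex_dvd_card _ _)))
      (mem_IrrI.2 ⟨irrI_irr h7, cinv_zpowers.2 h13⟩)).2
    have h15 : CM G Q (zpowers σ) = G := by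
      refine le_antisymm (CM_le _ _ _) ?_
      conv_lhs => rw [← commg_sup_cent hn hc (Or.inr hs), ← h4]
      refine sup_le (le_CM hQG.le _) ((le_CM_iff hσQ (inf_le_left.trans hQG.norm)).2
        ⟨inf_le_left, ?_⟩)
      rw [commg_eq_bot.2 (by rw [cent_zpowers]; exact inf_le_right)]; exact bot_le
    rw [h15] at h14
    exact mem_IrrI.2 ⟨irrI_irr hχ, h14 χ (mem_ovr.2 ⟨irrI_irr hχ, h8⟩)⟩
  · obtain ⟨β, h7, h8⟩ := h5.ex χ hχ
    have h9 : s ∈ C(G ⊓ C(S)) := cents_symm (inf_le_right : G ⊓ C(S) ≤ C(S)) hs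
    have h10 := h8.cfj (cent_le_norm _ h9)
    rw [(cinv_of_cent (S := C(G ⊓ C(S))) le_rfl (H20.irr_cf h7).2).cfj_eq h9] at h10
    exact h5.inj _ (irrI_cfj hχ (hn hs) (cent_le_norm _ (cents_symm (zpowers_le_of_mem h3) hs))) _
      hχ _ h7 h10 h8

theorem comm_inv_of_cent {a b z w : Γ} (hz : z ∈ center Γ) (hw : w ∈ center Γ)
    (h : ⁅a, b⁆ ∈ center Γ) : ⁅a⁻¹ * z, b⁻¹ * w⁆ = ⁅a, b⁆ := by
  have h1 := mem_center_iff.1 hz
  have h2 := mem_center_iff.1 hw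
  have h3 := mem_center_iff.1 h (a * b)⁻¹
  have h4 : ⁅a⁻¹ * z, b⁻¹ * w⁆ = a⁻¹ * b⁻¹ * a * b := by
    calc ⁅a⁻¹ * z, b⁻¹ * w⁆ = a⁻¹ * (z * (b⁻¹ * w)) * z⁻¹ * (a * w⁻¹ * b) := by
          simp only [commutatorElement_def]; group
      _ = a⁻¹ * b⁻¹ * (w * a) * w⁻¹ * b := by rw [← h1]; group
      _ = _ := by rw [← h2]; group
  rw [h4]
  calc a⁻¹ * b⁻¹ * a * b = (b * a)⁻¹ * ⁅a, b⁆ * (b * a) := by
        simp only [commutatorElement_def]; group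
    _ = _ := by rw [mem_center_iff.1 h]; group

theorem exists_tau (hn : S ≤ N(G)) (hc : (#G).Coprime #S) (hs : Sol G) (ho : Odd #G)
    (ht : G ⊔ S = ⊤) (hZ' : Z ≤ center Γ) (hd : ⁅⁅G, S⁆, ⁅G, S⁆⁆ ≤ Z) :
    ∃ τ : Γ →* Γ, (∀ x, τ (τ x) = x) ∧ (∀ x ∈ S, τ x = x) ∧ (∀ x ∈ G, τ x ∈ G) ∧
      ∀ x ∈ G, τ x = x ↔ x ∈ C(S) := by
  set Q := ⁅G, S⁆ with hQ
  set C := G ⊓ C(S) with hC
  have hQG : Q ≤ G := commg_le_left hn
  have hQn : Q.Normal := normalizer_eq_top_iff.1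
    (top_le_iff.1 (ht ▸ sup_le (commg_norml _ _) (commg_normr _ _)))
  have hZn : Z.Normal := ⟨fun z hz g => by rwa [mem_center_iff.1 (hZ' hz) g, mul_inv_cancel_right]⟩
  have hcQ : (#Q).Coprime #S := hc.coprime_dvd_left (card_dvd hQG)
  have h6 : Q ⊓ C(S) ≤ Z := (cent_le_der' (commg_normr _ _) hcQ (commg_commg hn hc)).trans hd
  have hZS : Z ≤ C(S) := hZ'.trans (center_le_centralizer _)
  have hsw : ∀ {a b : Γ}, a * b ∈ Z → b * a ∈ Z := fun h => hZn.mem_comm h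
  let R : Subgroup (Γ × Γ) :=
    { carrier := {x | x.1 ∈ Q ∧ x.2 ∈ Q ∧ x.1 * x.2 ∈ Z}
      one_mem' := ⟨Q.one_mem, Q.one_mem, by simp⟩
      mul_mem' := fun {a b} ha hb => ⟨mul_mem ha.1 hb.1, mul_mem ha.2.1 hb.2.1, by
        have h1 := hZn.conj_mem _ (hd (commutator_mem_commutator hb.1 ha.2.1)) a.1
        have h2 := mul_mem (mul_mem h1 ha.2.2) hb.2.2
        convert h2 using 1
        simp only [commutatorElement_def, Prod.fst_mul, Prod.snd_mul]; group⟩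
      inv_mem' := fun {a} ha => ⟨inv_mem ha.1, inv_mem ha.2.1, by
        simpa using inv_mem (hsw ha.2.2)⟩ }
  let Δ : Γ →* Γ × Γ := (MonoidHom.id Γ).prod (MonoidHom.id Γ)
  have hΔ : Function.Injective Δ := fun a b e => congrArg Prod.fst e
  have hR : ∀ X : Subgroup Γ, X.map Δ ≤ N(R) := fun X => norms_of_conj (by
    rintro _ ⟨g, -, rfl⟩ x hx
    refine ⟨hQn.conj_mem _ hx.1 g, hQn.conj_mem _ hx.2.1 g, ?_⟩
    convert hZn.conj_mem _ hx.2.2 g using 1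
    simp [Δ, mul_assoc])
  have hRc : (#R).Coprime #(S.map Δ) := by
    rw [card_map_of_injective hΔ]
    refine Nat.Coprime.coprime_dvd_left (card_dvd (show R ≤ Q.prod Q from fun x hx =>
      ⟨hx.1, hx.2.1⟩)) ?_
    rw [Nat.card_congr (prodEquiv Q Q).toEquiv, Nat.card_prod]
    exact Nat.Coprime.mul_left hcQ hcQ
  set R0 := ⁅R, S.map Δ⁆ with hR0
  have h1 : R0 ≤ R := commg_le_left (hR S)
  have h2 : R0 ⊓ C(S.map Δ) ≤ Δ.range := by
    refine (cent_le_der' (commg_normr _ _) (hRc.coprime_dvd_left (card_dvd h1))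
      (commg_commg (hR S) hRc)).trans ((der_mono h1).trans (commutator_le.2 fun a ha b hb =>
      ⟨⁅a.1, b.1⁆, Prod.ext rfl ?_⟩))
    have := comm_inv_of_cent (hZ' ha.2.2) (hZ' hb.2.2)
      (hZ' (hd (commutator_mem_commutator ha.1 hb.1)))
    rw [inv_mul_cancel_left, inv_mul_cancel_left] at this
    exact this.symm
  have hCS : C ≤ N(S) := norms_of_cents inf_le_right
  have h3 : (C ⊔ S).map Δ ≤ N(R0) := norms_comm (hR _)
    ((map_mono (sup_le hCS le_normalizer)).trans (le_normalizer_map Δ))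
  have h4 : ∀ X : Subgroup Γ, (X.map Δ).map (MonoidHom.fst Γ Γ) = X := fun X => by
    rw [map_map]; exact map_id X
  have h5 : R0.map (MonoidHom.fst Γ Γ) = Q := by
    have : R.map (MonoidHom.fst Γ Γ) = Q := le_antisymm (by rintro _ ⟨x, hx, rfl⟩; exact hx.1)
      fun x hx => ⟨(x, x⁻¹), ⟨hx, inv_mem hx, by simp⟩, rfl⟩
    rw [hR0, map_commutator, h4, this, commg_commg hn hc]
  have h7 : ∀ y, (1, y) ∈ R0 ⊔ (C ⊔ S).map Δ → y = 1 := fun y hy => by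
    obtain ⟨a, ha, _, ⟨c, hc', rfl⟩, e⟩ := (mem_sup_of_norm h3).1 hy
    have e1 : a.1 * c = 1 := (congrArg Prod.fst e).symm
    have e2 : y = a.2 * c := congrArg Prod.snd e
    obtain ⟨d, hd', t, ht', rfl⟩ := (mem_sup_of_norm' hCS).1 hc'
    have h7 : t = (a.1 * d)⁻¹ := eq_inv_of_mul_eq_one_right (by rwa [mul_assoc])
    obtain rfl : t = 1 := mem_bot.1 (inf_eq_bot_of_cop hc ▸ ⟨h7 ▸ G.inv_mem
      (G.mul_mem (hQG (h1 ha).1) hd'.1), ht'⟩)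
    rw [mul_one] at e1 e2
    have h8 : a.1 ∈ Z := h6 ⟨(h1 ha).1, eq_inv_of_mul_eq_one_left e1 ▸ C(S).inv_mem hd'.2⟩
    have h9 : a.2 ∈ Z := (mul_mem_cancel_left h8).1 (h1 ha).2.2
    obtain ⟨w, hw⟩ := h2 ⟨ha, mem_cent.2 (by
      rintro _ ⟨s, -, rfl⟩
      exact Prod.ext (mem_center_iff.1 (hZ' h8) s) (mem_center_iff.1 (hZ' h9) s))⟩
    rw [e2, ← e1, ← hw]; rfl
  have hG : Q ⊔ C = G := commg_sup_cent hn hc (Or.inr hs)
  obtain ⟨τ, hτ⟩ := exists_eq_graph (G := R0 ⊔ (C ⊔ S).map Δ) ⟨fun a b e => by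
    have := h7 (a.1.2⁻¹ * b.1.2) (by
      convert mul_mem (inv_mem a.2) b.2 using 1
      exact Prod.ext (by rw [Prod.fst_mul, Prod.fst_inv, show a.1.1 = b.1.1 from e]; simp) rfl)
    exact Subtype.ext (Prod.ext e (inv_mul_eq_one.1 this)), fun x => by
    have : x ∈ (R0 ⊔ (C ⊔ S).map Δ).map (MonoidHom.fst Γ Γ) := by
      rw [Subgroup.map_sup, h5, h4, ← sup_assoc, hG, ht]; trivial
    obtain ⟨y, hy, rfl⟩ := this
    exact ⟨⟨y, hy⟩, rfl⟩⟩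
  have h8 : ∀ x ∈ C ⊔ S, τ x = x := fun x hx =>
    (show Δ x ∈ τ.graph from hτ ▸ mem_sup_right (mem_map_of_mem Δ hx))
  have h9 : ∀ x ∈ Q, τ x ∈ Q ∧ x * τ x ∈ Z := fun x hx => by
    obtain ⟨y, hy, rfl⟩ := h5.ge hx
    rw [show τ (MonoidHom.fst Γ Γ y) = y.2 from (show y ∈ τ.graph from hτ ▸ mem_sup_left hy)]
    exact (h1 hy).2
  have h10 : ∀ x ∈ G, ∃ q ∈ Q, ∃ c ∈ C, x = q * c := fun x hx =>
    (mem_sup_of_norm (le_top.trans (normalizer_eq_top Q).ge)).1 (hG.ge hx)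
  refine ⟨τ, fun x => ?_, fun x hx => h8 x (mem_sup_right hx), fun x hx => ?_,
    fun x hx => ⟨fun e => ?_, fun e => h8 x (mem_sup_left ⟨hx, e⟩)⟩⟩
  · let w : Γ × Γ →* Γ × Γ := (MulEquiv.prodComm (M := Γ) (N := Γ)).toMonoidHom
    have h11 : ∀ X : Subgroup Γ, (X.map Δ).map w = X.map Δ := fun X => by rw [map_map]; rfl
    have h12 : τ.graph.map w ≤ τ.graph := by
      rw [← hτ, Subgroup.map_sup, h11, hR0, map_commutator, h11]
      refine sup_le_sup_right (commutator_mono ?_ le_rfl) _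
      rintro _ ⟨y, hy, rfl⟩
      exact ⟨hy.2.1, hy.1, hsw hy.2.2⟩
    exact h12 ⟨(x, τ x), rfl, rfl⟩
  · obtain ⟨q, hq, c, hc', rfl⟩ := h10 x hx
    rw [map_mul, h8 c (mem_sup_left hc')]
    exact mul_mem (hQG (h9 q hq).1) hc'.1
  · obtain ⟨q, hq, c, hc', rfl⟩ := h10 x hx
    rw [map_mul, h8 c (mem_sup_left hc'), mul_left_inj] at e
    have h11 := (h9 q hq).2
    rw [e] at h11
    obtain ⟨m, hm⟩ := ho.of_dvd_nat (orderOf_dvd_natCard (⟨q, hQG hq⟩ : G))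
    have h12 : q = ((q * q) ^ m)⁻¹ := by
      have := pow_orderOf_eq_one q
      rw [← orderOf_mk q (hQG hq), hm, pow_succ, pow_mul, sq] at this
      exact eq_inv_of_mul_eq_one_right this
    exact mul_mem (hZS (h12 ▸ inv_mem (pow_mem h11 m))) hc'.2

theorem corr_of_map {W : Type*} [Group W] [Finite W] {f : Γ →* W} (hp : p.Prime)
    (hf : Function.Injective f)
    (h : Corr (Gl p (C.map f)) (IrrI (G.map f) (S.map f)) (Irr (C.map f))) :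
    Corr (Gl p C) (IrrI G S) (Irr C) := by
  have h1 : ∀ X : Subgroup Γ, Corr (fun φ α => φ ∘ f = α) (Irr (X.map f)) (Irr X) := fun X => by
    have := corr_comp (f := f) (map_le_range f X)
    rwa [comap_map_eq_self_of_injective hf, Finset.filter_true_of_mem fun _ _ => by
      rw [(f.ker_eq_bot_iff).2 hf]; exact bot_le] at this
  have h2 := (h1 G).filter (p := CInv (S.map f)) (q := CInv S) (by
    rintro φ hφ _ _ rfl
    refine ⟨fun e => comap_map_eq_self_of_injective hf S ▸ cinv_comp e, fun e =>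
      cinv_of_comp (map_le_range f S) (fun x hx => (H20.irr_cf hφ).2 x fun e' =>
        hx (map_le_range f G e')) ?_⟩
    rwa [comap_map_eq_self_of_injective hf])
  refine ((h2.symm.comp h).comp (h1 C)).of_le ?_ fun a ha b hb b' hb' r r' => ?_
  · rintro _ _ _ hb ⟨β, -, ⟨φ, -, rfl, -, ε, hε, D, hD, e⟩, rfl⟩
    refine ⟨hb, ε, hε, D ∘ f, comap_map_eq_self_of_injective hf C ▸ comp_mem_ZIrr hD, ?_⟩
    conv_lhs => rw [← comap_map_eq_self_of_injective hf C, ← Res_comp, e]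
    rfl
  · exact r.unique hp r'

theorem isa_cent (hn : S ≤ N(G)) (hc : (#G).Coprime #S) (hs : Sol G) (ho : Odd #G)
    (ht : G ⊔ S = ⊤) (hZ : Z ≤ G) (hZ' : ⊤ ≤ C(Z)) (hd : ⁅⁅G, S⁆, ⁅G, S⁆⁆ ≤ Z) :
    Corr (Gl 2 (G ⊓ C(S))) (IrrI G S) (Irr (G ⊓ C(S))) := by
  have hZ2 : Z ≤ center Γ := fun z hz => mem_center_iff.2 fun g =>
    (mem_cent.1 (hZ' (mem_top g)) z hz).symm
  obtain ⟨τ, h1, h2, h3, h4⟩ := exists_tau hn hc hs ho ht hZ2 hd
  let f := MulAction.toPermHom Γ Γ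
  have hf : Function.Injective f := MulAction.toPerm_injective
  let σ : Equiv.Perm Γ := Function.Involutive.toPerm τ h1
  have h5 : σ * σ = 1 := Equiv.ext h1
  have h6 : ∀ x, σ * f x * σ⁻¹ = f (τ x) := fun x => by
    rw [inv_eq_of_mul_eq_one_right h5]
    refine Equiv.ext fun y => ?_
    show τ (x * τ y) = τ x * y
    rw [map_mul, h1]
  have h7 : ∀ x, f x ∈ C(S.map f) ↔ x ∈ C(S) := fun x => by
    simp only [mem_cent]
    refine ⟨fun e s hs => hf (by rw [map_mul, map_mul, e _ (mem_map_of_mem f hs)]), ?_⟩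
    rintro e _ ⟨s, hs, rfl⟩
    rw [← map_mul, e s hs, map_mul]
  have h8 : G.map f ⊓ C(S.map f) = (G ⊓ C(S)).map f := by
    refine le_antisymm ?_ (le_inf (map_mono inf_le_left) ?_)
    · rintro _ ⟨⟨x, hx, rfl⟩, e⟩; exact mem_map_of_mem f ⟨hx, (h7 x).1 e⟩
    · rintro _ ⟨x, hx, rfl⟩; exact (h7 x).2 hx.2
  refine corr_of_map Nat.prime_two hf (h8 ▸ isa_core (σ := σ) (Z := Z.map f)
    ((map_mono hn).trans (le_normalizer_map f))
    (by rwa [card_map_of_injective hf, card_map_of_injective hf])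
    (sol_of_equiv (G.equivMapOfInjective f hf) hs) (by rwa [card_map_of_injective hf])
    (mem_norm_of_cj_le ?_) h5 (mem_cent.2 ?_) ?_ (map_mono hZ) ?_ ?_
    (by rw [← map_commutator, ← map_commutator]; exact map_mono hd))
  · rintro _ ⟨_, ⟨x, hx, rfl⟩, rfl⟩
    exact ⟨τ x, h3 x hx, (h6 x).symm⟩
  · rintro _ ⟨s, hs, rfl⟩
    rw [← mul_inv_eq_iff_eq_mul.1 ((h6 s).trans (by rw [h2 s hs]))]
  · ext y
    refine and_congr_right ?_
    rintro ⟨x, hx, rfl⟩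
    erw [mem_cent1, h7, ← h4 x hx, ← hf.eq_iff, ← h6, mul_inv_eq_iff_eq_mul, eq_comm]
  · rintro _ ⟨x, -, rfl⟩
    refine mem_cent.2 ?_
    rintro _ ⟨z, hz, rfl⟩
    rw [← map_mul, ← mem_center_iff.1 (hZ2 hz), map_mul]
  · rintro _ ⟨z, hz, rfl⟩
    exact (h7 z).2 (center_le_centralizer _ (hZ2 hz))

/-- hypotheses of the relative correspondence -/
structure IsaH (K N P : Subgroup Γ) : Prop where
  hN : N ⊴ K
  h1 : P ≤ N(K)
  h2 : P ≤ N(N)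
  odd : Odd (N.relIndex K)
  cop : (N.relIndex K).Coprime (N.relIndex P)
  sol : Sol (quo N K)
  ab : ∃ M, N ≤ M ∧ M ≤ K ∧ ⁅K, N ⊔ P⁆ ≤ M ∧ ⁅M, M⁆ ≤ N

theorem IsaH.mono (h : IsaH K N P) (h1 : N ≤ T) (h2 : T ≤ K) (h3 : P ≤ N(T)) : IsaH T N P := by
  obtain ⟨M, h4, -, h5, h6⟩ := h.ab
  exact ⟨h.hN.of_le h1 h2, h3, h.h2, h.odd.of_dvd_nat (relIndex_dvd_right h1 h2),
    h.cop.coprime_dvd_left (relIndex_dvd_right h1 h2), sol_mono h.sol (quo_mono N h2), M ⊓ T,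
    le_inf h4 h1, inf_le_right, le_inf ((commutator_mono h2 le_rfl).trans h5)
    (commg_le_left (sup_le (norms_of_le h1) h3)), (der_mono inf_le_left).trans h6⟩

theorem IsaH.cm (h : IsaH K N P) : IsaH (CM K N P) N P :=
  h.mono (le_CM h.hN.le P) (CM_le _ _ _) (self_norms_CM h.h1 h.h2)

theorem IsaH.below (h : IsaH K N P) (hχ : χ ∈ IrrI K P) : ∃ θ ∈ IrrI N P, dot N χ θ ≠ 0 :=
  exists_inv_below h.hN h.h1 h.h2 h.cop (Or.inr h.sol) hχ

theorem IsaH.inv (h : IsaH K N P) (hθ : θ ∈ IrrI N P) (hi : CInv K θ) :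
    Corr (Gl 2 (CM K N P)) ((ovr K N θ).filter (CInv P)) (ovr (CM K N P) N θ) ∧
      ∀ ξ ∈ ovr (CM K N P) N θ, CInv P ξ := by
  obtain ⟨hN, h1, h2, ho, hc, hs, M, hM1, hM2, hM3, hM4⟩ := h
  have hp := Nat.prime_two
  obtain ⟨D, _, _, Γ', _, _, f, g, Z, l, τ, hf, c, h3⟩ := exists_cov_hall
    (⟨hN.le.trans le_sup_left, sup_le hN.norm h2⟩ : N ⊴ K ⊔ P) (left_normal_sup h1) hN.le
    (irrI_irr hθ) (cinv_sup hi (irrI_cinv hθ))
  have h4 : N ⊔ P ≤ f.range := hf ▸ sup_le_sup_right hN.le P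
  have hP' : P ≤ f.range := le_sup_right.trans h4
  have h5 : PiN (primes (N.relIndex K))ᶜ (Z.relIndex (up f g (N ⊔ P))) := by
    rw [c.relIndex_Z le_sup_left h4, relIndex_sup_of_norm h2]; exact PiN.of_coprime_pi hc.symm
  have hZK := c.le_up hN.le
  obtain ⟨S, hS⟩ := Hall.exists_compl ⟨c.le_up le_sup_left, h3.of_le hZK, h5⟩
    (c.Z_normal.norms le_top)
  have h6 : Z ⊔ S = up f g (N ⊔ P) := hS.sup
  have hS' : (#(up f g K)).Coprime #S := h3.coprime (hS.relIndex_left ▸ h5)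
  have hZ : Z ≤ C(S) := cents_symm (le_top.trans c.cent)
  have h7 : S ≤ N(up f g K) :=
    hS.right_le.trans (c.norms_up hN.le c.range (sup_le (norms_of_le hN.le) h1))
  have hZa : Sol Z := sol_of_ab (le_centralizer_iff_isMulCommutative.1 (le_top.trans c.cent))
  have h8 : up f g (CM K N P) = up f g K ⊓ C(S) := by
    have h8 := c.Z_normal.norms (le_top (a := S))
    have h9 := c.Z_normal.norms (le_top (a := up f g K))
    rw [← sup_eq_right.2 (le_inf hZK hZ), ← CM_of_cop hZK h8 h9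
      (hS'.coprime_dvd_left (card_dvd hZK)) (Or.inr hZa), ← CM_sup _ h8, h6, ← CM_sup K h2]
    ext y
    obtain ⟨d, rfl⟩ := c.surj y
    rw [c.mem_up (le_CM hN.le _), mem_CM (sup_le le_normalizer h2) hN.norm,
      mem_CM (c.Z_normal.norms le_top) h9, c.mem_up hN.le]
    refine and_congr_right fun _ => ⟨?_, fun e x hx => ?_⟩
    · rintro e _ ⟨x, hx, rfl⟩; exact c.comm_mem_Z.2 (e _ hx)
    · obtain ⟨a, rfl⟩ := h4 hx; exact c.comm_mem_Z.1 (e _ (mem_up_of hx))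
  have hC := le_CM hN.le P
  have h9 : ∀ {X χ β}, N ≤ X → X ≤ K → P ≤ N(X) → χ ∈ ovr X N θ → β ∈ ovr (up f g X) Z l →
      TR f g τ χ β → (CInv P χ ↔ CInv S β) := fun hX hX' hn hχ hβ r => by
    have h9 := c.cinv_iff hX hX' hχ hβ r h4 (sup_le (norms_of_le hX) hn)
    rw [← h6] at h9
    exact ⟨fun e => (h9.1 (cinv_sup ((irr_cinv (mem_ovr.1 hχ).1).mono hX) e)).mono le_sup_right,
      fun e => (h9.2 (cinv_sup ((irr_cinv (mem_ovr.1 hβ).1).mono (c.le_up hX)) e)).mono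
        le_sup_right⟩
  have h10 := (c.corr hN.le le_rfl).filter (p := CInv P) (q := CInv S)
    fun _ hχ _ hβ r => h9 hN.le le_rfl h1 hχ hβ r
  have h11 := c.corr hC (CM_le _ _ _)
  have hsK : Sol (up f g K) := by
    obtain ⟨e⟩ := c.quo_equiv le_rfl c.range hN
    rw [c.up_N] at e
    exact sol_of_quo (c.Z_normal.norms le_top) (sol_mono hZa inf_le_left) (sol_of_equiv e hs)
  have hd : ⁅⁅up f g K, S⁆, ⁅up f g K, S⁆⁆ ≤ Z := by
    refine (der_mono ((commutator_mono le_rfl hS.right_le).trans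
      ((c.comm_up_le c.range h4 hM1).2 hM3))).trans ?_
    rw [← c.up_N]
    exact (c.comm_up_le (hM2.trans c.range) (hM2.trans c.range) le_rfl).2 hM4
  have ht : up f g K ⊔ S = ⊤ := by
    rw [← sup_eq_left.2 hZK, sup_assoc, h6, ← Cov.up_sup c.range h4, ← sup_assoc,
      sup_eq_left.2 hN.le, ← hf, up_range c.surj]
  have hZC : Z ≤ up f g K ⊓ C(S) := le_inf hZK hZ
  have h12 := (isa_cent h7 hS' hsK (Nat.not_even_iff_odd.1 fun e => h3.not_dvd' hp (fun e =>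
      ho.not_two_dvd_nat e.2) e.two_dvd) ht hZK c.cent hd).restrict
    (A' := (ovr (up f g K) Z l).filter (CInv S)) (B' := ovr (up f g K ⊓ C(S)) Z l)
    (fun β hβ => mem_IrrI.2 ⟨(mem_ovr.1 (Finset.mem_filter.1 hβ).1).1, (Finset.mem_filter.1 hβ).2⟩)
    (ovr_subset _ _ _) fun β hβ γ hγ r => by
      have e : ∀ l' ∈ Irr Z, dot Z γ l' ≠ 0 → dot Z β l' ≠ 0 := fun l' hl' =>
        dot_ne_below (irr_chr (irrI_irr hβ)) inf_le_left hZC hγ (irr_chr hl') (r.dot_ne hp)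
      rw [Finset.mem_filter, and_iff_left (irrI_cinv hβ)]
      refine ⟨fun e' => ?_, fun e' => mem_ovr.2 ⟨irrI_irr hβ, e l c.lin.irr (mem_ovr.1 e').2⟩⟩
      obtain ⟨l', h12, h13⟩ := irr_exists_below hγ hZC
      have h14 := e l' h12 h13
      rw [← dot_Res_left, (c.hm_of_ovr hN.le e').Res_eq c.lin, dot_smul_left] at h14
      exact mem_ovr.2 ⟨hγ, irr_eq_of_dot c.lin.irr h12 (right_ne_zero_of_mul h14) ▸ h13⟩
  rw [← h8] at h12
  refine ⟨((h10.comp h12).comp h11.symm).of_le ?_ fun _ _ _ _ _ _ r r' => r.unique hp r',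
    fun ξ hξ => ?_⟩
  · rintro χ hχ ξ hξ ⟨γ, hγ, ⟨β, hβ, r1, r2⟩, r3⟩
    obtain ⟨hχ, -⟩ := Finset.mem_filter.1 hχ
    obtain ⟨hβ, -⟩ := Finset.mem_filter.1 hβ
    obtain ⟨ε, hε, h13⟩ := r2.exists_dot
    refine gl_of_dvd hp.ne_zero ((irr_cinv (mem_ovr.1 hχ).1).mono (CM_le _ _ _)) (mem_ovr.1 hξ).1 hε
      fun φ hφ => ?_
    by_cases h14 : dot N φ θ = 0
    · have h15 : ∀ ψ ∈ Chr (CM K N P), (∃ e : ℂ, Res N ψ = e • θ) → dot (CM K N P) ψ φ = 0 := by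
        rintro ψ hψ ⟨e, he⟩
        by_contra h15
        obtain ⟨θ', h16, h17⟩ := irr_exists_below hφ hC
        have h18 := dot_ne_trans hψ hφ hC (irr_chr h16) h15 h17
        rw [← dot_Res_left, he, dot_smul_left] at h18
        exact h17 (irr_eq_of_dot (irrI_irr hθ) h16 (right_ne_zero_of_mul h18) ▸ h14)
      refine ⟨0, ?_⟩
      rw [← dot_Res_left, h15 _ (chr_Res (irr_chr (mem_ovr.1 hχ).1) (CM_le _ _ _))
        ⟨_, by rw [Res_Res hC, H20.clifford_inv hN (mem_ovr.1 hχ).1 (irrI_irr hθ) hi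
          (mem_ovr.1 hχ).2]⟩, h15 _ (irr_chr (mem_ovr.1 hξ).1) ⟨_, H20.clifford_inv
          (hN.of_le hC (CM_le _ _ _)) (mem_ovr.1 hξ).1 (irrI_irr hθ) (hi.mono (CM_le _ _ _))
          (mem_ovr.1 hξ).2⟩]
      simp
    · obtain ⟨δ, h15, r4⟩ := h11.ex φ (mem_ovr.2 ⟨hφ, h14⟩)
      rw [c.rel_dot r1 r4 (c.hm_of_ovr hN.le hβ) (c.hm_of_ovr hC h15) hC (CM_le _ _ _),
        c.rel_dot r3 r4 (c.hm_of_ovr hC hγ) (c.hm_of_ovr hC h15) hC (CM_le _ _ _)]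
      exact h13 _ le_rfl _ (irr_zirr (mem_ovr.1 h15).1)
  · obtain ⟨γ, hγ, r⟩ := h11.ex ξ hξ
    refine (h9 hC (CM_le _ _ _) (self_norms_CM h1 h2) hξ hγ r).2
      (cinv_of_cent (cents_symm (h8.le.trans inf_le_right)) (H20.irr_cf (mem_ovr.1 hγ).1).2)

theorem IsaH.over (h : IsaH K N P) (hθ : θ ∈ IrrI N P) (hχ : χ ∈ ovr K N θ)
    (hγ : γ ∈ IrrI (CM K N P) P) (e : dot (CM K N P) χ γ ≠ 0) : dot N γ θ ≠ 0 := by
  have hC := le_CM h.hN.le P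
  obtain ⟨θ', h3, h4⟩ := h.cm.below hγ
  obtain ⟨k, h5, rfl⟩ := mem_orb.1 (H20.clifford_conj h.hN (mem_ovr.1 hχ).1 (irrI_irr hθ)
    (irrI_irr h3) (mem_ovr.1 hχ).2 (dot_ne_below (irr_chr (mem_ovr.1 hχ).1) (CM_le _ _ _) hC
    (irrI_irr hγ) (irr_chr (irrI_irr h3)) e h4))
  obtain ⟨c, h6, h7⟩ := exists_cfj_CM h.hN h.h1 h.h2 h.cop (Or.inr h.sol) hθ h5 (irrI_cinv h3)
  rwa [← h7, dot_cfj_below (irr_cinv (irrI_irr hγ)) h.cm.hN.norm (cfj_mem_orb h6 θ)] at h4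

theorem IsaH.ovr' (h : IsaH K N P) (hθ : θ ∈ IrrI N P) :
    Corr (GlI 2 (CM K N P) P) ((ovr K N θ).filter (CInv P)) (ovr (CM K N P) N θ) ∧
      ∀ ξ ∈ ovr (CM K N P) N θ, CInv P ξ := by
  have hp := Nat.prime_two
  have hN := h.hN
  have h1 := h.h1
  have h2 := h.h2
  have hC := le_CM hN.le P
  have hC' := hN.of_le hC (CM_le _ _ _)
  have h3 := H20.le_inertia (irr_cinv (irrI_irr hθ)) hN.le
  obtain ⟨h4, h5⟩ := (h.mono h3 (inertia_le _ _) (norms_inertia h1 (irrI_cinv hθ))).inv hθ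
    (cinv_inertia K θ)
  rw [← inf_CM (inertia_le K θ), ← inertia_of_le (CM_le _ _ _)] at h4 h5
  have h6 : ∀ ξ ∈ ovr (CM K N P) N θ, CInv P ξ := fun ξ hξ => by
    obtain ⟨η, h6, rfl⟩ := (corr_clifford hC' (irrI_irr hθ)).surj ξ hξ
    exact (cinv_Ind_iff hC' hθ (self_norms_CM h1 h2) h2 h6).1 (h5 η h6)
  have h7 := (corr_clifford hN (irrI_irr hθ)).filter (p := CInv P) (q := CInv P) (by
    rintro ψ hψ _ _ rfl; exact cinv_Ind_iff hN hθ h1 h2 hψ)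
  refine ⟨((h7.symm.comp h4).comp (corr_clifford hC' (irrI_irr hθ))).of_le ?_
    fun _ _ _ hξ _ hη r r' => r.unique hp r' (mem_IrrI.2 ⟨(mem_ovr.1 hξ).1, h6 _ hξ⟩)
      (mem_IrrI.2 ⟨(mem_ovr.1 hη).1, h6 _ hη⟩), h6⟩
  rintro _ hχ _ hξ ⟨η, hη, ⟨ψ, hψ, rfl, r⟩, rfl⟩
  obtain ⟨ε, hε, h8⟩ := r.exists_dot
  refine ⟨ε, hε, fun γ hγ => ?_⟩
  by_cases h9 : dot N γ θ = 0
  · refine ⟨0, ?_⟩
    rw [of_not_not (mt (h.over hθ (Finset.mem_filter.1 hχ).1 hγ) (not_not.2 h9)),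
      irr_dot_ne (mem_ovr.1 hξ).1 (irrI_irr hγ) fun e => (mem_ovr.1 hξ).2 (e ▸ h9)]
    simp
  · obtain ⟨η', h10, rfl⟩ := (corr_clifford hC' (irrI_irr hθ)).surj γ
      (mem_ovr.2 ⟨irrI_irr hγ, h9⟩)
    have h11 := H20.le_inertia (irr_cinv (irrI_irr hθ)) hC
    rw [dot_Ind_right (inertia_le _ _) _ ((cinv_Ind _ _ _).mono (CM_le _ _ _)),
      dot_Ind_right (inertia_le _ _) _ (cinv_Ind _ _ _), clifford_dot hC' (irrI_irr hθ) hη h11
      le_rfl h10, clifford_dot hN (irrI_irr hθ) (Finset.mem_filter.1 hψ).1 h11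
      (inertia_of_le (CM_le K N P) θ ▸ inf_le_left) h10]
    exact h8 _ le_rfl _ (irr_zirr (mem_ovr.1 h10).1)

theorem IsaH.rel (h : IsaH K N P) :
    Corr (GlI 2 (CM K N P) P) (IrrI K P) (IrrI (CM K N P) P) := by
  have hp := Nat.prime_two
  have hC := le_CM h.hN.le P
  refine ⟨fun χ hχ => ?_, fun ξ hξ => ?_, fun _ _ _ hξ _ hη r r' => r.unique hp r' hξ hη,
    fun χ hχ ψ hψ ξ hξ r r' => ?_⟩
  · obtain ⟨θ, h4, h5⟩ := h.below hχ
    obtain ⟨h6, h7⟩ := h.ovr' h4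
    obtain ⟨ξ, h8, r⟩ := h6.ex χ (Finset.mem_filter.2 ⟨mem_ovr.2 ⟨irrI_irr hχ, h5⟩, irrI_cinv hχ⟩)
    exact ⟨ξ, mem_IrrI.2 ⟨(mem_ovr.1 h8).1, h7 ξ h8⟩, r⟩
  · obtain ⟨θ, h4, h5⟩ := h.cm.below hξ
    obtain ⟨χ, h6, r⟩ := (h.ovr' h4).1.surj ξ (mem_ovr.2 ⟨irrI_irr hξ, h5⟩)
    exact ⟨χ, mem_IrrI.2 ⟨(mem_ovr.1 (Finset.mem_filter.1 h6).1).1, (Finset.mem_filter.1 h6).2⟩, r⟩
  · obtain ⟨θ, h4, h5⟩ := h.cm.below hξ
    have h6 : ∀ χ ∈ IrrI K P, GlI 2 (CM K N P) P χ ξ → χ ∈ (H20.ovr K N θ).filter (CInv P) :=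
      fun χ hχ r => Finset.mem_filter.2 ⟨mem_ovr.2 ⟨irrI_irr hχ, dot_ne_below
        (irr_chr (irrI_irr hχ)) (CM_le _ _ _) hC (irrI_irr hξ) (irr_chr (irrI_irr h4))
        (r.dot_ne hp hξ) h5⟩, irrI_cinv hχ⟩
    exact (h.ovr' h4).1.inj _ (h6 χ hχ r) _ (h6 ψ hψ r') _ (mem_ovr.2 ⟨irrI_irr hξ, h5⟩) r r'

end H6
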