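/-
The Praeger-Saxl bound: interface (definitions and the statements of the pieces).
-/
import Cfsg.Agent.H22.Bab

set_option autoImplicit false
open MulAction Finset

namespace H6.PS
universe u

open Classical in
/-- the number of ordered pairs of distinct points lying in one orbit of `X` -/
noncomputable def E {G : Type*} [Group G] (Ω : Type*) [MulAction G Ω] [Fintype Ω]
    (X : Subgroup G) : ℕ :=
  #((univ : Finset (Ω × Ω)).filter fun p => p.1 ≠ p.2 ∧ ∃ g ∈ X, g • p.1 = p.2)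

open Classical in
/-- the number of points distinguishing `a` and `b` -/
noncomputable def D (G : Type*) [Group G] {Ω : Type*} [MulAction G Ω] [Fintype Ω] (a b : Ω) : ℕ :=
  #((univ : Finset Ω).filter fun x => ¬ ∃ g : G, g • x = x ∧ g • a = b)

/-- double transitivity -/
def T2 (G Ω : Type*) [Group G] [MulAction G Ω] : Prop :=
  ∀ a b c d : Ω, a ≠ b → c ≠ d → ∃ g : G, g • a = c ∧ g • b = d

/-- no element moves exactly three points -/
def N3 (G Ω : Type*) [Group G] [MulAction G Ω] : Prop :=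
  ∀ f : G, {x : Ω | f • x ≠ x}.ncard ≠ 3

/-- a system of `s` blocks of size `b` for the stabilizer of `α` on the other points -/
structure Bl (K Ω Λ : Type*) [Group K] [MulAction K Ω] (α : Ω) [MulAction (stabilizer K α) Λ]
    (s b : ℕ) where
  π : Ω → Λ
  eqv : ∀ (h : stabilizer K α) (x : Ω), x ≠ α → π ((h : K) • x) = h • π x
  fib : ∀ σ : Λ, {x : Ω | x ≠ α ∧ π x = σ}.ncard = b
  cs : Nat.card Λ = s
  cn : Nat.card Ω = s * b + 1
  hs : 2 ≤ s
  hb : 2 ≤ b

/-- the kernel of the action on the blocks, as a subgroup of `K` -/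
def LL (K : Type*) {Ω : Type*} [Group K] [MulAction K Ω] (α : Ω) (Λ : Type*)
    [MulAction (stabilizer K α) Λ] : Subgroup K :=
  (toPermHom (stabilizer K α) Λ).ker.map (stabilizer K α).subtype

/-- the square of the cost of one round -/
def aa (s b : ℕ) : ℕ := min ((s - 1).factorial ^ 2) (2 ^ ((s - 1) * (b - 1)))

/-- unseparated pairs after `j` rounds -/
def ej (s b : ℕ) : ℕ → ℕ
  | 0 => s * b * (b - 1)
  | j + 1 => ej s b j * (b - 2) / (s * b)

/-- the order of the group induced by `X` is at most `2 ^ (E / 2)` -/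
def SQ : Prop := ∀ (G Ω : Type u) [Group G] [Finite G] [MulAction G Ω] [Fintype Ω]
  (X : Subgroup G), ((toPermHom G Ω).ker.relIndex X) ^ 2 ≤ 2 ^ E Ω X

/-- distinguishing sets in a primitive group that is not doubly transitive -/
def DB : Prop := ∀ (G Ω : Type u) [Group G] [Finite G] [MulAction G Ω] [Fintype Ω]
  [IsPreprimitive G Ω], ¬ T2 G Ω → 12 ≤ Nat.card Ω → ∀ a b : Ω, a ≠ b →
    12 * Nat.card Ω + 24 * D G a b ≤ 9 * D G a b ^ 2 + 16 ∧ 2 ≤ D G a b

/-- the potential argument -/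
def UN : Prop := ∀ (G Ω : Type u) [Group G] [Finite G] [MulAction G Ω] [FaithfulSMul G Ω]
  [Fintype Ω] (d : ℕ), 2 ≤ d → 12 * Nat.card Ω + 24 * d ≤ 9 * d ^ 2 + 16 →
    (∀ a b : Ω, a ≠ b → d ≤ D G a b) → (Nat.card G : ℝ) ≤ Real.exp (Nat.card Ω)

/-- existence of a primitive block system -/
def BL : Prop := ∀ (K Ω : Type u) [Group K] [Finite K] [MulAction K Ω] [Fintype Ω] (α : Ω),
  T2 K Ω → 3 ≤ Nat.card Ω → ¬ IsPreprimitive (stabilizer K α) (SubMulAction.ofStabilizer K α) →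
    ∃ (Λ : Type u) (_ : MulAction (stabilizer K α) Λ) (s b : ℕ),
      IsPreprimitive (stabilizer K α) Λ ∧ Nonempty (Bl K Ω Λ α s b)

/-- few blocks when the alternating group is induced on them -/
def AL : Prop := ∀ (K Ω Λ : Type u) [Group K] [Finite K] [MulAction K Ω] [Fintype Ω] (α : Ω)
  [MulAction (stabilizer K α) Λ] [Fintype Λ] [DecidableEq Λ] (s b : ℕ), T2 K Ω → N3 K Ω →
    Bl K Ω Λ α s b → alternatingGroup Λ ≤ (toPermHom (stabilizer K α) Λ).range → s + 6 ≤ 9 * b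

/-- one round inside the kernel -/
def RD : Prop := ∀ (K Ω Λ : Type u) [Group K] [Finite K] [MulAction K Ω] [Fintype Ω] (α : Ω)
  [MulAction (stabilizer K α) Λ] (s b : ℕ), T2 K Ω → Bl K Ω Λ α s b →
    E Ω (LL K α Λ) ≤ s * b * (b - 1) ∧ ∀ X ≤ LL K α Λ, ∃ Y ≤ X, ∃ A : ℕ,
      Nat.card X ≤ b * A * Nat.card Y ∧ A ^ 2 ≤ aa s b ∧ E Ω Y * (s * b) ≤ E Ω X * (b - 2)

/-- numerics for the imprimitive stabilizer -/
def NA : Prop := ∀ s b Q : ℕ, 2 ≤ s → 2 ≤ b → 20 ≤ s * b → Q ≤ s.factorial →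
  (Q ≤ 4 ^ s ∨ s + 6 ≤ 9 * b) →
    ∃ j, Q ^ 2 * (b ^ 2 * aa s b) ^ j * 2 ^ ej s b j ≤ 2 ^ (2 + 577 * (s * b) / 200)

/-- numerics for the degree of transitivity -/
def NB : Prop := ∀ n : ℕ, 22 ≤ n → ∃ k p r : ℕ, p.Prime ∧ n = k * p + r ∧ 1 ≤ k ∧ k < p ∧ k < r ∧
  ¬ (k = 1 ∧ r = 2) ∧ r + 19 ≤ n ∧
    (n.descFactorial (r - 1) : ℝ) * (2 * Real.exp ((n + 1 - r : ℕ) : ℝ)) ≤ 4 ^ n

end H6.PS
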