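/-
The Praeger-Saxl bound: the order of a group in terms of pairs in one orbit.
-/
import Cfsg.Agent.H6.PS0

set_option autoImplicit false
open MulAction Finset

namespace H6.PS
universe u

theorem sq_step {G Ω : Type*} [Group G] [Finite G] [MulAction G Ω] [Fintype Ω] (X : Subgroup G)
    (x : Ω) : E Ω (X ⊓ stabilizer G x) + 2 * ((stabilizer G x).relIndex X - 1) ≤ E Ω X := by
  classical
  let O : Finset Ω := (univ.filter fun y => ∃ g ∈ X, g • x = y).erase x
  have hO : #O = (stabilizer G x).relIndex X - 1 := by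
    rw [card_erase_of_mem (by simpa using ⟨1, X.one_mem, one_smul _ _⟩)]
    congr 1
    rw [Subgroup.relIndex, show (stabilizer G x).subgroupOf X = stabilizer X x from rfl,
      index_stabilizer, ← Set.ncard_coe_finset]
    congr 1
    ext y
    simp only [coe_filter, mem_univ, true_and, Set.mem_setOf_eq, mem_orbit_iff]
    exact ⟨fun ⟨g, h1, h2⟩ => ⟨⟨g, h1⟩, h2⟩, fun ⟨g, h⟩ => ⟨g, g.2, h⟩⟩
  have mO : ∀ y, y ∈ O ↔ y ≠ x ∧ ∃ g ∈ X, g • x = y := fun y => by simp [O]
  let A := O.image fun y => (x, y)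
  let B := O.image fun y => (y, x)
  have hA : #A = #O := card_image_of_injective _ fun a b e => (Prod.ext_iff.1 e).2
  have hB : #B = #O := card_image_of_injective _ fun a b e => (Prod.ext_iff.1 e).1
  have hAB : Disjoint A B := disjoint_left.2 fun p h1 h2 => by
    obtain ⟨y, hy, rfl⟩ := mem_image.1 h1
    obtain ⟨z, -, e⟩ := mem_image.1 h2
    exact ((mO y).1 hy).1 (Prod.ext_iff.1 e).2.symm
  rw [← hO, two_mul]
  nth_rewrite 2 [← hB]
  rw [← hA, ← card_union_of_disjoint hAB, E, E, ← card_union_of_disjoint]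
  · refine card_le_card fun p hp => ?_
    simp only [mem_union, mem_filter, mem_univ, true_and] at hp ⊢
    rcases hp with ⟨h1, g, h2, h3⟩ | h | h
    · exact ⟨h1, g, h2.1, h3⟩
    · obtain ⟨y, hy, rfl⟩ := mem_image.1 h
      exact ⟨((mO y).1 hy).1.symm, ((mO y).1 hy).2⟩
    · obtain ⟨y, hy, rfl⟩ := mem_image.1 h
      obtain ⟨h1, g, h2, h3⟩ := (mO y).1 hy
      exact ⟨h1, g⁻¹, X.inv_mem h2, by rw [← h3, inv_smul_smul]⟩
  · refine disjoint_left.2 fun p h1 h2 => ?_
    simp only [mem_union, mem_filter, mem_univ, true_and] at h1 h2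
    obtain ⟨h1, g, h3, h4⟩ := h1
    have h5 : g • x = x := h3.2
    rcases h2 with h | h
    · obtain ⟨y, -, rfl⟩ := mem_image.1 h
      exact h1 (h5.symm.trans h4)
    · obtain ⟨y, -, rfl⟩ := mem_image.1 h
      exact h1 (MulAction.injective g (h4.trans h5.symm))

theorem sq : SQ.{u} := by
  intro G Ω _ _ _ _ X
  induction X using WellFoundedLT.induction with
  | ind X ih =>
  by_cases h : X ≤ (toPermHom G Ω).ker
  · rw [Subgroup.relIndex_eq_one.2 h, one_pow]; exact Nat.one_le_two_pow
  obtain ⟨x, hx⟩ : ∃ x : Ω, ¬ X ≤ stabilizer G x := by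
    by_contra! hc
    exact h fun g hg => Equiv.ext fun x => hc x hg
  have h1 := ih (X ⊓ stabilizer G x) (inf_lt_left.2 hx)
  have h2 := sq_step X x
  have h3 : (toPermHom G Ω).ker ≤ stabilizer G x := fun g hg => Equiv.ext_iff.1 hg x
  have h4 : (toPermHom G Ω).ker.relIndex X = (toPermHom G Ω).ker.relIndex (X ⊓ stabilizer G x) *
      (stabilizer G x).relIndex X := by
    rw [← Subgroup.inf_relIndex_right (toPermHom G Ω).ker (X ⊓ stabilizer G x),
      ← Subgroup.inf_relIndex_left X (stabilizer G x),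
      Subgroup.relIndex_mul_relIndex _ _ _ inf_le_right inf_le_left, ← inf_assoc,
      inf_right_comm, inf_eq_left.2 h3, Subgroup.inf_relIndex_right]
  generalize (stabilizer G x).relIndex X = j at h2 h4
  have h5 : j ≤ 2 ^ (j - 1) := by
    have := Nat.lt_two_pow_self (n := j - 1)
    omega
  rw [h4, mul_pow]
  refine le_trans (Nat.mul_le_mul h1 (Nat.pow_le_pow_left h5 2)) ?_
  rw [← pow_mul, ← pow_add]
  exact Nat.pow_le_pow_right (by norm_num) (by omega)

end H6.PS
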