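/-
S5806, characteristic two: the pairings in a clique are constant.
-/
import Cfsg.Agent.H6.SP4
import Cfsg.Agent.H10.SP.A

set_option autoImplicit false
set_option linter.unusedSectionVars false

namespace H6.SP
open Matrix Cfsg Cfsg.Geo H27.Asch Module Submodule H11.SP
open scoped commutatorElement MatrixGroups

universe u
variable {k : Type u} [Field k] [CharP k 2] {G : Type*} [Group G] {P : Subgroup (G6 k)} {π : P →* G}
  {u w u' w' p x y z v : V6 k} {c s : k}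

theorem dep4 {e τ : V6 k} (hp : p ≠ 0) (he : e ∉ span k {p}) (xy : fm x y = 1) (pe : fm p e = 0) (pt : fm p τ = 0)
    (px : fm p x = 0) (et : fm e τ = 0) (ex : fm e x = 0) (tx : fm τ x = 0) (py : fm p y = 0) (ey : fm e y = 0) (ty : fm τ y = 0) :
    ∃ a b : k, τ = a • e + b • p := by
  obtain ⟨g, hg, i, hi⟩ := Fintype.not_linearIndependent_iff.1 (H10.SP.iso4 ![p, e, τ, x] fun i j => by
    fin_cases i <;> fin_cases j <;> simp [fm_sy _ p, fm_sy τ e, fm_sy x e, fm_sy x τ, *])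
  simp only [Fin.sum_univ_four, cons_val_zero, cons_val_one, cons_val] at hg
  have g3 : g 3 = 0 := by simpa [xy, py, ey, ty] using congrArg (fm · y) hg
  by_cases g2 : g 2 = 0
  · have g1 : g 1 = 0 := by_contra fun n => he (mem_span_singleton.2 ⟨-(g 0 / g 1), smul_right_injective _ n (by
      simp only [smul_smul, mul_neg, mul_div_cancel₀ _ n]; rw [g2, g3] at hg; linear_combination (norm := module) -hg)⟩)
    have g0 : g 0 = 0 := by simpa [g1, g2, g3, hp] using hg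
    fin_cases i <;> simp_all
  · refine ⟨-(g 1 / g 2), -(g 0 / g 2), smul_right_injective _ g2 ?_⟩
    simp only [smul_add, smul_smul, mul_neg, mul_div_cancel₀ _ g2]; rw [g3] at hg; linear_combination (norm := module) hg

theorem Qm.cj' (hP : P ≤ S6 k) (h : Qm P p x c) {g : G6 k} (hg : g ∈ P) (e : g.val *ᵥ p = s • p) :
    Qm P p (s • g.val *ᵥ x) (s ^ 2 * c) := by
  obtain ⟨a, b, hb, f⟩ := h
  refine ⟨by rw [fm_smul_r, ← fm_smul_l, ← e, fm_iso (hP hg), a], _, P.mul_mem (P.mul_mem hg hb) (P.inv_mem hg), ?_⟩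
  rw [Units.val_mul, Units.val_mul, f, mul_add, mul_add, add_mul, add_mul, N_cj (hP hg), Matrix.mul_smul, Matrix.smul_mul,
    E_cj (hP hg), e, mul_one, Units.mul_inv, N_smul_l, N_smul_r]
  exact congrArg _ (mext fun v => by simp only [smul_mulVec, E_mv, fm_smul_r]; module)

/-- a swap is trivial on `ℓ^⊥/ℓ` -/
theorem sw_perp {n : M6 k} {a b : k} (px : fm p x = 0) (py : fm p y = 0) (xz : fm x z = 0) (m : fm p z ≠ 0) (m' : fm x y ≠ 0)
    (np : n *ᵥ p = a • x) (nx : n *ᵥ x = b • p) (f : ∀ v, fm v p = 0 → fm v y = 0 → fm v x = 0 → fm v z = 0 → n *ᵥ v = v)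
    (vp : fm v p = 0) (vx : fm v x = 0) : ∃ c d : k, n *ᵥ v = v + c • x + d • p := by
  have := f (v + (fm v z / fm p z) • p + (fm v y / fm x y) • x) (by simp [vp, fm_sy x p, px]) (by simp [py, m', aa])
    (by simp [vx, px]) (by simp [xz, m, aa])
  rw [mulVec_add, mulVec_add, mulVec_smul, mulVec_smul, np, nx] at this
  exact ⟨fm v y / fm x y - fm v z / fm p z * a, fm v z / fm p z - fm v y / fm x y * b, by linear_combination (norm := module) this⟩

section
variable {g : G6 k} (hP : P ≤ S6 k) (hg : g ∈ P) (gp : g.val *ᵥ p = s • p) (gx : s • g.val *ᵥ x = x) (s0 : s ≠ 0) (s1 : s ≠ 1)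
  (tr : ∀ v, fm v p = 0 → fm v x = 0 → ∃ c d : k, g.val *ᵥ v = v + c • x + d • p)
include hP hg gp s0

theorem A2.sc (a : A2 P p w) : A2 P p (s • g.val *ᵥ w) := A2.move (gp ▸ a.cj hP hg) s0

include gx s1 tr

theorem ystar (px : fm p x = 0) (b : A2 P p y) (n : fm x y ≠ 0) : ∃ y', fm p y' = 0 ∧ fm x y' = 1 ∧
    (∃ c : k, s • g.val *ᵥ y' = s ^ 2 • y' + c • p) ∧ ∀ e, fm e x = 0 → (∀ w, A2 P p w → fm e w = 0) → fm e y' = 0 := by
  have b' := b.sc hP hg gp s0
  have xy : fm x (s • g.val *ᵥ y) = s ^ 2 * fm x y := by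
    conv_lhs => rw [← gx, fm_smul_l, fm_smul_r, fm_iso (hP hg)]
    ring
  obtain ⟨y1, e1⟩ : ∃ y1, y1 = s • g.val *ᵥ y + s ^ 2 • y := ⟨_, rfl⟩
  have p1 : fm p y1 = 0 := by rw [e1, fm_add_r, b'.1, fm_smul_r, b.1]; simp
  have x1 : fm x y1 = 0 := by rw [e1, fm_add_r, xy, fm_smul_r, aa]
  obtain ⟨c, d, e⟩ := tr y1 (fm_sy y1 p ▸ p1) (fm_sy y1 x ▸ x1)
  have t1 : s + 1 ≠ 0 := fun z => s1 (add_eq (k := k).1 z)
  have t2 : s ^ 2 + 1 ≠ 0 := by rw [show s ^ 2 + 1 = (s + 1) ^ 2 by linear_combination -s * two (k := k)]; positivity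
  obtain ⟨α, hα⟩ : ∃ α, α * (s ^ 2 + s) = 1 := ⟨_, inv_mul_cancel₀ (by rw [sq, ← mul_add_one]; positivity)⟩
  obtain ⟨β, hβ⟩ : ∃ β, β * (s ^ 2 + 1) = α * s * c := ⟨_, div_mul_cancel₀ _ t2⟩
  refine ⟨(fm x y)⁻¹ • (y + α • y1 + β • x), by simp [b.1, p1, px], by simp [x1, n], ⟨(fm x y)⁻¹ * (α * s * d), ?_⟩, fun e ex h => ?_⟩
  · rw [mulVec_smul, mulVec_add, mulVec_add, mulVec_smul, mulVec_smul, e]
    linear_combination (norm := module) (fm x y)⁻¹ • (-e1 + β • gx - hα • y1 - hβ • x - s ^ 2 • vv (k := k) y +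
      (α * s) • vv (k := k) y1 + β • vv (k := k) x)
  · rw [fm_smul_r, fm_add_r, fm_add_r, fm_smul_r, fm_smul_r, e1, fm_add_r, h _ b', fm_smul_r, h _ b, ex]; simp

theorem gam [Fintype k] (nt : NoTv P) (t : ¬ T1 P) (e1 : E1 P) (a : A2 P p x) (py : fm p y = 0) (xy : fm x y = 1)
    (ey : s • g.val *ᵥ y = s ^ 2 • y + c • p) (b : A2 P p w) : fm y w = 1 := by
  obtain ⟨τ, ew⟩ : ∃ τ, w = fm w y • x + fm x w • y + τ := ⟨w - fm w y • x - fm x w • y, by module⟩
  have tp : fm τ p = 0 := by simpa [fm_sy _ p, a.1, b.1, py] using (congrArg (fm p) ew).symm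
  have tx : fm τ x = 0 := by simpa [fm_sy τ x, xy] using (congrArg (fm x) ew).symm
  have ty : fm τ y = 0 := by simpa [xy] using (congrArg (fm · y) ew).symm
  rw [fm_sy]
  generalize fm w y = γ at *
  generalize fm x w = δ at *
  obtain ⟨c', d, e⟩ := tr τ tp tx
  have c0 : c' = 0 := by
    have := congrArg (fm (g.val *ᵥ τ)) ey
    rw [fm_smul_r, fm_iso (hP hg), e] at this
    simpa [ty, tp, xy, py, fm_sy x p, a.1, s0] using this
  rw [c0, zero_smul, add_zero] at e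
  let u : ℕ → V6 k := fun j => γ • x + (δ * s ^ (2 * j)) • y + s ^ j • τ
  have hu : ∀ j, A2 P p (u j) := fun j => by
    induction j with
    | zero => simpa [u, ← ew] using b
    | succ j i =>
      convert (i.sc hP hg gp s0).shift (-(δ * s ^ (2 * j) * c + s ^ (j + 1) * d)) using 1
      simp only [u, mulVec_add, mulVec_smul, e]
      linear_combination (norm := module) -γ • gx - (δ * s ^ (2 * j)) • ey
  have hq : ∀ m : ℕ, ∃ c : k, Qm P p (∑ j ∈ Finset.range m, u j) c := fun m => by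
    induction m with
    | zero => exact ⟨0, Qm.zero⟩
    | succ m i => obtain ⟨c, i⟩ := i; exact ⟨_, Finset.sum_range_succ u m ▸ i.mul (hu m).qm⟩
  have t2 : s ^ 2 ≠ 1 := fun z => s1 (by
    have : (s + 1) ^ 2 = 0 := by linear_combination z + (s + 1) * two (k := k)
    exact add_eq (k := k).1 (pow_eq_zero_iff two_ne_zero |>.1 this))
  by_cases γ0 : γ = 0
  · obtain ⟨f, hf⟩ := N_inj a.ne_l (same t e1 (hu 0) (hu 1) (by simp [u, γ0, ty, fm_sy y τ]))
    have : δ * s ^ 2 = δ := by simpa [u, γ0, xy, fm_sy x τ, tx, fm_sy x p, a.1] using congrArg (fm x) hf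
    have δ0 : δ = 0 := by_contra fun n => t2 (mul_left_cancel₀ n (by rw [this, mul_one]))
    refine (b.nm (mem_span_singleton.2 ⟨f / (s - 1), smul_right_injective _ (sub_ne_zero.2 s1) ?_⟩)).elim
    simp only [u, γ0, δ0] at hf ew
    simp only [smul_smul, mul_div_cancel₀ _ (sub_ne_zero.2 s1)]
    linear_combination (norm := module) -hf - (s - 1) • ew
  obtain ⟨c', q⟩ := hq (Fintype.card k - 1)
  have sm := FiniteField.pow_card_sub_one_eq_one s s0
  have : ∑ j ∈ Finset.range (Fintype.card k - 1), u j = γ • x := by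
    simp only [u, Finset.sum_add_distrib, ← Finset.sum_smul, ← Finset.mul_sum, pow_mul]
    rw [geom_sum_eq s1, geom_sum_eq t2, ← pow_mul, mul_comm 2, pow_mul, sm, Finset.sum_const, Finset.card_range, nsmul_eq_mul,
      Nat.cast_pred Fintype.card_pos, FiniteField.cast_card_eq_zero, zero_sub, neg_eq_of_add_eq_zero_left (aa 1)]
    simp
  rw [this] at q
  have q' := q.cj' hP hg gp
  rw [mulVec_smul, smul_comm, gx] at q'
  have := (q.mul q').tv nt a.ne_l (by rw [vv (k := k)]; exact zero_mem _)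
  have c0 : c' = 0 := by
    rw [fm_self, add_zero, add_eq (k := k)] at this
    exact by_contra fun n => t2 (mul_right_cancel₀ n (by rw [← this, one_mul]))
  exact e1 p x γ a ((c0 ▸ q).a2 (fun m => a.nm ((smul_mem_iff _ γ0).1 m)) a.ne_l)
end

/-- the Sylow subgroup fixes the normal vector -/
theorem Sy.fix (hP : P ≤ S6 k) {S : Sylow 2 P} (s : Sy P p S) (a : A2 P p x) (b : A2 P p y) (n : fm x y ≠ 0) (pv : fm p v = 0)
    (o : ∀ w, A2 P p w → fm v w = 1) (sp : ∀ e, (∀ w, A2 P p w → fm e w = 0) → fm e v = 0) (g : P) (hg : g ∈ S.1) :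
    ∃ c : k, g.1.val *ᵥ v = v + c • p := by
  have gp := s.fx g hg
  have gi : ∀ u w, A2 P p w → ∃ w', A2 P p w' ∧ fm (g.1.val *ᵥ u) w = fm u w' := fun u w h =>
    ⟨_, s.fx _ (inv_mem hg) ▸ h.cj hP (g⁻¹).2, by rw [← fm_iso (hP g.2) u]; exact congrArg _ (mv_inv ..).symm⟩
  have gq : ∀ u, fm p (g.1.val *ᵥ u) = fm p u := fun u => by rw [← fm_iso (hP g.2) p u, gp]
  obtain ⟨e, he⟩ : ∃ e, g.1.val *ᵥ v = v + e := ⟨g.1.val *ᵥ v - v, by module⟩
  have ew : ∀ w, A2 P p w → fm e w = 0 := fun w h => by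
    obtain ⟨w', h', f⟩ := gi v w h
    rwa [he, fm_add_l, o _ h, o _ h', add_eq_left] at f
  have ew' : ∀ w, A2 P p w → fm (g.1.val *ᵥ e) w = 0 := fun w h => let ⟨_, h', f⟩ := gi e w h; f.trans (ew _ h')
  have pe : fm p e = 0 := by simpa [he, pv] using gq v
  by_contra! H
  have ne : e ∉ span k {p} := fun m => let ⟨c, hc⟩ := mem_span_singleton.1 m; H c (by rw [he, hc])
  have xv : fm x v = 1 := fm_sy x v ▸ o _ a
  obtain ⟨ε, c, hy⟩ := dep4 (τ := x + y + fm x y • v) a.ne_l ne xv pe (by simp [a.1, b.1, pv]) a.1 (by simp [ew _ a, ew _ b, sp e ew])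
    (ew _ a) (by simp [fm_sy y x, o _ a, aa]) pv (sp e ew) (by simp [fm_sy _ v, o _ a, o _ b, aa])
  have q := a.qm.mul b.qm
  have e2 : g.1.val *ᵥ (x + y) = fm x y • (v + e) + ε • g.1.val *ᵥ e + c • p := by
    have := congrArg (g.1.val *ᵥ ·) hy
    simp only [mulVec_add _ (x + y), mulVec_add _ (ε • e), mulVec_smul, he, gp] at this
    linear_combination (norm := module) this - fm x y • vv (k := k) (v + e)
  have q2 := q.mul (q.cj hP g.2 gp)
  have e3 : x + y + g.1.val *ᵥ (x + y) = (fm x y + ε) • e + ε • g.1.val *ᵥ e := by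
    rw [e2]; linear_combination (norm := module) hy + c • vv (k := k) p
  rw [e3, aa, e2, show fm (x + y) _ = 0 by
    simp [fm_sy _ v, o _ a, o _ b, aa, fm_sy _ e, ew _ a, ew _ b, fm_sy x (_ *ᵥ _), fm_sy y (_ *ᵥ _), ew' _ a, ew' _ b, fm_sy _ p, a.1, b.1],
    add_zero] at q2
  obtain ⟨d, hd⟩ := mem_span_singleton.1 (by_contra fun m => by
    simpa [fm_sy v, sp e ew, sp _ ew'] using o _ (q2.a2 m a.ne_l))
  have ε0 : ε ≠ 0 := fun z => ne (by
    rw [z, zero_smul, add_zero, add_zero] at hd; exact (smul_mem_iff _ n).1 (hd ▸ smul_mem _ _ (mem_span_singleton_self p)))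
  obtain ⟨m, hm⟩ := S.2 ⟨g, hg⟩
  have := eig1 (c := 1 + fm x y / ε) (v := fm x y • e + d • p) (congrArg (fun x : S.1 => x.1.1) hm)
    (fun z => ne ((smul_mem_iff _ n).1 (add_eq (k := k).1 z ▸ smul_mem _ _ (mem_span_singleton_self p)))) (by
      apply smul_right_injective _ ε0
      simp only [mulVec_add, mulVec_smul, gp, smul_smul ε, mul_add, mul_div_cancel₀ _ ε0]
      linear_combination (norm := module) -fm x y • hd - (fm x y * (fm x y + ε)) • vv (k := k) e)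
  simp [n, ε0] at this

theorem db : DB.{u} := fun F G _ _ _ _ P π h _ K tp t1 t3 e1 p x0 y1 y2 a0 b1 b2 n1 n2 => by
  by_contra d
  obtain ⟨α, β, z, c, m, yz⟩ := cfg tp a0 y1
  have a := a0.shift α
  have b1' := b1.shift β
  have b2' := b2.shift (fm y2 z / fm p z)
  have r : ∀ y (c : F), A2 P p y → fm (x0 + α • p) (y + c • p) = fm x0 y := fun y c b => by simp [b.1, fm_sy x0 p, a0.1]
  rw [← r y1 β b1] at n1 d
  rw [← r y2 (fm y2 z / fm p z) b2] at n2 d
  generalize x0 + α • p = x at *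
  have yz' : fm (y2 + (fm y2 z / fm p z) • p) z = 0 := by rw [fm_add_l, fm_smul_l, div_mul_cancel₀ _ m, aa]
  generalize y1 + β • p = y at *
  generalize y2 + (fm y2 z / fm p z) • p = y' at *
  obtain ⟨n, hn, ν, h0, np, -, nx, -, f⟩ := K.sw' b1' c a.1 yz m n1
  obtain ⟨n', hn', ν', h0', np', -, nx', -, f'⟩ := K.sw' b2' c a.1 yz' m n2
  have gp : (n * n').val *ᵥ p = (ν' * fm p z * (ν * fm x y)) • p := by rw [mul_mv, np', mulVec_smul, nx, smul_smul]
  obtain ⟨s, hs⟩ : ∃ s, s = ν' * fm p z * (ν * fm x y) := ⟨_, rfl⟩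
  have ss : s * (ν' * fm x y' * (ν * fm p z)) = 1 := by rw [hs]; linear_combination ν' ^ 2 * (fm p z * fm x y') * h0 + h0'
  rw [← hs] at gp
  have gx : s • (n * n').val *ᵥ x = x := by rw [mul_mv, nx', mulVec_smul, np, smul_smul, smul_smul, mul_assoc s, ss, one_smul]
  have s0 : s ≠ 0 := left_ne_zero_of_mul_eq_one ss
  have s1 : s ≠ 1 := fun z => d (by rw [z] at hs ss; linear_combination -fm x y * ss - fm x y' * hs)
  have tr : ∀ v, fm v p = 0 → fm v x = 0 → ∃ c d : F, (n * n').val *ᵥ v = v + c • x + d • p := fun v vp vx => by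
    obtain ⟨c', d', e'⟩ := sw_perp a.1 b2'.1 c.1 m n2 np' nx' f' vp vx
    obtain ⟨c, d, e⟩ := sw_perp a.1 b1'.1 c.1 m n1 np nx f vp vx
    exact ⟨c + d' * (ν * fm p z), d + c' * (ν * fm x y), by
      rw [mul_mv, e', mulVec_add, mulVec_add, mulVec_smul, mulVec_smul, e, np, nx]; module⟩
  obtain ⟨v, pv, xv, ⟨c, ev⟩, sp⟩ := ystar h.sp (P.mul_mem hn hn') gp gx s0 s1 tr a.1 b1' n1
  have o := fun w => gam (w := w) h.sp (P.mul_mem hn hn') gp gx s0 s1 tr h.ntv t1 e1 a pv xv ev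
  obtain ⟨S, hS⟩ := ex_sy h.toRq K t3 a b1' n1
  exact hS.tr' h.toRq a pv (hS.fix h.sp a b1' n1 pv o fun e he => sp e (he _ a) he) o

end H6.SP
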