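/-
S5806, characteristic two: `G₂(2ⁿ)` and its long root elements.
-/
import Cfsg.Agent.H6.SP5

set_option autoImplicit false
set_option linter.unusedSectionVars false

namespace H6.SP
open Matrix Cfsg Cfsg.Geo H27.Asch Module Submodule H11.SP
open H10.SP (DD_cj cm_meet t3_sq r_ne ind2 iso4)
open scoped commutatorElement MatrixGroups Pointwise

universe u
variable {k : Type u} [Field k] [CharP k 2] {G : Type*} [Group G] {P : Subgroup (G6 k)} {π : P →* G}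
  {u w u' w' p x y z v : V6 k} {c : k}

theorem DD_sq {d : P} : d ∈ H10.SP.DD P → d * d = 1
  | ⟨_, _, h, e⟩ => Subtype.ext (r_inv h.1 e)

/-- two members of a 2-group -/
theorem DD_two (hP : P ≤ S6 k) (K : Kt P) (t2 : ¬ T2 P) {a b : P} {n : ℕ} (h : A2 P u w) (h' : A2 P u' w') (ea : a.1.val = 1 + N u w)
    (eb : b.1.val = 1 + N u' w') (e : (a * b) ^ 2 ^ n = 1) :
    a * b = b * a ∧ (a ≠ b → a * b ∈ H10.SP.DD P) ∧ (∀ x ∈ span k {u, w}, ∀ y ∈ span k {u', w'}, fm x y = 0) ∨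
      T3 P ∧ (a * b) ^ 2 ∈ H10.SP.DD P := by
  obtain ⟨s, x, s', y, f, f', g, g', rfl | t⟩ := K.ty _ _ _ _ h.1 h'.1 h.2.1 h'.2.1 (pr0 h.1 h'.1 h.ne_l ea eb (congrArg Subtype.val e))
  · have z : fm x y = 0 := by_contra fun n => t2 ⟨_, _, _, h.congr f g, h'.congr f' g', n⟩
    rw [f] at ea; rw [f'] at eb
    refine .inl ⟨Subtype.ext (cm_meet g g' ea eb), fun n => ⟨_, _, (h.congr f g).add (h'.congr f' g') z fun m => n ?_, ?_⟩, fun a ha b hb => ?_⟩
    · rw [N_add_r, add_eq (k := k)] at m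
      exact Subtype.ext (Units.ext (by rw [ea, eb, m]))
    · rw [Subgroup.coe_mul, Units.val_mul, ea, eb, r_mul g g', z, zero_smul, add_zero]
    · have m := mem_of_N h.2.1 f
      have m' := mem_of_N h'.2.1 f'
      obtain ⟨_, _, rfl⟩ := mem_span_pair.1 ((span_le.2 (Set.pair_subset m.1 m.2) : _ ≤ span k {s', x}) ha)
      obtain ⟨_, _, rfl⟩ := mem_span_pair.1 ((span_le.2 (Set.pair_subset m'.1 m'.2) : _ ≤ span k {s', y}) hb)
      simp [g, g', z, fm_sy x s']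
  · exact .inr ⟨⟨_, _, _, _, h.congr f g, h'.congr f' g', t⟩, _, _, (h.congr f g).t3 hP (h'.congr f' g') t,
      t3_sq g g' t (f ▸ ea) (f' ▸ eb)⟩

theorem DD_ne {d : P} : d ∈ H10.SP.DD P → d ≠ 1
  | ⟨_, _, h, e⟩ => fun z => r_ne h.2.1 e (congrArg Subtype.val z)

theorem DD_cen (hP : P ≤ S6 k) (K : Kt P) (t2 : ¬ T2 P) {S : Subgroup P} (hS : IsPGroup 2 S) [Finite S] (n : ℕ) :
    ∀ d ∈ Subgroup.upperCentralSeries S n, d.1 ∈ H10.SP.DD P → ∃ z : S, z.1 ∈ H10.SP.DD P ∧ ∀ s, s * z = z * s := by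
  induction n with
  | zero => exact fun d hd h => (DD_ne h (by rw [Subgroup.mem_bot.1 hd]; rfl)).elim
  | succ n i =>
    intro d hd h
    by_contra! H
    obtain ⟨s, hs⟩ := H d h
    have dd : d⁻¹ = d := inv_eq_of_mul_eq_one_right (Subtype.ext (DD_sq h))
    have h' := DD_cj hP h s
    obtain ⟨m, hm⟩ := hS (d * (s * d * s⁻¹))
    obtain ⟨u, w, a, ea⟩ := id h
    obtain ⟨u', w', a', eb⟩ := id h'
    rcases DD_two hP K t2 a a' ea eb (congrArg Subtype.val hm) with ⟨-, t, -⟩ | ⟨-, t⟩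
    · obtain ⟨z, hz, c⟩ := i _ (Subgroup.mem_upperCentralSeries_succ_iff.1 hd s) (by
        rw [commutatorElement_def, dd]; simpa [mul_assoc] using t fun e => hs (Subtype.ext (by simpa using (eq_mul_inv_iff_mul_eq.1 e).symm)))
      exact let ⟨s, hs⟩ := H z hz; hs (c s)
    · obtain ⟨z, hz, c⟩ := i _ (Subgroup.mem_upperCentralSeries_succ_iff.1 hd (s * d * s⁻¹)) (by
        rw [commutatorElement_def, _root_.mul_inv_rev, _root_.mul_inv_rev, dd]; simpa [mul_assoc, sq] using t)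
      exact let ⟨s, hs⟩ := H z hz; hs (c s)

theorem perp3 {a b : V6 k} (n : N u w ≠ 0) (m : y ∉ span k {u, w}) (h : fm u w = 0) (hu : fm u y = 0) (hw : fm w y = 0)
    (ha : ∀ x ∈ ({u, w, y} : Set (V6 k)), fm x a = 0) (hb : ∀ x ∈ ({u, w, y} : Set (V6 k)), fm x b = 0) : fm a b = 0 := by
  simp only [Set.mem_insert_iff, Set.mem_singleton_iff, forall_eq_or_imp, forall_eq] at ha hb
  obtain ⟨g, hg, i, hi⟩ := Fintype.not_linearIndependent_iff.1 (iso4 ![u, w, y, a] fun i j => by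
    fin_cases i <;> fin_cases j <;> simp [fm_sy a, fm_sy y u, fm_sy y w, fm_sy w u, *])
  simp only [Fin.sum_univ_four, cons_val_zero, cons_val_one, cons_val] at hg
  by_contra f
  have g3 : g 3 = 0 := by simpa [hb, f] using congrArg (fm · b) hg
  have g2 : g 2 = 0 := by_contra fun n => m (mem_span_pair.2 ⟨-(g 0 / g 2), -(g 1 / g 2), smul_right_injective _ n (by
    simp only [smul_add, smul_smul, mul_neg, mul_div_cancel₀ _ n]; rw [g3] at hg; linear_combination (norm := module) -hg)⟩)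
  obtain ⟨g0, g1⟩ := ind2 n (by simpa [g2, g3] using hg)
  fin_cases i <;> simp_all

theorem gf' (h : Rq P π) (K : Kt P) (t0 : T0 P) (t2 : ¬ T2 P) (S : Sylow 2 P) {a b : P} (ha : a ∈ S.1) (hb : b ∈ S.1)
    (ab : a * b ≠ b * a) (hz : ∀ z ∈ S.1 ⊓ Subgroup.centralizer (S.1 : Set P), z ≠ 1 → IsConj z a ∧ IsConj z b)
    (L : Subfield k) (ek : EK P L) : T3 P ∧ Nat.card L = Nat.card ↥(S.1 ⊓ Subgroup.centralizer (S.1 : Set P)) := by
  have := fin_P h
  obtain ⟨z, ⟨u, w, az, ez⟩, cz⟩ : ∃ z : S.1, z.1 ∈ H10.SP.DD P ∧ ∀ s, s * z = z * s := by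
    obtain ⟨u, w, a⟩ := t0
    obtain ⟨d, hd, e⟩ := a.2.2
    have m : (⟨d, hd⟩ : P) ∈ H10.SP.DD P := ⟨u, w, a, e⟩
    obtain ⟨T, le⟩ := IsPGroup.exists_le_sylow (p := 2) (P := Subgroup.zpowers (⟨d, hd⟩ : P)) (IsPGroup.of_card (n := 1) (by
      rw [Nat.card_zpowers, orderOf_eq_prime (p := 2) (by rw [sq, DD_sq m]) (DD_ne m), pow_one]))
    obtain ⟨g, rfl⟩ := MulAction.exists_smul_eq P T S
    obtain ⟨n, hn⟩ := (g • T).2.isNilpotent.nilpotent'
    exact DD_cen h.sp K t2 (g • T).2 n ⟨_, Subgroup.smul_mem_pointwise_smul _ _ _ (le (Subgroup.mem_zpowers _))⟩ (by simp [hn])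
      (DD_cj h.sp m g)
  have cj : ∀ {x y : P}, IsConj x y → x ∈ H10.SP.DD P → y ∈ H10.SP.DD P := fun c m => let ⟨g, e⟩ := isConj_iff.1 c; e ▸ DD_cj h.sp m g
  have mz : z.1 ∈ S.1 ⊓ Subgroup.centralizer (S.1 : Set P) := ⟨z.2, fun s hs => congrArg Subtype.val (cz ⟨s, hs⟩)⟩
  obtain ⟨za, zb⟩ := hz _ mz (DD_ne ⟨u, w, az, ez⟩)
  obtain ⟨a1, a2, aa, ea⟩ := cj za ⟨u, w, az, ez⟩
  obtain ⟨b1, b2, bb, eb⟩ := cj zb ⟨u, w, az, ez⟩
  have tw : ∀ {x y : P} {u w u' w'}, x ∈ S.1 → y ∈ S.1 → A2 P u w → A2 P u' w' → x.1.val = 1 + N u w → y.1.val = 1 + N u' w' → _ :=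
    fun hx hy h1 h2 e1 e2 => let ⟨_, hm⟩ := S.2 (⟨_, hx⟩ * ⟨_, hy⟩); DD_two h.sp K t2 h1 h2 e1 e2 (congrArg Subtype.val hm)
  have pp : ∀ {x y : P} {u w u' w'}, x ∈ S.1 ⊓ Subgroup.centralizer (S.1 : Set P) → y ∈ S.1 → A2 P u w → A2 P u' w' →
      x.1.val = 1 + N u w → y.1.val = 1 + N u' w' → ∀ x ∈ span k {u, w}, ∀ y ∈ span k {u', w'}, fm x y = 0 :=
    fun {x y _ _ _ _} hx hy h1 h2 e1 e2 => ((tw hx.1 hy h1 h2 e1 e2).resolve_right fun t => DD_ne t.2 (by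
      rw [Commute.mul_pow (hx.2 y hy).symm, sq, sq, DD_sq ⟨_, _, h1, e1⟩, DD_sq ⟨_, _, h2, e2⟩, mul_one])).2.2
  refine ⟨((tw ha hb aa bb ea eb).resolve_left fun t => ab t.1).1, ?_⟩
  have ex : ∀ c : L, ∃ g : ↥(S.1 ⊓ Subgroup.centralizer (S.1 : Set P)), g.1.1.val = 1 + N u (c.1 • w) := fun c => by
    rcases (ek u w az c).1 c.2 with e | ⟨f, n, g, hg, e⟩
    · exact ⟨1, by simp [e, N_zero_r]⟩
    have : (⟨g, hg⟩ : P) ∈ Subgroup.centralizer (S.1 : Set P) := fun s hs => Subtype.ext (Units.ext (by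
      have := congrArg (·.1.1.val) (cz ⟨s, hs⟩)
      simp only [Subgroup.coe_mul, Units.val_mul, ez, e, N_smul_r, mul_add, add_mul, mul_one, one_mul, add_right_inj,
        Matrix.mul_smul, Matrix.smul_mul] at this ⊢
      rw [this]))
    have m : (⟨g, hg⟩ : P) ∈ H10.SP.DD P := ⟨_, _, ⟨f, n, g, hg, e⟩, e⟩
    refine ⟨⟨_, ?_, this⟩, e⟩
    exact ((IsPGroup.inf_normalizer_sylow (P := Subgroup.zpowers (⟨g, hg⟩ : P)) (IsPGroup.of_card (n := 1) (by
      rw [Nat.card_zpowers, orderOf_eq_prime (p := 2) (by rw [sq, DD_sq m]) (DD_ne m), pow_one])) S).le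
      ⟨Subgroup.mem_zpowers _, Subgroup.centralizer_le_normalizer _ this⟩).2
  choose f hf using ex
  refine Nat.card_congr (Equiv.ofBijective f ⟨fun c d e => Subtype.ext (smul_left_injective k az.2.1 ?_), fun g => ?_⟩)
  · have := hf c
    rw [e, hf d, N_smul_r, N_smul_r, add_right_inj] at this
    exact this.symm
  suffices ∃ c : L, g.1.1.val = 1 + N u (c.1 • w) from this.imp fun c e => Subtype.ext (Subtype.ext (Units.ext ((hf c).trans e.symm)))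
  by_cases g1 : g.1 = 1
  · exact ⟨0, by simp [g1, N_zero_r]⟩
  obtain ⟨u', w', ag, eg⟩ := cj (hz _ g.2 g1).1.symm ⟨_, _, aa, ea⟩
  have l : ∀ {u w : V6 k}, u ∈ span k {u, w} := subset_span (by simp)
  have r : ∀ {u w : V6 k}, w ∈ span k {u, w} := subset_span (by simp)
  have m : ∀ y ∈ span k {u', w'}, y ∈ span k {u, w} := fun y hy => by_contra fun m => ab (Subtype.ext (Units.ext ?_))
  · obtain ⟨α, β, rfl⟩ := mem_span_pair.1 (m _ l)
    obtain ⟨γ, δ, e⟩ := mem_span_pair.1 (m _ r)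
    rw [← e, N_pair, ← N_smul_r] at eg
    exact ⟨⟨_, (ek u w az _).2 (.inr (ag.congr (by rw [← e, N_pair, N_smul_r]) (by simp [az.1])))⟩, eg⟩
  have q : ∀ {x : P} {a b}, x ∈ S.1 → A2 P a b → x.1.val = 1 + N a b → ∀ v ∈ span k {a, b}, ∀ x ∈ ({u, w, y} : Set (V6 k)), fm x v = 0 :=
    fun hx h1 e1 v hv => by
      simp only [Set.mem_insert_iff, Set.mem_singleton_iff, forall_eq_or_imp, forall_eq]
      exact ⟨pp mz hx az h1 ez e1 _ l _ hv, pp mz hx az h1 ez e1 _ r _ hv, pp g.2 hx ag h1 eg e1 _ hy _ hv⟩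
  have t := fun v hv v' hv' => perp3 az.2.1 m az.1 (pp mz g.2.1 az ag ez eg _ l _ hy) (pp mz g.2.1 az ag ez eg _ r _ hy)
    (q ha aa ea v hv) (q hb bb eb v' hv')
  refine mext fun v => ?_
  simp only [Subgroup.coe_mul, mul_mv, ea, eb, r_mv, fm_add_l, fm_smul_l, fm_sy b1, fm_sy b2, t _ l _ l, t _ l _ r, t _ r _ l, t _ r _ r]
  module

theorem gf (gg : GG) : GF.{u} := fun F G _ _ _ _ P π h _ K t0 t2 r er ⟨E, _, _, hE, ⟨e⟩⟩ L ek => by
  have : CharP E 2 := ringChar.of_eq (FiniteField.even_card_iff_char_two.2 (by rw [hE]; exact Nat.even_iff.1 er))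
  obtain ⟨S, c, a, ha, b, hb, ab, hz⟩ := gg E
  let φ := ((iso2 h.toRq).trans e)
  have := fin_P h.toRq
  let T := S.comapOfInjective φ.toMonoidHom φ.injective (by rw [MonoidHom.range_eq_top.2 φ.surjective]; exact le_top)
  have z : ∀ g : P, g ∈ T.1 ⊓ Subgroup.centralizer (T.1 : Set P) ↔ φ g ∈ S.1 ⊓ Subgroup.centralizer (S.1 : Set _) := fun g =>
    and_congr Iff.rfl ⟨fun m s hs => by simpa using congrArg φ (m (φ.symm s) (show φ _ ∈ S.1 by simpa)),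
      fun m s hs => φ.injective (by simpa using m (φ s) hs)⟩
  have := gf' h.toRq K t0 t2 T (a := φ.symm a) (b := φ.symm b) (show φ _ ∈ S.1 by simpa) (show φ _ ∈ S.1 by simpa)
    (fun m => ab (by simpa using congrArg φ m)) (fun g hg n => (hz _ ((z g).1 hg) (by simpa)).imp
      (fun c => by simpa using φ.symm.toMonoidHom.map_isConj c) fun c => by simpa using φ.symm.toMonoidHom.map_isConj c) L ek
  exact ⟨this.1, by rw [this.2, ← hE, ← c]; exact Nat.card_congr (φ.toEquiv.subtypeEquiv z)⟩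

end H6.SP
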