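/-
S5806, odd characteristic: the chunk `CA3` (Glauberman's `Z*`-theorem).
-/
import Cfsg.Agent.H12.SP2
import Cfsg.Agent.H11.SP2
import Cfsg.Agent.H7.ZStar
import Cfsg.Agent.H10.ZStar3

set_option autoImplicit false
set_option linter.unusedSectionVars false

namespace H6.SP
open Matrix Cfsg H11.SP H12.SP
open scoped MatrixGroups
universe u

theorem mv2 {Γ : Type*} [Group Γ] [Finite Γ] {P S N : Subgroup Γ} (s2 : IsPGroup 2 S) (mx : ∀ T ≤ P, IsPGroup 2 T → S ≤ T → T = S)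
    (NP : N ≤ P) (SN : S ≤ N) {x y : Γ} (hx : x ∈ N) (hy : y ∈ N) (c : x * y = y * x) (x4 : x ^ 4 = 1) (y4 : y ^ 4 = 1) :
    ∃ n ∈ N, n * x * n⁻¹ ∈ S ∧ n * y * n⁻¹ ∈ S := by
  let T : Sylow 2 N := ⟨S.subgroupOf N, s2.comap_subtype, fun {Q} q l => Subgroup.map_injective N.subtype_injective (by
    rw [Subgroup.subgroupOf_map_subtype, inf_eq_left.2 SN]
    exact mx _ ((Subgroup.map_subtype_le _).trans NP) (q.map _) fun s hs => ⟨⟨s, SN hs⟩, l hs, rfl⟩)⟩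
  have z : ∀ a : N, a ^ 4 = 1 → IsPGroup 2 (Subgroup.zpowers a) := fun a h ⟨_, m, rfl⟩ =>
    ⟨2, Subtype.ext (by simp only [SubgroupClass.coe_pow]; rw [← zpow_natCast, ← _root_.zpow_mul, mul_comm, _root_.zpow_mul]; simp [zpow_ofNat, h])⟩
  obtain ⟨R, le⟩ := ((z ⟨x, hx⟩ (Subtype.ext x4)).to_sup_of_normal_left' (z ⟨y, hy⟩ (Subtype.ext y4)) (Subgroup.zpowers_le_of_mem
    (Subgroup.centralizer_le_normalizer _ fun _ ⟨m, e⟩ => e ▸ (Commute.zpow_left (Subtype.ext c) m).eq))).exists_le_sylow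
  obtain ⟨n, rfl⟩ := MulAction.exists_smul_eq N T R
  have m : ∀ a ∈ (n • T).1, (n⁻¹ * a * n⁻¹⁻¹).1 ∈ S := fun a h => by
    simpa using Subgroup.mem_subgroupOf.1 (Subgroup.mem_pointwise_smul_iff_inv_smul_mem.1 h)
  exact ⟨_, n⁻¹.2, m _ (le (Subgroup.mem_sup_left (Subgroup.mem_zpowers _))), m _ (le (Subgroup.mem_sup_right (Subgroup.mem_zpowers _)))⟩

variable {F : Type u} [Field F] {P S : Subgroup (G6 F)} {κ a b c φ φ' ψ ψ' : M2 F} {A B A' B' C H Z X Y : M32 F} {ε : F}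

theorem cl (h : Mem P H) (e : H * A = H * B) : A = B := by
  obtain ⟨I, -, -, i⟩ := ex_inv h
  rw [← one_mul A, ← i, mul_assoc, e, ← mul_assoc, i, one_mul]
theorem cr (h : Mem P H) (e : A * H = B * H) : A = B := by
  obtain ⟨I, -, i, -⟩ := ex_inv h
  rw [← mul_one A, ← i, ← mul_assoc, e, mul_assoc, i, mul_one]
theorem ex_cj (h : Mem P H) (A : M32 F) : ∃ B, H * A = B * H ∧ (Mem P A → Mem P B) :=
  let ⟨I, m, _, i⟩ := ex_inv h; ⟨H * A * I, by rw [mul_assoc _ I, i, mul_one], fun a => (h.mul a).mul m⟩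
theorem ex_cj' (h : Mem P H) (A : M32 F) : ∃ B, H * B = A ∧ (Mem P A → Mem P B) :=
  let ⟨I, m, i, _⟩ := ex_inv h; ⟨I * A, by rw [← mul_assoc, i, one_mul], m.mul⟩
theorem tr_c (h : Mem P H) (e : H * A = A' * H) (f : H * B = B' * H) : A * B = ε • (B * A) ↔ A' * B' = ε • (B' * A') := by
  have g : ∀ {A B A' B' : M32 F}, H * A = A' * H → H * B = B' * H → H * (A * B) = A' * B' * H := fun e f => by
    rw [← mul_assoc, e, mul_assoc, f, mul_assoc]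
  exact ⟨fun k => cr h (by rw [← g e f, k, smul_mul_assoc, ← g f e, mul_smul_comm]),
    fun k => cl h (by rw [g e f, k, mul_smul_comm, g f e, smul_mul_assoc])⟩
theorem tr_c1 (h : Mem P H) (e : H * A = A' * H) (f : H * B = B' * H) : A * B = B * A ↔ A' * B' = B' * A' := by
  simpa using tr_c (ε := 1) h e f
theorem kr_smul (ε : F) (A : M32 F) : kr (ε • A) = ε • kr A := rfl

/-- the normaliser of `±Z` -/
def Nz (P : Subgroup (G6 F)) (Z : M6 F) : Subgroup (G6 F) where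
  carrier := {g | g ∈ P ∧ ∃ ε : F, ε * ε = 1 ∧ g.val * Z = ε • (Z * g.val)}
  mul_mem' := fun ⟨a, ε, e, f⟩ ⟨b, δ, e', f'⟩ => ⟨mul_mem a b, δ * ε, by linear_combination δ * δ * e + e', by
    rw [Units.val_mul, mul_assoc, f', mul_smul_comm, ← mul_assoc, f, smul_mul_assoc, smul_smul, mul_assoc]⟩
  one_mem' := ⟨one_mem _, 1, by simp⟩
  inv_mem' := fun {g} ⟨a, ε, e, f⟩ => ⟨inv_mem a, ε, e, by
    have := congrArg (fun m => ε • ((g⁻¹).val * m * (g⁻¹).val)) f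
    simp only [mul_smul_comm, smul_mul_assoc, smul_smul, e, one_smul, mul_assoc, Units.mul_inv, mul_one,
      Units.inv_mul_cancel_left] at this
    exact this.symm⟩

theorem adj (d : a.det = 1) : ∃ a', a * a' = 1 ∧ a' * a = 1 := ⟨a.adjugate, by simp [mul_adjugate, d], by simp [adjugate_mul, d]⟩
theorem pm1 (h2 : (2 : F) ≠ 0) (d : a.det = 1) (h : a * a = 1) : a = 1 ∨ a = -1 := by
  have e := ch a
  rw [h, d, one_smul, eq_sub_iff_add_eq, ← two_smul F] at e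
  have t : a.trace ≠ 0 := fun z => h2 (by simpa [z] using e)
  obtain ⟨s, rfl⟩ : ∃ s : F, a = s • 1 := ⟨_, by rw [← one_smul F a, ← inv_mul_cancel₀ t, mul_smul, ← e, smul_smul]⟩
  rcases mul_self_eq_one_iff.1 (by simpa using congrFun₂ h 0 0 : s * s = 1) with rfl | rfl <;> simp
theorem n11 (h2 : (2 : F) ≠ 0) : (-1 : M2 F) ≠ 1 := fun e => h2 (by
  have : (-1 : F) = 1 := by simpa using congrFun₂ e 0 0
  linear_combination -this)
def tr3 (A : M32 F) : F := (A 0 0).trace + (A 1 1).trace + (A 2 2).trace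
theorem tr3_cj (h : Mem P H) (e : H * A = B * H) : tr3 A = tr3 B := by
  have c : ∀ A B : M32 F, tr3 (A * B) = tr3 (B * A) := fun A B => by
    simp only [tr3, Matrix.mul_apply, Fin.sum_univ_three, trace_add, trace_mul_comm (B _ _)]; ring
  obtain ⟨I, -, i, j⟩ := ex_inv h
  rw [← one_mul A, ← j, mul_assoc, e, c, mul_assoc, i, mul_one]
theorem dv (h2 : (2 : F) ≠ 0) {x : M2 F} (h : x = -x) : x = 0 :=
  (smul_eq_zero.1 (by rw [two_smul]; exact add_eq_zero_iff_eq_neg.2 h)).resolve_left h2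
theorem phm (k : H12.SP.Kt P) (e : φ' * φ = 1) (m : Mem P (bl φ' φ 1)) (m' : Mem P (bl ψ' ψ 1)) : Mem P (bl (ψ' * φ') (φ * ψ) 1) :=
  cancel_r (cancel_r ((k.p02 m).mul (m'.mul k.s1)) (k.p02 m) (C := bl (ψ' * φ') (φ * ψ) 1 * sw) (by qm [e])) k.s1 rfl

local notation "t₁" => bl (-1) 1 1
local notation "t₂" => bl 1 (-1) 1
local notation "t₃" => bl 1 1 (-1)

theorem tt3 (k : H12.SP.Kt P) (h : Mem P H) (e : H * t₁ = bl a b c * H) :
    bl a b c = t₁ ∨ bl a b c = t₂ ∨ bl a b c = t₃ := by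
  have m := cancel_r (h.mul k.t1) h e.symm
  obtain ⟨ha, hb, hc⟩ := bl_inj (bl_mul.symm.trans (cr h (B := bl 1 1 1) (by
    rw [mul_assoc, ← e, ← mul_assoc, ← e, mul_assoc, bl_mul, bl_one]; simp [bl_one])))
  have t := tr3_cj h e
  have := k.two
  have : (4 : F) ≠ 0 := by rw [show (4 : F) = 2 * 2 by norm_num]; positivity
  have : (8 : F) ≠ 0 := by rw [show (8 : F) = 2 * 4 by norm_num]; positivity
  rcases pm1 k.two (k.d0 m) ha with rfl | rfl <;> rcases pm1 k.two (k.d1 m) hb with rfl | rfl <;>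
    rcases pm1 k.two (k.d2 m) hc with rfl | rfl <;> simp [tr3, bl] at t ⊢ <;> grind

variable (P S κ) in
structure Hz : Prop where
  k : H12.SP.Kt P
  c : Cf P S
  c2 : C2 P
  o : κ ∈ O4 P
  h : ∀ φ φ' : M2 F, φ' * φ = 1 → Mem P (bl φ' φ 1) → φ * φ = -1 → φ = κ ∨ φ = -κ

namespace Hz
variable (D : Hz P S κ)
include D

theorem o4 (h : a ∈ O4 P) : a = κ ∨ a = -κ :=
  D.h a (-a) (by simp [h.1]) (by simpa using Kt.mul (D.k.k_neg h.2) (D.k.p01 h.2)) h.1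
theorem rf : Mem P (rf κ) := ((D.c2.1 κ).1 D.o).2
theorem ph (e : φ' * φ = 1) (m : Mem P (bl φ' φ 1)) : φ * κ = κ * φ := by
  have k := D.k
  have h := D.o.1
  have e' := mul_eq_one_comm.1 e
  have e2 : ∀ x, φ' * (φ * x) = x := fun x => by rw [← mul_assoc, e, one_mul]
  rcases D.h _ _ (by qx [e', e2, sq' h]) (phm k e m (phm k (by simp [h]) (rf_ph k h D.rf) (k.p01 m))) (by qx [e', e2, sq' h]) with f | f
  · conv_rhs => rw [← f]
    qx [e]
  have f' : κ * φ = -(φ * κ) := by rw [eq_neg_iff_add_eq_zero, ← neg_neg (κ * φ), ← neg_mul, ← f]; simp [mul_assoc, e]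
  rcases D.h _ _ e m (sq_of_tr0 (tr_an k.two (k.d0 D.o.2) f') (k.d1 m)) with rfl | rfl <;> simp
theorem nb (m : Mem P (bl a b c)) : ∃ ε : F, ε * ε = 1 ∧ a * κ = ε • (κ * a) ∧ b * κ = ε • (κ * b) ∧ c * κ = ε • (κ * c) := by
  have k := D.k
  obtain ⟨a', a1, a2⟩ := adj (k.d0 m)
  obtain ⟨b', b1, b2⟩ := adj (k.d1 m)
  obtain ⟨c', c1, c2⟩ := adj (k.d2 m)
  obtain ⟨ε, e, f⟩ : ∃ ε : F, ε * ε = 1 ∧ a * κ = ε • (κ * a) := by
    rcases D.o4 (a := a * κ * a') ⟨by qs [← mul_assoc a' a, a2, sq' D.o.1, a1], Kt.nrm m D.o.2 (by qs [a2])⟩ with f | f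
    · exact ⟨1, by simp, by rw [one_smul]; conv_rhs => rw [← f, mul_assoc, a2, mul_one]⟩
    · exact ⟨-1, by simp, by rw [neg_one_smul, ← neg_mul, ← f, mul_assoc, a2, mul_one]⟩
  have g : ∀ {b b' : M2 F}, b' * b = 1 → Mem P (bl (a * b') (b * a') 1) → b * κ = ε • (κ * b) := fun {b b'} b2 m => by
    have := D.ph (by qs [← mul_assoc b' b, b2, a1]) m
    calc b * κ = b * a' * (a * κ) := by qs [← mul_assoc a' a, a2]
      _ = _ := by rw [f, mul_smul_comm, ← mul_assoc, this]; qs [a2]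
  exact ⟨ε, e, f, g b2 (k.ph m a1 b1 c1), g c2 (k.ph (k.p12 m) a1 c1 b1)⟩

theorem inS (m : Mem S A) : ∃ a b c, Mem P (bl a b c) ∧ (A = bl a b c ∨ A = bl a b c * sw) := by
  obtain ⟨g, hg, e⟩ := m
  obtain ⟨a, b, c, f | f⟩ := D.c.inB g hg
  · exact ⟨_, _, _, ⟨g, D.c.syl.1 hg, f⟩, .inl (kr_inj (e.symm.trans f))⟩
  · exact ⟨_, _, _, cancel_r ⟨g, D.c.syl.1 hg, f⟩ D.k.s1 rfl, .inr (kr_inj (e.symm.trans f))⟩

theorem nb' (m : Mem P (bl a b c)) : ∃ ε : F, ε * ε = 1 ∧ bl a b c * bl κ κ κ = ε • (bl κ κ κ * bl a b c) :=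
  let ⟨ε, e, f, g, h⟩ := D.nb m; ⟨ε, e, by rw [bl_mul, bl_mul, f, g, h]; simp [bl]⟩

theorem mv [Fintype F] (h : Mem P H) (e : H * Z = bl κ κ κ * H) (x : Mem P X) (y : Mem P Y) (e1 : ε * ε = 1)
    (xz : X * Z = ε • (Z * X)) (yz : Y * Z = ε • (Z * Y)) (xy : X * Y = Y * X) (x4 : X * X * (X * X) = 1) (y4 : Y * Y * (Y * Y) = 1) :
    ∃ H X' Y', ∃ ε : F, ε * ε = 1 ∧ Mem P H ∧ H * Z = ε • bl κ κ κ * H ∧ Mem S X' ∧ Mem S Y' ∧ H * X = X' * H ∧ H * Y = Y' * H := by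
  obtain ⟨X1, ex, mx⟩ := ex_cj h X
  obtain ⟨Y1, ey, my⟩ := ex_cj h Y
  obtain ⟨g, hg, eg⟩ := mx x
  obtain ⟨g', hg', eg'⟩ := my y
  have p4 : ∀ {X X1 : M32 F} {g : G6 F}, H * X = X1 * H → X * X * (X * X) = 1 → g.val = kr X1 → g ^ 4 = 1 := fun {X X1 g} e x4 eg =>
    Units.ext (by
      have e2 : H * (X * X) = X1 * X1 * H := by rw [← mul_assoc, e, mul_assoc, e, mul_assoc]
      rw [show 4 = 2 * 2 from rfl, pow_mul, sq, sq, Units.val_mul, Units.val_mul, eg, ← kr_mul, ← kr_mul,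
        cr h (A := X1 * X1 * (X1 * X1)) (B := 1) (by rw [mul_assoc _ _ H, ← e2, ← mul_assoc, ← e2, mul_assoc, x4]; simp), kr_one, Units.val_one])
  obtain ⟨n, ⟨hn, δ, d, f⟩, s1, s2⟩ := mv2 (N := Nz P (kr (bl κ κ κ))) D.c.syl.2.1 D.c.syl.2.2 (fun _ h => h.1) (fun s hs => by
      obtain ⟨A, eA⟩ := ex_kr s.val
      obtain ⟨a, b, c, m, f⟩ := D.inS ⟨s, hs, eA.symm⟩
      obtain ⟨ε, e, g⟩ := D.nb' m
      refine ⟨D.c.syl.1 hs, ε, e, ?_⟩
      rw [← eA, ← kr_mul, ← kr_mul, ← kr_smul]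
      rcases f with rfl | rfl
      · rw [g]
      · rw [mul_assoc, sw_bl, ← mul_assoc, g, smul_mul_assoc, mul_assoc])
    ⟨hg, ε, e1, by rw [eg, ← kr_mul, ← kr_mul, (tr_c h ex e).1 xz, kr_smul]⟩
    ⟨hg', ε, e1, by rw [eg', ← kr_mul, ← kr_mul, (tr_c h ey e).1 yz, kr_smul]⟩
    (Units.ext (by rw [Units.val_mul, Units.val_mul, eg, eg', ← kr_mul, ← kr_mul, (tr_c1 h ex ey).1 xy])) (p4 ex x4 eg) (p4 ey y4 eg')
  obtain ⟨N, eN⟩ := ex_kr n.val
  obtain ⟨X', eX⟩ := ex_kr (n * g * n⁻¹).val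
  obtain ⟨Y', eY⟩ := ex_kr (n * g' * n⁻¹).val
  refine ⟨N * H, X', Y', δ, d, Mem.mul ⟨n, hn, eN.symm⟩ h, ?_, ⟨_, s1, eX.symm⟩, ⟨_, s2, eY.symm⟩, ?_, ?_⟩
  · rw [mul_assoc, e, ← mul_assoc, ← mul_assoc, smul_mul_assoc _ _ N,
      kr_inj (A := N * bl κ κ κ) (B := δ • (bl κ κ κ * N)) (by rw [kr_smul, kr_mul, kr_mul, eN, f])]
  · rw [mul_assoc, ex, ← mul_assoc, ← mul_assoc, kr_inj (A := N * X1) (B := X' * N) (by simp [kr_mul, eN, eX, ← eg])]
  · rw [mul_assoc, ey, ← mul_assoc, ← mul_assoc, kr_inj (A := N * Y1) (B := Y' * N) (by simp [kr_mul, eN, eY, ← eg'])]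

/-- the centraliser of `t₁` normalises `±κ` -/
theorem ct (m : Mem P C) (e : C * t₁ = t₁ * C) : ∃ a, (a = κ ∨ a = -κ) ∧ C * bl κ 1 1 = bl a 1 1 * C := by
  obtain ⟨Y, eY, mY⟩ := ex_cj m (bl κ 1 1)
  have a3 : Y * Y = t₁ := cr m (by rw [mul_assoc, ← eY, ← mul_assoc, ← eY, mul_assoc, bl_mul, D.o.1, mul_one, e])
  have a1 : Y * t₁ + Y = t₁ + 1 := cr m (by
    rw [add_mul, add_mul, mul_assoc, ← e, ← mul_assoc, ← eY, mul_assoc, ← mul_add, one_mul, ← mul_add_one C]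
    congr 1; simp [bl, Matrix.one_fin_three])
  have a2 : t₁ * Y + Y = t₁ + 1 := by rw [← a1, ← a3, mul_assoc]
  have dv : ∀ x y : M2 F, x + x = y + y → x = y := fun x y h => smul_right_injective _ D.k.two (by simpa [two_smul] using h)
  have : Y = bl (Y 0 0) 1 1 := by
    rw [eta_fin_three Y] at a1 a2
    simp only [bl, Matrix.mul_fin_three, Matrix.one_fin_three, of_add_of, cons_add_cons, empty_add_empty, mul_zero, zero_mul,
      add_zero, zero_add, mul_one, one_mul] at a1 a2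
    refine (eta_fin_three Y).trans (m3 rfl ?_ ?_ ?_ ?_ ?_ ?_ ?_ ?_) <;> apply dv
    exacts [(ent a1 0 1).trans (add_zero _).symm, (ent a1 0 2).trans (add_zero _).symm, (ent a2 1 0).trans (add_zero _).symm,
      ent a1 1 1, (ent a1 1 2).trans (add_zero _).symm, (ent a2 2 0).trans (add_zero _).symm,
      (ent a1 2 1).trans (add_zero _).symm, ent a1 2 2]
  rw [this] at a3 mY eY
  exact ⟨_, D.o4 ⟨(bl_inj (bl_mul.symm.trans a3)).1, mY D.o.2⟩, eY⟩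

theorem g0 (e : ψ' * ψ = 1) (m : Mem P (bl ψ' ψ 1)) : ∃ G, Mem P G ∧ G * bl κ κ κ = bl κ κ κ * G ∧ G * t₁ = bl ψ' ψ 1 * sw * G ∧
    G * t₃ = t₃ * G := by
  have k := D.k
  have := k.two
  have h := D.o.1
  have c := D.ph e m
  have c' := D.ph (mul_eq_one_comm.1 e) (k.p01 m)
  refine ⟨bl 1 ψ ψ' * (bl 1 (-κ) κ * H6.SP.rf κ), (k.p02 m).mul ((k.p02 (k.p01 (rf_ph k h D.rf))).mul D.rf), ?_, ?_, ?_⟩
  · qm [h, sq' h, ← mul_assoc κ ψ, ← mul_assoc κ ψ', ← c, ← c']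
  · qm [h, sq' h, e, ← mul_assoc ψ' ψ]
  · qm []

theorem cls (s : Mem S A) (h : Mem P H) (e : H * t₁ = A * H) : ∃ G, Mem P G ∧ G * bl κ κ κ = bl κ κ κ * G ∧ G * t₁ = A * G := by
  have k := D.k
  obtain ⟨a, b, c, m, rfl | rfl⟩ := D.inS s
  · rcases tt3 k h e with f | f | f <;> rw [f]
    · exact ⟨1, mem_one, by simp, by simp⟩
    · exact ⟨sw, k.s1, sw_bl, sw_bl⟩
    · exact ⟨sw' * sw, k.s2.mul k.s1, by qm [], by qm []⟩
  obtain ⟨ha, -, hc⟩ := bl_inj (a := a * b) (b := b * a) (c := c * c) (Eq.trans (by qm []) (cr h (A := bl a b c * sw * (bl a b c * sw))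
    (B := bl 1 1 1) (by rw [mul_assoc _ _ H, ← e, ← mul_assoc, ← e, mul_assoc, bl_mul, bl_one]; simp [bl_one])))
  have t := tr3_cj h e
  have := k.two
  have : (4 : F) ≠ 0 := by rw [show (4 : F) = 2 * 2 by norm_num]; positivity
  rcases pm1 k.two (k.d2 m) hc with rfl | rfl
  · exact (D.g0 ha m).imp fun _ h => ⟨h.1, h.2.1, h.2.2.1⟩
  · simp [tr3, bl, sw] at t; grind

variable [Fintype F] (h : Mem P H) (e : H * Z = bl κ κ κ * H)
include h e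

theorem star (c : Mem P C) (ec : C * t₁ = A * C) (ey : C * bl κ 1 1 = Y * C) (z : A * Z = Z * A) : Y * Z = Z * Y := by
  have a : Mem P A := cancel_r (c.mul D.k.t1) c ec.symm
  have a2 : A * A = 1 := cr c (by rw [mul_assoc, ← ec, ← mul_assoc, ← ec, mul_assoc, bl_mul]; simp [bl_one])
  obtain ⟨H, A', -, ε, -, h, e, s, -, f, -⟩ := D.mv h e a a (ε := 1) (by simp) (by simpa) (by simpa) rfl (by simp [a2]) (by simp [a2])
  have f' : H * C * t₁ = A' * (H * C) := by rw [mul_assoc, ec, ← mul_assoc, f, mul_assoc]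
  obtain ⟨G, g, g1, g2⟩ := D.cls s (h.mul c) f'
  obtain ⟨C', c1, c2⟩ := ex_cj' g (H * C)
  obtain ⟨a, ha, f⟩ := D.ct (c2 (h.mul c)) (cl g (by rw [← mul_assoc, c1, f', ← mul_assoc G, g2, mul_assoc _ G, c1]))
  obtain ⟨Y', y, -⟩ := ex_cj h Y
  refine (tr_c1 h y e).2 ?_
  rw [mul_smul_comm, smul_mul_assoc, ← (tr_c1 g (A := bl a 1 1) (cr (c2 (h.mul c)) ?_) g1).1 (by rcases ha with rfl | rfl <;> qm [])]
  rw [mul_assoc, ← f, ← mul_assoc, c1, mul_assoc, ey, mul_assoc, c1, ← mul_assoc, y, mul_assoc]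

theorem one (z1 : t₁ * Z = Z * t₁) (z2 : t₂ * Z = Z * t₂) : ∃ ε : F, ε * ε = 1 ∧ Z = ε • bl κ κ κ := by
  have k := D.k
  have hκ := D.o.1
  obtain ⟨H, X, Y, ε, e1, h, e, x, y, ex, ey⟩ := D.mv h e D.o.2 (k.p01 D.o.2) (ε := 1) (by simp)
    (by simpa using D.star h e mem_one (by simp) (by simp) z1) (by simpa using D.star h e k.s1 sw_bl sw_bl z2) (by qm [])
    (by qm [hκ, sq' hκ]) (by qm [hκ, sq' hκ])
  have sq : ∀ {X}, Mem S X → ∃ a b c, X * X = bl a b c := fun x => by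
    obtain ⟨a, b, c, -, rfl | rfl⟩ := D.inS x
    exacts [⟨_, _, _, bl_mul⟩, ⟨a * b, b * a, c * c, by qm []⟩]
  obtain ⟨a, b, c, f⟩ := sq x
  obtain ⟨a', b', c', f'⟩ := sq y
  have f1 : H * t₁ = bl a b c * H := by rw [← f, mul_assoc, ← ex, ← mul_assoc, ← ex, mul_assoc, bl_mul, hκ, mul_one]
  have f2 : H * t₂ = bl a' b' c' * H := by rw [← f', mul_assoc, ← ey, ← mul_assoc, ← ey, mul_assoc, bl_mul, hκ, mul_one]
  obtain ⟨W, w, w0, w1, w2⟩ : ∃ W, Mem P W ∧ W * bl κ κ κ = bl κ κ κ * W ∧ W * bl a b c = t₁ * W ∧ W * bl a' b' c' = t₂ * W := by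
    have n : bl a b c ≠ bl a' b' c' := fun z => n11 k.two (bl_inj (cl h (f1.trans (z ▸ f2.symm)))).1
    rcases tt3 k h f1 with g | g | g <;> rcases tt3 k (h.mul k.s1) (a := a') (b := b') (c := c') (by
      rw [mul_assoc, sw_bl, ← mul_assoc, f2, mul_assoc]) with g' | g' | g' <;> rw [g, g'] at n ⊢ <;> try exact (n rfl).elim
    · exact ⟨1, mem_one, by simp, by simp, by simp⟩
    · exact ⟨sw', k.s2, sw_bl', sw_bl', sw_bl'⟩
    · exact ⟨sw, k.s1, sw_bl, sw_bl, sw_bl⟩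
    · exact ⟨sw' * sw, k.s2.mul k.s1, by qm [], by qm [], by qm []⟩
    · exact ⟨sw * sw', k.s1.mul k.s2, by qm [], by qm [], by qm []⟩
    · exact ⟨sw * sw' * sw, (k.s1.mul k.s2).mul k.s1, by qm [], by qm [], by qm []⟩
  have m := w.mul h
  have c1 : W * H * t₁ = t₁ * (W * H) := by rw [mul_assoc, f1, ← mul_assoc, w1, mul_assoc]
  have c2 : W * H * t₂ = t₂ * (W * H) := by rw [mul_assoc, f2, ← mul_assoc, w2, mul_assoc]
  have c0 : W * H * Z = ε • (bl κ κ κ * (W * H)) := by rw [mul_assoc, e, smul_mul_assoc, mul_smul_comm, ← mul_assoc, w0, mul_assoc]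
  generalize W * H = C at *
  have : C = bl (C 0 0) (C 1 1) (C 2 2) := by
    rw [eta_fin_three C] at c1 c2
    simp only [bl, Matrix.mul_fin_three, mul_zero, zero_mul, add_zero, zero_add, mul_one, one_mul, mul_neg, neg_mul] at c1 c2
    exact (eta_fin_three C).trans (m3 rfl (dv k.two (ent c1 0 1)) (dv k.two (ent c1 0 2)) (dv k.two (ent c1 1 0).symm) rfl
      (dv k.two (ent c2 1 2)) (dv k.two (ent c1 2 0).symm) (dv k.two (ent c2 2 1).symm) rfl)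
  obtain ⟨δ, d, g⟩ := D.nb' (this ▸ m)
  rw [← this] at g
  exact ⟨ε * δ, by linear_combination δ * δ * e1 + d, cl m (by rw [c0, mul_smul_comm, g, smul_smul, mul_assoc, d, mul_one])⟩

theorem main (s : Mem S Z) : ∃ ε : F, ε * ε = 1 ∧ Z = ε • bl κ κ κ := by
  have k := D.k
  have hκ := D.o.1
  obtain ⟨a, b, c, m, rfl | rfl⟩ := D.inS s
  · exact D.one h e (by qm []) (by qm [])
  obtain ⟨ha, hb, hc⟩ := bl_inj (a := a * b) (b := b * a) (c := c * c) (Eq.trans (by qm []) (cl h (A := bl a b c * sw * (bl a b c * sw))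
    (B := bl (-1) (-1) (-1)) (by rw [← mul_assoc, e, mul_assoc, e, ← mul_assoc, bl_mul, hκ, ← bl_neg, bl_one]; simp)))
  have c1 : κ * c = c * κ := by
    have := ent (D.star h e (k.s2.mul k.s1) (A := t₃) (Y := bl 1 1 κ) (by qm []) (by qm []) (by qm [])) 2 2
    simpa [bl, sw, Matrix.mul_fin_three] using this
  obtain ⟨ε, -, a1, -, c2⟩ := D.nb m
  obtain rfl : ε = 1 := by
    have := congrArg (· * (κ * c)) (c1.trans c2)
    simp only [smul_mul_assoc, show κ * c * (κ * c) = 1 by rw [mul_assoc, ← mul_assoc c, ← c1]; qs [hc, hκ]] at this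
    simpa using (congrFun₂ this 0 0).symm
  have ac : c * a = a * c := by rcases eq_of_comm k.two hκ (k.d0 D.o.2) hc (k.d2 m) c1 with rfl | rfl <;> simp [a1]
  have bc : b * c = c * b := by
    calc b * c = -(b * c * (a * b)) := by simp [ha]
      _ = _ := by rw [← mul_assoc, mul_assoc b, ac, ← mul_assoc, hb]; simp
  obtain ⟨G, g, g0, g1, g3⟩ := D.g0 (ψ' := a * -c) (ψ := c * -b) (by qs [sq' hc, ha])
    (k.ph (k.p12 m) (by simp [ha]) (by simp [hc]) (c' := -a) (by simp [hb]))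
  obtain ⟨Z, z, -⟩ := ex_cj' g (bl a b c * sw * G)
  have z1 := (tr_c1 g g1 z).2 (by qm [hb, show b * (a * c) = -c by rw [← mul_assoc, hb, neg_one_mul]])
  have z3 := (tr_c1 g g3 z).2 (by qm [])
  obtain ⟨J, j, -⟩ := ex_cj' g (H * G)
  obtain ⟨ε, e1, rfl⟩ := D.one (h.mul g) (Z := Z) (by rw [mul_assoc, z, ← mul_assoc, e, mul_assoc]) z1 (by
    rw [show (t₂ : M32 F) = -(t₁ * t₃) by simp [bl_mul, bl_neg], neg_mul, mul_neg, mul_assoc, z3, ← mul_assoc, z1, mul_assoc])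
  exact ⟨ε, e1, cr g (by rw [← z, mul_smul_comm, g0, smul_mul_assoc])⟩

theorem iso (e1 : ε * ε = 1) (f : Z * bl κ κ κ = ε • (bl κ κ κ * Z)) (mZ : Mem P Z) : ∃ ε : F, ε * ε = 1 ∧ Z = ε • bl κ κ κ := by
  have z4 : Z * Z * (Z * Z) = 1 := by
    rw [cl h (A := Z * Z) (B := -1) (by rw [← mul_assoc, e, mul_assoc, e, ← mul_assoc, bl_mul, D.o.1, ← bl_neg, bl_one]; simp)]; simp
  obtain ⟨B, X, -, δ, d, b, eb, x, -, ex, -⟩ := D.mv mem_one (by simp) mZ mZ e1 f f rfl z4 z4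
  obtain ⟨I, i, i1, i2⟩ := ex_inv b
  obtain ⟨η, e2, rfl⟩ := D.main (h.mul i) (Z := X) (cr b (by
    rw [mul_assoc, ← ex, ← mul_assoc, mul_assoc H, i2, mul_one, e, mul_assoc, mul_assoc, i2, mul_one])) x
  exact ⟨η * δ, by linear_combination δ * δ * e2 + d, cl b (by
    rw [ex, mul_smul_comm, eb, smul_mul_assoc, smul_mul_assoc, smul_smul, mul_assoc, d, mul_one])⟩
end Hz

theorem pm_iff {G : Type u} [Group G] {π : P →* G} (r : Rq P π) {x y : P} : π x = π y ↔ ∃ ε : F, ε * ε = 1 ∧ x.1.val = ε • y.1.val := by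
  rw [← mul_inv_eq_one, ← map_inv, ← map_mul, r.ker, Subgroup.coe_mul, Subgroup.coe_inv, mul_inv_eq_iff_eq_mul, mul_inv_eq_iff_eq_mul]
  simp only [mul_self_eq_one_iff, Units.ext_iff, exists_eq_or_imp, exists_eq_left, one_smul, neg_smul, one_mul, neg_mul, Units.val_neg]

theorem ca3 : CA3.{u} := fun F G _ _ _ P S π h2 r c c2 κ o => by
  by_contra! H
  have k := kt_of h2 r c
  have D : Hz P S κ := ⟨k, c, c2, o, fun φ φ' e m s => or_iff_not_imp_left.2 (H ⟨φ, k.d1 m⟩ (ph_iff.2 fun ψ f => by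
    rwa [left_inv_eq_left_inv f e]) s)⟩
  obtain ⟨z, hz, ez⟩ : Mem P (bl κ κ κ) := by simpa using Kt.mul (Kt.mul o.2 (k.p01 o.2)) (k.p02 o.2)
  have zz : z * z = -1 := Units.ext (by rw [Units.val_mul, ez, ← kr_mul, bl_mul, o.1, ← bl_neg, bl_one, kr_neg, kr_one]; rfl)
  have := r.fin
  have := r.simp
  have := Fact.mk Nat.prime_two
  have n : (-1 : G6 F) ≠ 1 := fun e => h2 (by
    have : (-1 : F) = 1 := by simpa using congrArg (fun g : G6 F => g.val (.inl 0) (.inl 0)) e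
    linear_combination -this)
  have o2 : orderOf (π ⟨z, hz⟩) = 2 := orderOf_eq_prime (by rw [sq, ← map_mul]; exact (r.ker _).2 (.inr zz)) fun e => by
    rcases (r.ker _).1 e with e | e <;> exact n (by rw [← zz, show z = _ from e]; simp)
  have := H7.zstar_mem_center (H10.pPrimeCore_eq_bot_of_simple o2) ⟨o2, fun g cm => ?_⟩
  · rcases IsSimpleGroup.eq_bot_or_eq_top_of_normal (Subgroup.center G) inferInstance with e | e
    · simp [Subgroup.mem_bot.1 (e ▸ this)] at o2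
    · exact r.nab ⟨⟨fun a b => Subgroup.mem_center_iff.1 (e ▸ Subgroup.mem_top b) a⟩⟩
  obtain ⟨g, rfl⟩ := r.sur g
  rw [← map_inv, ← map_mul, ← map_mul] at cm ⊢
  obtain ⟨y, hy⟩ : ∃ y, y = g * ⟨z, hz⟩ * g⁻¹ := ⟨_, rfl⟩
  have ey : g.1⁻¹ * y.1 = z * g.1⁻¹ := by simp [hy, mul_assoc]
  rw [← hy] at cm ⊢
  obtain ⟨A, eA⟩ := ex_kr (g.1⁻¹).val
  obtain ⟨Z, eZ⟩ := ex_kr y.1.val
  obtain ⟨ε, e1, f⟩ := (pm_iff r.toRq).1 ((map_mul ..).trans (cm.symm.eq.trans (map_mul ..).symm))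
  obtain ⟨η, e2, rfl⟩ := D.iso ⟨_, inv_mem g.2, eA.symm⟩ (Z := Z) (kr_inj (by
    rw [kr_mul, kr_mul, eA, eZ, ← ez, ← Units.val_mul, ey, Units.val_mul])) e1
    (kr_inj (by rw [kr_smul, kr_mul, kr_mul, eZ, ← ez]; exact f)) ⟨_, y.2, eZ.symm⟩
  exact (pm_iff r.toRq).2 ⟨η, e2, by rw [← eZ, kr_smul, ez]⟩

end H6.SP
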