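import Cfsg.Agent.H6.PF4a

/-! Bridge from the ambient cyclic TI theory to the frozen vocabulary. -/

set_option autoImplicit false
set_option linter.unusedSectionVars false

open Cfsg Subgroup
namespace H6
open H20 H19
open scoped ComplexConjugate Classical

variable {Γ : Type*} [Group Γ] [Finite Γ] {W₁ W₂ W : Subgroup Γ}

/-- the linear character `ω_{ij}` of `W₁ × W₂` -/
noncomputable def chW (h : Dprod W₁ W₂ W) (i : Ch W₁) (j : Ch W₂) : W →* ℂˣ :=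
  (exists_ch_of_lin (omg_lin h i j)).choose.hom

theorem chW_apply (h : Dprod W₁ W₂ W) (i : Ch W₁) (j : Ch W₂) (w : W) :
    (chW h i j w : ℂ) = omg i j w := by
  rw [← (exists_ch_of_lin (omg_lin h i j)).choose_spec, Ch.fn_of_mem _ w.2]; rfl

theorem chW_surj (h : Dprod W₁ W₂ W) (ω : W →* ℂˣ) : ∃ i j, chW h i j = ω := by
  obtain ⟨i, j, e⟩ := exists_omg_of_lin h (Ch.lin (W := W) ω)
  exact ⟨i, j, MonoidHom.ext fun w => Units.ext (by
    rw [chW_apply, e]; exact Ch.fn_of_mem (W := W) ω w.2)⟩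

theorem chW_eq_iff (h : Dprod W₁ W₂ W) {i i' : Ch W₁} {j j' : Ch W₂} :
    chW h i j = chW h i' j' ↔ i = i' ∧ j = j' :=
  ⟨fun e => omg_inj h.inf (CF_ext (omg_cf h _ _) (omg_cf h _ _) fun x hx => by
    rw [← chW_apply h i j ⟨x, hx⟩, e, chW_apply]), fun e => by rw [e.1, e.2]⟩

theorem chW_mul (h : Dprod W₁ W₂ W) (i i' : Ch W₁) (j j' : Ch W₂) :
    chW h i j * chW h i' j' = chW h (i * i') (j * j') :=
  MonoidHom.ext fun w => Units.ext (by simp [chW_apply, omg_mul h])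

theorem chW_one (h : Dprod W₁ W₂ W) : chW h (1 : Ch W₁) (1 : Ch W₂) = 1 :=
  MonoidHom.ext fun w => Units.ext (by simp [chW_apply, omg_one_one h, triv_of_mem w.2])

theorem chW_eq_on₂ (h : Dprod W₁ W₂ W) {i i' : Ch W₁} {j j' : Ch W₂} :
    (∀ w : W, (w : Γ) ∈ W₂ → chW h i j w = chW h i' j' w) ↔ j = j' :=
  ⟨fun e => Ch.ext_fn fun x hx => by
    rw [← omg_right h.inf i j hx, ← omg_right h.inf i' j' hx, ← chW_apply h i j ⟨x, h.right_le hx⟩,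
      e _ hx, chW_apply], fun e w hw => Units.ext (by
    rw [chW_apply, chW_apply, omg_right h.inf _ _ hw, omg_right h.inf _ _ hw, e])⟩

theorem chW_eq_on₁ (h : Dprod W₁ W₂ W) {i i' : Ch W₁} {j j' : Ch W₂} :
    (∀ w : W, (w : Γ) ∈ W₁ → chW h i j w = chW h i' j' w) ↔ i = i' :=
  ⟨fun e => Ch.ext_fn fun x hx => by
    rw [← omg_left h.inf i j hx, ← omg_left h.inf i' j' hx, ← chW_apply h i j ⟨x, h.left_le hx⟩,
      e _ hx, chW_apply], fun e w hw => Units.ext (by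
    rw [chW_apply, chW_apply, omg_left h.inf _ _ hw, omg_left h.inf _ _ hw, e])⟩

theorem exists_chW₁ (h : Dprod W₁ W₂ W) {φ : W →* ℂˣ} (e : ∀ w : W, (w : Γ) ∈ W₂ → φ w = 1) :
    ∃ i, chW h i 1 = φ := by
  obtain ⟨i, j, rfl⟩ := chW_surj h φ
  obtain rfl := (chW_eq_on₂ h (i' := 1) (j' := 1)).mp (by simpa [chW_one] using e)
  exact ⟨i, rfl⟩

theorem exists_chW₂ (h : Dprod W₁ W₂ W) {φ : W →* ℂˣ} (e : ∀ w : W, (w : Γ) ∈ W₁ → φ w = 1) :
    ∃ j, chW h 1 j = φ := by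
  obtain ⟨i, j, rfl⟩ := chW_surj h φ
  obtain rfl := (chW_eq_on₁ h (i' := 1) (j' := 1)).mp (by simpa [chW_one] using e)
  exact ⟨j, rfl⟩

/-- the linear characters of `W₁ × W₂` -/
noncomputable def chEquiv (h : Dprod W₁ W₂ W) : Ch W₁ × Ch W₂ ≃ (W →* ℂˣ) :=
  Equiv.ofBijective (fun p => chW h p.1 p.2) ⟨fun _ _ e => Prod.ext_iff.mpr ((chW_eq_iff h).mp e),
    fun ω => let ⟨i, j, e⟩ := chW_surj h ω; ⟨(i, j), e⟩⟩

theorem chEquiv_symm (h : Dprod W₁ W₂ W) (i : Ch W₁) (j : Ch W₂) :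
    (chEquiv h).symm (chW h i j) = (i, j) := (chEquiv h).symm_apply_apply (i, j)

theorem rs_rect (h : Dprod W₁ W₂ W) (i : Ch W₁) (j : Ch W₂) :
    (fun w : W => 1 - (chW h i 1 w : ℂ) - (chW h 1 j w : ℂ) + (chW h i 1 w : ℂ) * (chW h 1 j w : ℂ))
      = rs W (omg i j - omg i (1 : Ch W₂) - omg (1 : Ch W₁) j + omg (1 : Ch W₁) (1 : Ch W₂)) := by
  ext w
  have := congrFun (omg_mul h i 1 1 j) w
  simp only [mul_one, one_mul, Pi.mul_apply] at this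
  simp only [chW_apply, rs, Pi.add_apply, Pi.sub_apply, omg_one_one h, triv_of_mem w.2, this]
  ring

theorem snc_dp (h : IsSelfNormalizingCyclic W₁ W₂) : Dprod W₁ W₂ (W₁ ⊔ W₂) :=
  ⟨fun a ha b hb => (h.2.2.2.1 a ha b hb).symm, rfl, h.2.2.1⟩

theorem snc_ab (h : IsSelfNormalizingCyclic W₁ W₂) : Ab (W₁ ⊔ W₂) := comm_of_cyclic h.2.2.2.2.1

theorem snc_ti (h : IsSelfNormalizingCyclic W₁ W₂) {g x : Γ} (hx : x ∈ cyV W₁ W₂)
    (hg : g * x * g⁻¹ ∈ cyV W₁ W₂) : g ∈ W₁ ⊔ W₂ := by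
  have n : ∀ X ⊆ cyV W₁ W₂, X.Nonempty → normalizer X = W₁ ⊔ W₂ := fun X hX =>
    h.2.2.2.2.2 X fun _ hx => ⟨(hX hx).1, fun e => e.elim (hX hx).2.1 (hX hx).2.2⟩
  have c : ∀ y ∈ cyV W₁ W₂, C[y] = W₁ ⊔ W₂ := fun y hy => by
    refine le_antisymm (fun g hg => n {y} (by simpa) (by simp) ▸ ?_) fun g hg =>
      mem_cent1.mpr (mul_comm_of_comm (snc_ab h) hg hy.1)
    exact centralizer_le_normalizer _ hg
  have e : H19.cj g (W₁ ⊔ W₂) = W₁ ⊔ W₂ := by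
    conv_lhs => rw [← c x hx, cj_cent1, c _ hg]
  rw [← n _ subset_rfl ⟨x, hx⟩, mem_set_normalizer_iff]
  have key : ∀ {A : Subgroup Γ}, A ≤ W₁ ⊔ W₂ → g ∈ N(A) := fun hA =>
    cyc_norm h.2.2.2.2.1 hA (mem_norm_iff_cj.mpr e)
  intro y
  simp only [mem_cyV, conj_mem_iff_of_norm (key le_rfl), conj_mem_iff_of_norm (key le_sup_left),
    conj_mem_iff_of_norm (key le_sup_right)]

theorem fam_of_family [Fintype Γ] (h : Dprod W₁ W₂ (W₁ ⊔ W₂))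
    {χ : (↥(W₁ ⊔ W₂) →* ℂˣ) → Γ → ℂ} (hχ : IsCyclicTIFamily W₁ W₂ χ) :
    Fam W₁ W₂ fun i j => χ (chW h i j) := by
  have h5 : ∀ i j, Ind ⊤ (W₁ ⊔ W₂) (omg i j - omg i (1 : Ch W₂) - omg (1 : Ch W₁) j +
      omg (1 : Ch W₁) (1 : Ch W₂)) =
        χ (chW h i j) - χ (chW h i 1) - χ (chW h 1 j) + χ (chW h 1 1) := fun i j => by
    by_cases hi : i = 1
    · simp [hi]
    by_cases hj : j = 1
    · simp [hj]
    rw [Ind_top_eq_indFun, ← rs_rect h, hχ.induced_eq _ _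
      (by rw [← chW_one h, Ne, chW_eq_iff]; simp [hi]) (by rw [← chW_one h, Ne, chW_eq_iff]; simp [hj])
      (by simpa [chW_one] using (chW_eq_on₂ h (i := i) (i' := 1)).mpr (rfl : (1 : Ch W₂) = 1))
      (by simpa [chW_one] using (chW_eq_on₁ h (j := j) (j' := 1)).mpr (rfl : (1 : Ch W₁) = 1)),
      chW_mul, chW_one, hχ.map_one, mul_one, one_mul]
    ext g; simp; ring
  refine ⟨fun i j => dirr_iff.mpr ((hχ.irr_or_neg _).imp mem_Irr_top.mpr mem_Irr_top.mpr),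
    fun i i' j j' => by simp only [dot_top_eq, hχ.orthonormal, chW_eq_iff],
    by simp only [chW_one, hχ.map_one, triv_top]; rfl, fun i i' j j' => ?_⟩
  have := congrArg₂ (· + ·) (congrArg₂ (· - ·) (congrArg₂ (· - ·) (h5 i j) (h5 i j')) (h5 i' j))
    (h5 i' j')
  simp only [← map_sub, ← map_add] at this
  convert this using 1
  · congr 1; abel
  · abel

namespace Fam
variable {χ : Ch W₁ → Ch W₂ → Γ → ℂ} {ψ : Γ → ℂ}

theorem val_V' (h : Dprod W₁ W₂ (W₁ ⊔ W₂)) (ha : Ab (W₁ ⊔ W₂)) (f : Fam W₁ W₂ χ) (hψ : CInv ⊤ ψ)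
    {x : Γ} (hx : x ∈ cyV W₁ W₂) :
    ψ x = ∑ i : Ch W₁, ∑ j : Ch W₂, dot ⊤ ψ (χ i j) * omg i j x := by
  have e1 : ∀ j : Ch W₂, ∑ i : Ch W₁, omg i j x = 0 := fun j => by
    have := congrFun (sum_omg_left h (comm_mono ha le_sup_left) j) x
    rwa [Finset.sum_apply, Pi.smul_apply, j.fn_of_not_mem hx.2.2, smul_zero] at this
  have e2 : ∀ i : Ch W₁, ∑ j : Ch W₂, omg i j x = 0 := fun i => by
    have := congrFun (sum_omg_right h (comm_mono ha le_sup_right) i) x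
    rwa [Finset.sum_apply, Pi.smul_apply, i.fn_of_not_mem hx.2.1, smul_zero] at this
  set d := fun i j => dot (W₁ ⊔ W₂) ψ (omg i j) - dot ⊤ ψ (χ i j) with hd
  have : ∀ i j, dot (W₁ ⊔ W₂) ψ (omg i j) * omg i j x = dot ⊤ ψ (χ i j) * omg i j x +
      (d i 1 * omg i j x + (d 1 j - d 1 1) * omg i j x) := fun i j => by
    have := f.dot_rect hψ i 1 j 1
    simp only [dot_add_right, dot_sub_right] at this
    simp only [hd]
    linear_combination -omg i j x * this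
  rw [apply_eq_sum_omg h ha ψ hx.1]
  simp only [this, Finset.sum_add_distrib, ← Finset.mul_sum, e2, mul_zero, zero_add, add_eq_left]
  rw [Finset.sum_comm]
  simp only [← Finset.mul_sum, e1, mul_zero, Finset.sum_const_zero]

theorem rect_dot' (h : Dprod W₁ W₂ (W₁ ⊔ W₂)) (f : Fam W₁ W₂ χ) (hψ : CInv ⊤ ψ)
    (hV : ∀ x ∈ cyV W₁ W₂, ψ x = 0) (i i' : Ch W₁) (j j' : Ch W₂) :
    dot ⊤ ψ (χ i j) + dot ⊤ ψ (χ i' j') = dot ⊤ ψ (χ i j') + dot ⊤ ψ (χ i' j) := by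
  have := f.dot_rect hψ i i' j j'
  rw [dot_eq_zero_of_disjoint fun x _ => (em (x ∈ cyV W₁ W₂)).imp (hV x)
    (omg_rect_cyV h i i' j j')] at this
  linear_combination this

end Fam

theorem orderOf_dvd_chW (h : Dprod W₁ W₂ W) (i : Ch W₁) (j : Ch W₂) :
    orderOf i ∣ orderOf (chW h i j) ∧ orderOf j ∣ orderOf (chW h i j) := by
  have e : ∀ n : ℕ, chW h i j ^ n = chW h (i ^ n) (j ^ n) := fun n => by
    induction n with
    | zero => simp [chW_one]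
    | succ n ih => rw [pow_succ, ih, chW_mul, pow_succ, pow_succ]
  have := pow_orderOf_eq_one (chW h i j)
  rw [e, ← chW_one h, chW_eq_iff] at this
  exact ⟨orderOf_dvd_of_pow_eq_one this.1, orderOf_dvd_of_pow_eq_one this.2⟩

theorem pti_top {K : Subgroup Γ} [K.Normal] (h1 : K ⊓ W₁ = ⊥) (h2 : K ⊔ W₁ = ⊤) (h3 : W₁ ≠ ⊥)
    (h4 : IsCyclic W₁) (h5 : Nat.Coprime #W₁ W₁.index) (h6 : W₂ ≠ ⊥) (h7 : IsCyclic W₂)
    (h8 : W₂ ≤ K) (h9 : ∀ x ∈ W₁, x ≠ 1 → K ⊓ C[x] = W₂) (ho : Odd #(W₁ ⊔ W₂)) :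
    PTI ⊤ K W₁ W₂ :=
  have sd : Sdprod K W₁ ⊤ := ⟨le_normalizer_of_normal, h2, h1⟩
  ⟨sd, h3, h4, by rwa [← sd.relIndex_right, relIndex_top_right], h6, h7, h8, h9, ho⟩

theorem cti_of_pti {K : Subgroup Γ} (h : PTI ⊤ K W₁ W₂) : CTI W₁ W₂ := by
  refine ⟨⟨h.W1_ne, h.W2_ne, pti_inf h, fun a ha b hb => Dprod.comm' (pti_dp h) ha hb, pti_cyc h,
    fun X hX ⟨x, hx⟩ => le_antisymm (fun g hg => ?_) fun g hg => ?_⟩, h.odd⟩
  · exact pti_ti h trivial (hX hx).1 (fun e => (hX hx).2 (Or.inr e))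
      (hX ((mem_set_normalizer_iff.mp hg x).mp hx)).1
  · refine mem_set_normalizer_iff.mpr fun y => ⟨fun hy => ?_, fun hy => ?_⟩
    · rwa [conj_eq_of_ab (pti_ab h) hg (hX hy).1]
    · rwa [conj_eq_of_ab (pti_ab h) hg ((conj_mem_iff_of_mem hg).mp (hX hy).1)] at hy

end H6
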