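import Cfsg.Agent.H6.UE0

/-! S5855: the computation for the two special fields (chunk AM), by meeting in the middle. -/

set_option autoImplicit false

namespace H6.AM
open H6.UE

/-- search trees -/
inductive Tr | e | n (l : Tr) (k b : ℕ) (r : Tr)

/-- insertion -/
noncomputable def ins (x b : ℕ) (t : Tr) : (Tr → Bool) → Bool :=
  Tr.rec (fun k => k (.n .e x b .e))
    (fun l y c r il ir k => (Nat.blt x y).rec (ir fun r' => k (.n l y c r')) (il fun l' => k (.n l' y c r))) t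

/-- lookup -/
noncomputable def look (T : ℕ → Bool) (x : ℕ) (t : Tr) : Bool :=
  Tr.rec true (fun _ y c _ il ir => (Nat.blt x y).rec ((Nat.beq x y).rec ir ((T c).rec false ir)) il) t

/-- evaluation of an argument -/
noncomputable def frc (x : ℕ) (k : ℕ → Bool) : Bool := Nat.rec (k 0) (fun m _ => k (Nat.succ m)) x

/-- running through all divisors -/
noncomputable def en {S : Type} (c : ℕ) (f : ℕ → ℕ → S → (S → Bool) → Bool) (L : List (ℕ × ℕ × ℕ)) :
    ℕ → ℕ → S → (S → Bool) → Bool :=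
  List.rec f (fun p _ ih => Nat.rec ih (fun _ jh y b s k => ih y b s fun s' =>
    frc (Nat.mod (Nat.mul y p.2.1) c) fun y' => frc (Nat.mul b p.1) fun b' => jh y' b' s' k) p.2.2) L

/-- powers of the primes -/
def mk (c o : ℕ) (L : List (ℕ × ℕ)) : List (ℕ × ℕ × ℕ) := L.map fun p => (p.1, p.1 ^ o % c, p.2)

/-- the product -/
def pr (L : List (ℕ × ℕ)) : ℕ := (L.map fun p => p.1 ^ p.2).prod

/-- a test for all divisors -/
noncomputable def al (c o x : ℕ) (A : List (ℕ × ℕ)) (T : ℕ → ℕ → Bool) : Bool :=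
  en c (fun x a _ k => (T x a).rec false (k ())) (mk c o A) x 1 () fun _ => true

/-- meeting in the middle -/
noncomputable def chk (c o x : ℕ) (A B : List (ℕ × ℕ)) (T : ℕ → ℕ → Bool) : Bool :=
  en c ins (mk c o B) 1 1 .e fun t => al c o x A fun x a => look (T a) x t

/-- membership along the search path -/
def Mem (x b : ℕ) : Tr → Prop
  | .e => False
  | .n l y c r => if x < y then Mem x b l else (x = y ∧ b = c) ∨ Mem x b r

theorem frc_eq (x : ℕ) (k : ℕ → Bool) : frc x k = k x := by cases x <;> rfl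

theorem blt_rec {α : Type} (x y : ℕ) (a b : α) : ((Nat.blt x y).rec a b : α) = if x < y then b else a := by
  cases h : Nat.blt x y
  · rw [if_neg (by rw [← Nat.blt_eq, h]; simp)]
  · rw [if_pos (Nat.blt_eq ▸ h)]

theorem ins_spec (x b : ℕ) (t : Tr) (k : Tr → Bool) (h : ins x b t k = true) :
    ∃ t', (∀ y c, Mem y c t → Mem y c t') ∧ Mem x b t' ∧ k t' = true := by
  induction t generalizing k with
  | e => exact ⟨_, fun _ _ h => h.elim, by simp [Mem], h⟩
  | n l y c r il ir =>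
    change ((Nat.blt x y).rec (ins x b r _) (ins x b l _) : Bool) = true at h
    rw [blt_rec] at h
    split_ifs at h with z
    · obtain ⟨t', a, b, c⟩ := il _ h
      exact ⟨_, fun y c => by simp only [Mem]; split_ifs; exacts [a _ _, id], by simpa [Mem, z], c⟩
    · obtain ⟨t', a, b, c⟩ := ir _ h
      exact ⟨_, fun y c => by simp only [Mem]; split_ifs; exacts [id, Or.imp_right (a _ _)], by simp [Mem, z, b], c⟩

theorem look_spec {T : ℕ → Bool} {x b : ℕ} {t : Tr} (h : look T x t = true) (m : Mem x b t) : T b = true := by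
  induction t with
  | e => exact m.elim
  | n l y c r il ir =>
    change ((Nat.blt x y).rec ((Nat.beq x y).rec (look T x r) ((T c).rec false (look T x r))) (look T x l) : Bool) = true at h
    rw [blt_rec] at h
    simp only [Mem] at m
    split_ifs at h m with z
    · exact il h m
    cases e : Nat.beq x y <;> cases e' : T c <;> rw [e] at h <;> (try rw [e'] at h)
    · exact ir h (m.resolve_left fun a => by simp [a.1] at e)
    · exact ir h (m.resolve_left fun a => by simp [a.1] at e)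
    · exact absurd h Bool.false_ne_true
    · exact m.elim (fun a => a.2 ▸ e') (ir h)

theorem en_spec {S : Type} {c o : ℕ} {f : ℕ → ℕ → S → (S → Bool) → Bool} {Q : ℕ → ℕ → S → Prop}
    (hf : ∀ x b s k, f x b s k = true → ∃ s', (∀ y a, Q y a s → Q y a s') ∧ Q x b s' ∧ k s' = true)
    (L : List (ℕ × ℕ)) (hL : ∀ p ∈ L, p.1.Prime) (y b : ℕ) (s : S) (k : S → Bool) (h : en c f (mk c o L) (y % c) b s k = true) :
    ∃ s', (∀ y a, Q y a s → Q y a s') ∧ (∀ d, d ∣ pr L → Q (y * d ^ o % c) (b * d) s') ∧ k s' = true := by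
  induction L generalizing y b s k with
  | nil =>
    obtain ⟨s', a1, a2, a3⟩ := hf _ _ _ _ h
    exact ⟨s', a1, fun d hd => by simpa [Nat.dvd_one.1 hd] using a2, a3⟩
  | cons p L ih =>
    obtain ⟨r, e⟩ := p
    have hr : r.Prime := hL _ List.mem_cons_self
    replace ih := ih fun p hp => hL p (List.mem_cons_of_mem _ hp)
    clear hL
    induction e generalizing y b s k with
    | zero => simpa [pr] using ih y b s k h
    | succ e jh =>
      obtain ⟨s', a1, a2, a3⟩ := ih y b s _ h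
      rw [frc_eq, frc_eq] at a3
      obtain ⟨s'', b1, b2, b3⟩ := jh (y * r ^ o) (b * r) s' k (by rw [Nat.mul_mod]; exact a3)
      refine ⟨s'', fun y a z => b1 _ _ (a1 _ _ z), fun d hd => ?_, b3⟩
      change d ∣ r ^ (e + 1) * pr L at hd
      by_cases z : r ∣ d
      · obtain ⟨d, rfl⟩ := z
        rw [pow_succ', mul_assoc] at hd
        simpa only [mul_pow, mul_assoc] using b2 d (Nat.dvd_of_mul_dvd_mul_left hr.pos hd)
      · exact b1 _ _ (a2 d ((((Nat.Prime.coprime_iff_not_dvd hr).2 z).symm.pow_right _).dvd_of_dvd_mul_left hd))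

theorem al_spec {c o x : ℕ} {A : List (ℕ × ℕ)} {T : ℕ → ℕ → Bool} (hA : ∀ p ∈ A, p.1.Prime) (h : al c o (x % c) A T = true)
    {d : ℕ} (hd : d ∣ pr A) : T (x * d ^ o % c) d = true := by
  obtain ⟨-, -, a, -⟩ := en_spec (Q := fun x a _ => T x a = true) (fun x b s k h => ⟨(), fun _ _ => id, by
    cases e : T x b <;> rw [e] at h
    exacts [absurd h Bool.false_ne_true, ⟨rfl, h⟩]⟩) A hA x 1 () _ h
  simpa using a d hd

theorem chk_spec {c o x : ℕ} {A B : List (ℕ × ℕ)} {T : ℕ → ℕ → Bool} (hA : ∀ p ∈ A, p.1.Prime) (hB : ∀ p ∈ B, p.1.Prime)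
    (c1 : 1 % c = 1) (h : chk c o (x % c) A B T = true) {a b : ℕ} (ha : a ∣ pr A) (hb : b ∣ pr B) (e : x * a ^ o ≡ b ^ o [MOD c]) :
    T a b = true := by
  obtain ⟨t, -, a1, a2⟩ := en_spec (o := o) ins_spec B hB 1 1 .e _ (by rw [c1]; exact h)
  refine look_spec (al_spec (T := fun x a => look (T a) x t) hA a2 ha) ?_
  simpa [show x * a ^ o % c = _ from e] using a1 b hb

/-- the test for a candidate -/
noncomputable def gd (q I : ℕ) (N : List (ℕ × ℕ)) : Bool :=
  decide (rr q ∣ I) && (decide (11 * ((q ^ 11 + 1) * I) = oG q) || al 2 0 1 N fun _ n => decide ¬ ((q + 1) * n ∣ (q ^ 11 + 1) * I ∧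
    (q ^ 11 + 1) * I / ((q + 1) * n) % rr q = 1 ∧ (q = 32 → 121 ∣ (q + 1) * n → 1331 ∣ (q ^ 11 + 1) * I)))

/-- the test for a match -/
noncomputable def mt (q p E D : ℕ) (B N : List (ℕ × ℕ)) (a b : ℕ) : Bool :=
  (List.range (E + 1)).all fun e => decide (D * (p ^ e * (a * (pr B / b))) % cc q ≠ 1) || gd q (D * (p ^ e * (a * (pr B / b)))) N

theorem am (q p E o D : ℕ) (A B N : List (ℕ × ℕ)) (hp : p.Prime) (hA : ∀ p ∈ A, p.1.Prime) (hB : ∀ p ∈ B, p.1.Prime)
    (hN : ∀ p ∈ N, p.1.Prime)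
    (h1 : ∀ a ≤ 11, ∀ j ≤ 3, 1 ≤ j ∧ j ≤ a → (a = 11 ∧ j = 1) ∨ (((a * cc q - j) / (a * cc q - j).gcd (q ^ 9)).Coprime q ∧
      ¬ (a * cc q - j) / (a * cc q - j).gcd (q ^ 9) ∣ oG q))
    (h2 : D ∣ 11 * cc q - 1 ∧ D.Coprime q ∧ D.Coprime (q ^ 11 + 1) ∧ oG q = (q ^ 11 + 1) * (D * (p ^ E * (pr A * pr B))) ∧
      pr N = 10 * (q ^ 10 - 1) ∧ p ^ o % cc q = 1 ∧ 1 % cc q = 1 ∧ 1 % rr q = 1 ∧ 0 < D ∧ 0 < pr B ∧ 0 < pr N)
    (h3 : chk (cc q) o ((D * pr B) ^ o % cc q) A B (mt q p E D B N) = true) : AM q := by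
  intro a j k I a1 a2 a3 a4 a5 a6 a7
  obtain ⟨b1, b2, b3, b4, b5, b6, b7, b8, b9, b0, bN⟩ := h2
  obtain ⟨rfl, rfl⟩ := (h1 a a1 j a3 ⟨a2, a4⟩).resolve_right fun ⟨c, d⟩ => d (((c.pow_right k).dvd_of_dvd_mul_left
    ((Nat.div_dvd_of_dvd (Nat.gcd_dvd_left _ _)).trans a5)).trans a6)
  obtain ⟨I, rfl⟩ := b3.dvd_of_dvd_mul_left ((b2.pow_right k).dvd_of_dvd_mul_left (b1.trans a5))
  rw [b4, Nat.mul_dvd_mul_iff_left (Nat.succ_pos _), Nat.mul_dvd_mul_iff_left b9] at a6
  obtain ⟨x, y, hx, hy, rfl⟩ := exists_dvd_and_dvd_of_dvd_mul a6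
  obtain ⟨a, b, ha, ⟨b', hb⟩, rfl⟩ := exists_dvd_and_dvd_of_dvd_mul hy
  obtain ⟨e, he, rfl⟩ := (Nat.dvd_prime_pow hp).1 hx
  have c1 : (p ^ e) ^ o ≡ 1 [MOD cc q] := by
    rw [← pow_mul, mul_comm, pow_mul, ← one_pow e]; exact Nat.ModEq.pow _ (b6.trans b7.symm)
  have := chk_spec hA hB b7 h3 ha (Dvd.intro_left _ hb.symm) (by
    have c2 := (a7.pow o).mul_right (b' ^ o)
    have c3 := c1.mul_right ((D * pr B) ^ o * a ^ o)
    rw [one_pow, one_mul] at c2
    rw [one_mul] at c3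
    refine c3.symm.trans (Eq.trans (congrArg (· % _) ?_) c2)
    rw [hb]; simp only [mul_pow]; ring)
  have := List.all_eq_true.1 this e (List.mem_range.2 (by omega))
  rw [hb, Nat.mul_div_cancel _ (Nat.pos_of_mul_pos_left (hb ▸ b0)), show _ % cc q = 1 from Eq.trans a7 b7] at this
  simp only [ne_eq, not_true, decide_false, Bool.false_or, gd, Bool.and_eq_true, Bool.or_eq_true, decide_eq_true_eq] at this
  refine ⟨this.1, fun n m c1 c2 ⟨n, c3⟩ c4 c5 => this.2.resolve_right fun z => ?_⟩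
  subst c3
  rw [mul_comm 10, mul_assoc, Nat.mul_dvd_mul_iff_left (Nat.succ_pos _), ← b5] at c4
  refine of_decide_eq_true (al_spec (x := 1) hN z c4) ⟨⟨m, c1⟩, ?_, c5⟩
  rw [c1, Nat.mul_div_cancel_left _ (Nat.mul_pos (Nat.succ_pos _) (Nat.pos_of_dvd_of_pos c4 bN))]
  exact Eq.trans c2 b8

set_option synthInstance.maxSize 512 in
theorem a32 : AM 32 := am 32 2 275 110 ((32 ^ 10 - 1) / 33)
  [(86171, 1), (61681, 1), (281, 1), (43, 1), (17, 1), (41, 2), (5, 4), (3, 14)]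
  [(18837001, 1), (4051, 1), (251, 1), (151, 1), (7, 1), (19, 1), (331, 3), (31, 4), (11, 10)]
  [(2, 1), (3, 1), (5, 1), (11, 1), (31, 1), (251, 1), (601, 1), (1801, 1), (4051, 1)] Nat.prime_two
  (by norm_num) (by norm_num) (by norm_num) (by decide +kernel) (by decide +kernel) (by decide +kernel)

end H6.AM
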