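import Cfsg.Agent.H6.UA1

/-! S5855: the computation for the field of order `43 ^ 2`. -/

namespace H6.AM

set_option maxRecDepth 100000 in
set_option synthInstance.maxSize 512 in
theorem a43 : H6.UE.AM 43 := am 43 43 55 22 ((43 ^ 10 - 1) / 88)
  [(57993427, 1), (631, 1), (193, 1), (17, 1), (37, 2), (139, 3), (5, 4), (2, 28)]
  [(6177695707, 1), (3341101, 1), (521, 1), (109, 1), (13, 3), (7, 4), (3, 5), (11, 10)]
  [(3341101, 1), (3500201, 1), (3, 1), (5, 1), (7, 1), (11, 1), (2, 4)] (by norm_num)
  (by norm_num) (by norm_num) (by norm_num) (by decide +kernel) (by decide +kernel) (by decide +kernel)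

end H6.AM
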