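import Cfsg.Agent.H4.US0

/-! S5855: the Singer normaliser is maximal in `SU₁₁(q)`. Definitions and chunk statements (proofs: notes/UE.md). -/

set_option autoImplicit false
set_option linter.unusedSectionVars false

open Module Polynomial Finset

namespace H6.UE

export H4.US (ml ml_apply orb WB WR HW)

universe u

/-- `gcd(11, q+1)` -/
def gg (q : ℕ) : ℕ := Nat.gcd 11 (q + 1)
/-- the order of the torus -/
def mm (q : ℕ) : ℕ := (q ^ 11 + 1) / gg q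
/-- the order of its Hall subgroup -/
def cc (q : ℕ) : ℕ := mm q / (q + 1)
/-- the exponent of the residue symbol -/
def NN (q : ℕ) : ℕ := (q ^ 11 - 1) * cc q

section field
variable (F : Type u) [Field F] [Fintype F] {K : Type u} [Field K] [Fintype K] [Algebra F K]

/-- the hermitian form -/
noncomputable def fm (q : ℕ) (x y : K) : F := Algebra.trace F K (x * y ^ q ^ 11)

/-- isometries -/
def Iso (q : ℕ) (g : K ≃ₗ[F] K) : Prop := ∀ x y, fm F q (g x) (g y) = fm F q x y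

/-- `g` lies in `ΓL₁(K)` -/
def Mon (q : ℕ) (g : K ≃ₗ[F] K) : Prop := ∃ (a : K) (i : ℕ), ∀ x, g x = a * x ^ (q ^ 2) ^ i

/-- unitary transvections -/
def Tv (q : ℕ) (t : K ≃ₗ[F] K) : Prop := ∃ (e : K) (l : F), e ≠ 0 ∧ l ≠ 0 ∧ fm F q e e = 0 ∧ ∀ x, t x = x + (l * fm F q x e) • e

variable (K) in
/-- the fields -/
structure Fd (q : ℕ) : Prop where
  hF : Fintype.card F = q ^ 2
  hK : finrank F K = 11
  md : ∃ e : K ≃ₗ[F] (Fin 11 → F), ∀ x y, Cfsg.hermForm 11 F q (e x) (e y) = fm F q x y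

variable {F}
/-- a proper overgroup of the Singer normaliser, extended by the central isometries -/
structure Hy (q : ℕ) (J : Subgroup (K ≃ₗ[F] K)) : Prop where
  iso : ∀ g ∈ J, Iso F q g
  tor : ∀ c : Kˣ, ml F c ∈ J ↔ c ^ mm q = 1
  fro : ∃ g ∈ J, ∀ x, g x = x ^ q ^ 2
  big : ∃ g ∈ J, ¬ Mon F q g

/-- the Gauss sums of a function on the unitary space -/
noncomputable def Gs (q : ℕ) (ψ : AddChar F ℂ) (Φ : K → ℂ) (γ : K) : ℂ :=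
  ∑ x, Φ x * ψ (Algebra.trace F K (γ * x ^ (q ^ 11 + 1)))

/-- `γ ∈ F_{q^11} ∖ F_q` -/
def Ek (q : ℕ) (γ : K) : Prop := γ ^ q ^ 11 = γ ∧ γ ^ q ≠ γ

variable (F) in
/-- functions of the residue symbols -/
def Iv (q : ℕ) (G : K → ℂ) : Prop := ∀ (κ : F) (γ γ' : K), κ ^ q ≠ κ → Ek q γ → Ek q γ' →
  (γ + algebraMap F K κ) ^ NN q = (γ' + algebraMap F K κ) ^ NN q → ((γ + algebraMap F K κ) ^ NN q) ^ (q + 1) = 1 →
  G γ = G γ'

/-- constant off the small field -/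
def Cn (q : ℕ) (G : K → ℂ) : Prop := ∀ γ γ', Ek q γ → Ek q γ' → G γ = G γ'

end field

/-- a group with a central subgroup `Zs`, a cyclic subgroup `⟨c⟩` of automizer order eleven and a small representation -/
structure XH {Γ : Type u} [Group Γ] {n : ℕ} (ρ : Γ →* Matrix (Fin n) (Fin n) ℂ) (Z0 Zs N : Subgroup Γ) (c y : Γ)
    (s t g : ℕ) : Prop where
  cen : Zs ≤ Subgroup.center Γ
  z0 : Z0 ≤ Zs
  oc : orderOf c = 11 * t + 1
  odd : Odd (11 * t + 1)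
  g1 : 1 ≤ g
  t6 : 62 * g ≤ t
  dis : Zs ⊓ Subgroup.zpowers c = ⊥
  cy : y * c * y⁻¹ = c ^ s
  s7 : c ^ s ^ 11 = c
  fr : ∀ a ∈ Subgroup.zpowers c, ∀ i, 0 < i → i < 11 → a ^ s ^ i = a → a = 1
  cN : Nat.card N = 11 * (11 * t + 1) * Nat.card Zs
  nN : ∀ x ∈ N, ∃ i, x * c * x⁻¹ = c ^ s ^ i
  ti : ∀ x, ∀ z ∈ Zs, ∀ z' ∈ Zs, ∀ a ∈ Subgroup.zpowers c, ∀ a' ∈ Subgroup.zpowers c, a ≠ 1 →
    x * (z * a) * x⁻¹ = z' * a' → x ∈ N
  sc : ∀ z ∈ Z0, ∃ ζ : ℂ, ρ z = ζ • 1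
  fz : ∀ z ∈ Z0, ρ z = 1 → z = 1
  w1 : ∀ z ∈ Zs, ∀ a ∈ Subgroup.zpowers c, z * a ∉ Z0 → ‖(ρ (z * a)).trace‖ = 1
  wd : (n + 1) * Nat.card Z0 = g * (11 * t + 1) * Nat.card Zs

/-! ### Chunks -/

/-- arithmetic of the torus -/
def AR : Prop := ∀ q : ℕ, 2 ≤ q → mm q * gg q = q ^ 11 + 1 ∧ cc q * (q + 1) = mm q ∧ (cc q).Coprime (q + 1) ∧
  (cc q).Coprime q ∧ Odd (cc q) ∧ (gg q = 1 ∨ gg q = 11) ∧ (∃ t, cc q = 11 * t + 1 ∧ 62 * gg q ≤ t) ∧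
  (∀ i, 0 < i → i < 11 → (cc q).Coprime ((q ^ 2) ^ i - 1)) ∧ ∀ r, r.Prime → r ∣ cc q → 23 ≤ r

/-- group theory of the overgroup -/
def GR : Prop := ∀ (F K : Type u) [Field F] [Fintype F] [Field K] [Fintype K] [Algebra F K] (q : ℕ)
  (J : Subgroup (K ≃ₗ[F] K)), Fd F K q → Hy q J →
  (∀ (g : K ≃ₗ[F] K) (t t' : K), t ^ q ^ 2 ≠ t → (∀ x, g (t * x) = t' * g x) → Mon F q g) ∧
  (∃ N : Subgroup (K ≃ₗ[F] K), (∀ g, g ∈ N ↔ g ∈ J ∧ Mon F q g) ∧ Nat.card N = 11 * mm q) ∧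
  ∀ Y ≤ J, (∀ g ∈ J, ∀ y ∈ Y, g * y * g⁻¹ ∈ Y) → (∀ c : Kˣ, ml F c ∈ Y → c ^ (q + 1) = 1) →
    ∀ y ∈ Y, ∃ c : F, ∀ x, y x = c • x

/-- exceptional characters -/
def EX : Prop := ∀ (Γ : Type u) [Group Γ] [Fintype Γ] (n : ℕ) (ρ : Γ →* Matrix (Fin n) (Fin n) ℂ) (Z0 Zs N : Subgroup Γ)
  (c y : Γ) (s t g : ℕ), XH ρ Z0 Zs N c y s t g →
  (∃ Y : Subgroup Γ, Y.Normal ∧ Zs ≤ Y ∧ Y ⊓ Subgroup.zpowers c = ⊥ ∧ Nat.card Γ = 11 * (11 * t + 1) * Nat.card Y) ∨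
  (∃ a j, a ≤ g ∧ 1 ≤ j ∧ j ≤ 3 ∧ j ≤ a ∧ a * (11 * t + 1) - j ∣ Nat.card Γ) ∧ ∀ A, (∀ x, A * ρ x = ρ x * A) → ∀ z ∈ Zs, ∀ a ∈ Subgroup.zpowers c, ∀ a' ∈ Subgroup.zpowers c, a ≠ 1 → a' ≠ 1 →
    (A * ρ (z * a)).trace = (A * ρ (z * a')).trace

/-- Gauss sums of invariant functions -/
def DD : Prop := ∀ (F K : Type u) [Field F] [Fintype F] [Field K] [Fintype K] [Algebra F K] (q : ℕ)
  (J : Subgroup (K ≃ₗ[F] K)) (ψ : AddChar F ℂ) (Φ : K → ℂ), Fd F K q → Hy q J → (∃ a, a ^ q = a ∧ ψ a ≠ 1) →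
  (∀ g ∈ J, ∀ x, Φ (g x) = Φ x) → Iv F q (Gs q ψ Φ)

/-- a character degree -/
def DV : Prop := ∀ (F K : Type u) [Field F] [Fintype F] [Field K] [Fintype K] [Algebra F K] (q : ℕ)
  (J : Subgroup (K ≃ₗ[F] K)), Fd F K q → Hy q J →
  ∃ a j k, a ≤ gg q ∧ 1 ≤ j ∧ j ≤ 3 ∧ j ≤ a ∧ a * cc q - j ∣ q ^ k * Nat.card J

/-- every element is covered -/
def CV : Prop := ∀ (F K : Type u) [Field F] [Fintype F] [Field K] [Fintype K] [Algebra F K] (q : ℕ) (γ : K),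
  Fd F K q → q ≠ 32 → q ≠ 43 → Ek q γ → ∃ κ : F, κ ^ q ≠ κ ∧ ((γ + algebraMap F K κ) ^ NN q) ^ (q + 1) = 1

/-- covering from the Weil bound -/
def CW : Prop := WB.{u} → CV.{u}

/-- connectedness -/
def CN : Prop := ∀ (F K : Type u) [Field F] [Fintype F] [Field K] [Fintype K] [Algebra F K] (q : ℕ) (G : K → ℂ),
  Fd F K q → q ≠ 32 → q ≠ 43 → 3 ≤ q → Iv F q G → Cn q G

/-- connectedness from the Weil bound -/
def CO : Prop := WB.{u} → CV.{u} → CN.{u}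

/-- the case `q = 2` -/
def Q2 : Prop := ∀ (F K : Type u) [Field F] [Fintype F] [Field K] [Fintype K] [Algebra F K] (ψ : AddChar F ℂ)
  (S : Finset K), Fd F K 2 → ψ 1 ≠ 1 → (∀ y ∈ S, y ^ 2 ^ 11 = y) →
  Iv F 2 (fun γ => ∑ y ∈ S, ψ (Algebra.trace F K (γ * y))) → Cn 2 fun γ => ∑ y ∈ S, ψ (Algebra.trace F K (γ * y))

/-- the orbits on vectors -/
def OB : Prop := ∀ (F K : Type u) [Field F] [Fintype F] [Field K] [Fintype K] [Algebra F K] (q : ℕ)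
  (J : Subgroup (K ≃ₗ[F] K)), Fd F K q → Hy q J → q ≠ 32 → q ≠ 43 → ∀ x, x ≠ 0 →
  (fm F q x x ≠ 0 → q ^ 10 ∣ (orb J x).ncard) ∧
  (fm F q x x = 0 → {y : K | y ≠ 0 ∧ fm F q y y = 0}.ncard ≤ gg q * (orb J x).ncard)

/-- Fourier inversion -/
def ON : Prop := DD.{u} → CN.{u} → Q2.{u} → OB.{u}

/-- unipotent groups with long orbits contain transvections -/
def PG : Prop := ∀ (F K : Type u) [Field F] [Fintype F] [Field K] [Fintype K] [Algebra F K] (q : ℕ)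
  (U : Subgroup (K ≃ₗ[F] K)), Fd F K q → (∀ g ∈ U, Iso F q g) → IsPGroup (ringChar F) U →
  (∀ x, fm F q x x ≠ 0 → q ^ 10 ≤ (orb U x).ncard) → ∃ t ∈ U, Tv F q t

/-- the endgame -/
def FN : Prop := ∀ (F K : Type u) [Field F] [Fintype F] [Field K] [Fintype K] [Algebra F K] (q : ℕ)
  (J : Subgroup (K ≃ₗ[F] K)), Fd F K q → Hy q J → (∃ t ∈ J, Tv F q t) →
  (∀ x, x ≠ 0 → fm F q x x = 0 → {y : K | y ≠ 0 ∧ fm F q y y = 0}.ncard ≤ gg q * (orb J x).ncard) →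
  ∀ t, Iso F q t → Tv F q t → t ∈ J

/-- the order of the unitary group -/
def oG (q : ℕ) : ℕ := q ^ 55 * ∏ i ∈ range 11, (if Even i then q ^ (i + 1) + 1 else q ^ (i + 1) - 1)

/-- the prime used for the two special fields -/
def rr (q : ℕ) : ℕ := if q = 32 then 1801 else 3500201

/-- Lagrange -/
def LG : Prop := ∀ (F K : Type u) [Field F] [Fintype F] [Field K] [Fintype K] [Algebra F K] (q : ℕ)
  (J : Subgroup (K ≃ₗ[F] K)), Fd F K q → (∀ g ∈ J, Iso F q g) → Nat.card J ∣ oG q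

/-- the index of the Singer normaliser -/
def IC : Prop := ∀ (F K : Type u) [Field F] [Fintype F] [Field K] [Fintype K] [Algebra F K] (q : ℕ)
  (J : Subgroup (K ≃ₗ[F] K)), Fd F K q → Hy q J → ∃ I, Nat.card J = 11 * mm q * I ∧ I ≡ 1 [MOD cc q]

/-- a Sylow normaliser -/
def SN : Prop := ∀ (F K : Type u) [Field F] [Fintype F] [Field K] [Fintype K] [Algebra F K] (q : ℕ)
  (J : Subgroup (K ≃ₗ[F] K)), Fd F K q → Hy q J → q = 32 ∨ q = 43 → rr q ∣ Nat.card J → ¬ rr q ^ 2 ∣ Nat.card J →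
  ∃ n m, Nat.card J = n * m ∧ m ≡ 1 [MOD rr q] ∧ q + 1 ∣ n ∧ n ∣ 10 * (q + 1) * (q ^ 10 - 1) ∧
    (q = 32 → 121 ∣ n → 1331 ∣ Nat.card J)

/-- subgroups of index eleven -/
def IX : Prop := ∀ (F K : Type u) [Field F] [Fintype F] [Field K] [Fintype K] [Algebra F K] (q : ℕ)
  (J : Subgroup (K ≃ₗ[F] K)), Fd F K q → q = 32 ∨ q = 43 → (∀ g ∈ J, Iso F q g) → 11 * Nat.card J = oG q →
  ∀ t, Iso F q t → Tv F q t → t ∈ J

/-- the computation -/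
def AM (q : ℕ) : Prop := ∀ a j k I : ℕ, a ≤ 11 → 1 ≤ j → j ≤ 3 → j ≤ a → a * cc q - j ∣ q ^ k * ((q ^ 11 + 1) * I) →
  (q ^ 11 + 1) * I ∣ oG q → I ≡ 1 [MOD cc q] → rr q ∣ I ∧ ∀ n m, (q ^ 11 + 1) * I = n * m → m ≡ 1 [MOD rr q] → q + 1 ∣ n →
    n ∣ 10 * (q + 1) * (q ^ 10 - 1) → (q = 32 → 121 ∣ n → 1331 ∣ (q ^ 11 + 1) * I) → 11 * ((q ^ 11 + 1) * I) = oG q

/-- the two special fields -/
def SP : Prop := ∀ (F K : Type u) [Field F] [Fintype F] [Field K] [Fintype K] [Algebra F K] (q : ℕ)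
  (J : Subgroup (K ≃ₗ[F] K)), Fd F K q → Hy q J → q = 32 ∨ q = 43 → ∀ t, Iso F q t → Tv F q t → t ∈ J

/-- all transvections lie in the overgroup -/
def MN : Prop := ∀ (F K : Type u) [Field F] [Fintype F] [Field K] [Fintype K] [Algebra F K] (q : ℕ)
  (J : Subgroup (K ≃ₗ[F] K)), Fd F K q → Hy q J → ∀ t, Iso F q t → Tv F q t → t ∈ J

/-- the goal -/
def C3U : Prop := ∀ (F : Type u) [Field F] [Fintype F] (q : ℕ), Fintype.card F = q ^ 2 →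
  ∀ K : Subalgebra F (Matrix (Fin 11) (Fin 11) F), Cfsg.Geo.IsFieldSubalgebra 11 K →
  Cfsg.Geo.IsAdjointClosedFor (Cfsg.hermForm 11 F q) K →
  Cfsg.Geo.IsMaximalIn (Cfsg.GU 11 F q ⊓ Cfsg.Geo.specialLinear (Fin 11) F)
    (Cfsg.Geo.subalgebraNormalizer K ⊓ (Cfsg.GU 11 F q ⊓ Cfsg.Geo.specialLinear (Fin 11) F))

/-- transport -/
def AS : Prop := AR → MN.{u} → C3U.{u}

theorem sp_of (dv : DV.{u}) (lg : LG.{u}) (ic : IC.{u}) (sn : SN.{u}) (ix : IX.{u}) (a32 : AM 32) (a43 : AM 43) : SP.{u} := by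
  intro F K _ _ _ _ _ q J fd hy hq
  obtain ⟨a, j, k, h1, h2, h3, h4, h5⟩ := dv F K q J fd hy
  obtain ⟨I, hI, h6⟩ := ic F K q J fd hy
  have h7 := lg F K q J fd hy.iso
  have e : gg q = 11 ∧ 11 * mm q = q ^ 11 + 1 ∧ ¬ rr q ^ 2 ∣ oG q := by rcases hq with rfl | rfl <;> decide +kernel
  have am : AM q := by rcases hq with rfl | rfl <;> assumption
  rw [e.2.1] at hI
  obtain ⟨b1, b2⟩ := am a j k I (e.1 ▸ h1) h2 h3 h4 (hI ▸ h5) (hI ▸ h7) h6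
  obtain ⟨n, m, c1, c2, c3, c4, c5⟩ := sn F K q J fd hy hq (hI ▸ b1.mul_left _) fun z => e.2.2 (z.trans h7)
  exact ix F K q J fd hq hy.iso (hI ▸ b2 n m (hI ▸ c1) c2 c3 c4 (hI ▸ c5))

theorem mn_of (ob : OB.{u}) (pg : PG.{u}) (fn : FN.{u}) (sp : SP.{u}) : MN.{u} := fun F K _ _ _ _ _ q J fd hy => by
  by_cases hq : q = 32 ∨ q = 43
  · exact sp F K q J fd hy hq
  push Not at hq
  refine fn F K q J fd hy ?_ fun x x0 => (ob F K q J fd hy hq.1 hq.2 x x0).2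
  haveI : Fact (ringChar F).Prime := ⟨CharP.char_is_prime F _⟩
  haveI : Finite (K ≃ₗ[F] K) := Finite.of_injective _ DFunLike.coe_injective
  obtain ⟨P⟩ : Nonempty (Sylow (ringChar F) J) := inferInstance
  obtain ⟨t, ⟨t, -, rfl⟩, h⟩ := pg F K q (P.1.map J.subtype) fd (by rintro _ ⟨g, -, rfl⟩; exact hy.iso _ g.2)
    (P.isPGroup'.map _) fun x hx => by
      have x0 : x ≠ 0 := by rintro rfl; simp [fm] at hx
      have h1 := (ob F K q J fd hy hq.1 hq.2 x x0).1 hx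
      have e1 : orb J x = MulAction.orbit J x := Set.ext fun y =>
        ⟨fun ⟨g, hg, e⟩ => ⟨⟨g, hg⟩, e⟩, fun ⟨g, e⟩ => ⟨g, g.2, e⟩⟩
      have e2 : orb (P.1.map J.subtype) x = MulAction.orbit P.1 x := Set.ext fun y =>
        ⟨fun ⟨_, ⟨g, hg, rfl⟩, e⟩ => ⟨⟨g, hg⟩, e⟩, fun ⟨g, e⟩ => ⟨_, ⟨g, g.2, rfl⟩, e⟩⟩
      rw [e1, ← MulAction.index_stabilizer] at h1
      rw [e2, ← MulAction.index_stabilizer]
      obtain ⟨k, -, hk⟩ := FiniteField.card F (ringChar F)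
      obtain ⟨j, -, hj⟩ := (Nat.dvd_prime_pow Fact.out).1 (hk ▸ fd.hF ▸ dvd_pow_self q two_ne_zero : q ∣ ringChar F ^ k.1)
      have h3 : (MulAction.stabilizer P.1 x).index = (MulAction.stabilizer J x).relIndex P.1 := rfl
      have h4 : q ^ 10 ∣ (MulAction.stabilizer J x).relIndex P.1 * P.1.index := by
        rw [← Subgroup.inf_relIndex_right, Subgroup.relIndex_mul_index inf_le_right]
        exact h1.trans (Subgroup.index_dvd_of_le inf_le_left)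
      rw [h3]
      refine Nat.le_of_dvd (Nat.pos_of_ne_zero Subgroup.index_ne_zero_of_finite) (Nat.Coprime.dvd_of_dvd_mul_right ?_ h4)
      rw [hj, ← pow_mul]
      exact ((Nat.Prime.coprime_iff_not_dvd Fact.out).2 P.not_dvd_index).pow_left _
  exact ⟨_, t.2, h⟩

end H6.UE
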