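import Cfsg.Agent.H20.US7

/-! S5855 part 4: Fourier analysis on a cyclic group with a free automorphism of order eleven. -/

set_option autoImplicit false
set_option linter.unusedSectionVars false

namespace H6.UE
open Finset
open scoped ComplexConjugate

variable {n : ℕ} [NeZero n] {u j j' : ZMod n}

export H20.US (ft Qf sum_e ft_inv ft_inj ex_ft ft_zero pars ft_add ft_sub ft_sum ft_flat Qf_sub)

/-- orbits -/
def Ob (u j : ZMod n) : Finset (ZMod n) := (range 11).image fun i => u ^ i * j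

/-- a free automorphism of order eleven -/
structure Fr (u : ZMod n) : Prop where
  u7 : u ^ 11 = 1
  fr : ∀ i k, 0 < i → i < 11 → u ^ i * k = k → k = 0

theorem self_Ob (u j : ZMod n) : j ∈ Ob u j := mem_image.2 ⟨0, by simp, by simp⟩

theorem inv_Ob {α : Type*} {d : ZMod n → α} (h : ∀ j, d (u * j) = d j) (hj : j' ∈ Ob u j) : d j' = d j := by
  obtain ⟨i, -, rfl⟩ := mem_image.1 hj
  clear hj
  induction i with
  | zero => simp
  | succ i ih => rw [pow_succ', mul_assoc, h, ih]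

theorem card_Ob_le (u j : ZMod n) : #(Ob u j) ≤ 11 := card_image_le.trans_eq (card_range 11)

/-- a multiplicity function deviating at one orbit -/
def dv (u : ZMod n) (a : ℤ) (j1 : ZMod n) (ε δ : ℤ) (j : ZMod n) : ℤ :=
  a + (if j ∈ Ob u j1 then ε else 0) + if j = 0 then δ else 0

namespace Fr
variable (h : Fr u)
include h

theorem pow_mem (i : ℕ) (j : ZMod n) : u ^ i * j ∈ Ob u j :=
  mem_image.2 ⟨i % 11, mem_range.2 (Nat.mod_lt _ (by norm_num)), by rw [← pow_eq_pow_mod i h.u7]⟩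

theorem mem_iff : j' ∈ Ob u j ↔ ∃ i, u ^ i * j = j' :=
  ⟨fun a => let ⟨i, _, e⟩ := mem_image.1 a; ⟨i, e⟩, fun ⟨i, e⟩ => e ▸ h.pow_mem i j⟩

theorem symm (a : j' ∈ Ob u j) : j ∈ Ob u j' := by
  obtain ⟨i, rfl⟩ := h.mem_iff.1 a
  exact h.mem_iff.2 ⟨10 * i, by rw [← mul_assoc, ← pow_add, show 10 * i + i = 11 * i by ring, pow_mul, h.u7, one_pow, one_mul]⟩

theorem Ob_eq (a : j' ∈ Ob u j) : Ob u j' = Ob u j := by
  have k : ∀ {j j'}, j' ∈ Ob u j → Ob u j' ⊆ Ob u j := fun a x b => by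
    obtain ⟨i, rfl⟩ := h.mem_iff.1 a
    obtain ⟨l, rfl⟩ := h.mem_iff.1 b
    rw [← mul_assoc, ← pow_add]; exact h.pow_mem _ _
  exact (k a).antisymm (k (h.symm a))

theorem ne0 (j0 : j ≠ 0) (a : j' ∈ Ob u j) : j' ≠ 0 := by
  rintro rfl
  obtain ⟨i, e⟩ := h.mem_iff.1 (h.symm a)
  exact j0 (by simpa using e.symm)

theorem injOn (j0 : j ≠ 0) : Set.InjOn (fun i => u ^ i * j) (range 11 : Finset ℕ) := by
  have k : ∀ a b, a < b → b < 11 → u ^ a * j ≠ u ^ b * j := fun a b l hb e => by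
    obtain ⟨c, rfl⟩ := Nat.exists_eq_add_of_le l.le
    exact h.ne0 j0 (h.pow_mem a j) (h.fr c _ (by omega) (by omega) (by rw [← mul_assoc, ← pow_add, add_comm, e]))
  intro a ha b hb e
  rcases lt_trichotomy a b with l | l | l
  · exact absurd e (k a b l (by simpa using hb))
  · exact l
  · exact absurd e.symm (k b a l (by simpa using ha))

theorem card_Ob (j0 : j ≠ 0) : #(Ob u j) = 11 := (card_image_of_injOn (h.injOn j0)).trans (card_range 11)

theorem sum_ind (j0 : j ≠ 0) (ε : ℤ) : ∑ x, (if x ∈ Ob u j then ε else 0) = 11 * ε := by simp [h.card_Ob j0]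

theorem Qf_dv (j0 : j ≠ 0) (a ε δ : ℤ) : Qf (dv u a j ε δ) = n * (11 * ε ^ 2 + δ ^ 2) - (11 * ε + δ) ^ 2 := by
  rw [← Qf_sub _ a, Qf, sum_congr rfl (g := fun x => (if x ∈ Ob u j then ε ^ 2 else 0) + if x = 0 then δ ^ 2 else 0)
    fun x _ => by
      rw [dv]; split_ifs with a b
      exacts [absurd b (h.ne0 j0 a), by ring, by ring, by ring]]
  simp only [dv, add_assoc, add_sub_cancel_left, sum_add_distrib, h.sum_ind j0, sum_ite_eq', mem_univ, if_true]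

theorem Qf_two (j0 : j ≠ 0) (j0' : j' ≠ 0) (a : j' ∉ Ob u j) :
    Qf (fun x => dv u 0 j 1 0 x - dv u 0 j' 1 0 x) = 22 * n := by
  rw [Qf, sum_congr rfl (g := fun x => (if x ∈ Ob u j then 1 else 0) + if x ∈ Ob u j' then 1 else 0) fun x _ => by
    simp only [dv, ite_self]; split_ifs with b c
    any_goals norm_num
    all_goals exact a (h.Ob_eq b ▸ h.symm c)]
  simp only [dv, zero_add, ite_self, add_zero, sum_add_distrib, sum_sub_distrib, h.sum_ind j0, h.sum_ind j0']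
  ring

theorem cls (n43 : 683 ≤ n) {m : ZMod n → ℤ} (hm : ∀ j, m (u * j) = m j) (hQ : Qf m ≤ 11 * n) :
    (∃ a, ∀ j, j ≠ 0 → m j = a) ∨ ∃ a j ε δ, j ≠ 0 ∧ (ε = 1 ∨ ε = -1) ∧ δ ^ 2 ≤ 1 ∧ m = dv u a j ε δ := by
  obtain ⟨j0, -, h0⟩ := exists_le_of_sum_le (s := univ) (f := fun i => ∑ j, (m j - m i) ^ 2) (g := fun _ => 22)
    univ_nonempty (by
      simp only [sub_sq, sum_add_distrib, sum_sub_distrib, ← sum_mul, ← mul_sum, sum_const, card_univ, ZMod.card,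
        nsmul_eq_mul]
      rw [Qf] at hQ; linarith)
  rw [← Qf_sub m (m j0), Qf] at hQ
  generalize m j0 = a at *
  have h1 : |∑ j, (m j - a)| ≤ ∑ j, (m j - a) ^ 2 := (abs_sum_le_sum_abs _ _).trans (sum_le_sum fun j _ => by
    rw [← sq_abs]; exact Int.le_self_sq _)
  have h2 : ∑ j, (m j - a) ^ 2 ≤ 12 := by
    rw [← sq_abs (∑ j, (m j - a))] at hQ
    have h3 := pow_le_pow_left₀ (abs_nonneg _) h1 2
    have h4 : (683 : ℤ) ≤ n := by exact_mod_cast n43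
    generalize ∑ j, (m j - a) ^ 2 = T at *
    by_contra! z
    interval_cases T <;> omega
  refine or_iff_not_imp_left.2 fun z => ?_
  push Not at z
  obtain ⟨j, j0, hj⟩ := z a
  have so : ∀ {j}, j ≠ 0 → ∑ x ∈ Ob u j, (m x - a) ^ 2 = 11 * (m j - a) ^ 2 := fun j0 => by
    rw [sum_congr rfl fun x hx => by rw [inv_Ob hm hx], sum_const, h.card_Ob j0]; simp
  have p : ∀ {j}, m j ≠ a → 1 ≤ (m j - a) ^ 2 := fun e => sq_pos_of_ne_zero (sub_ne_zero.2 e)
  have le : ∀ s : Finset (ZMod n), ∑ x ∈ s, (m x - a) ^ 2 ≤ 12 := fun s =>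
    (sum_le_sum_of_subset_of_nonneg (subset_univ _) fun _ _ _ => sq_nonneg _).trans h2
  have h3 := le (insert 0 (Ob u j))
  rw [sum_insert fun z => h.ne0 j0 z rfl, so j0] at h3
  have h4 := p hj
  refine ⟨a, j, m j - a, m 0 - a, j0, sq_eq_one_iff.1 (by nlinarith [sq_nonneg (m 0 - a)]), by omega,
    funext fun x => ?_⟩
  rw [dv]
  split_ifs with b c c
  · exact absurd c (h.ne0 j0 b)
  · rw [inv_Ob hm b]; ring
  · rw [c]; ring
  by_contra e
  have h5 := le (Ob u j ∪ Ob u x)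
  rw [sum_union (disjoint_left.2 fun y y1 y2 => b (h.Ob_eq y1 ▸ h.symm y2)), so j0, so c] at h5
  have := p (j := x) (by simpa using e)
  omega

theorem inv_ft {m : ZMod n → ℤ} (hm : ∀ k, ft m (u * k) = ft m k) (j : ZMod n) : m (u * j) = m j := by
  have e : u ^ 10 * u = 1 := by rw [← pow_succ, h.u7]
  rw [← ft_inj (d := fun j => m (u ^ 10 * j)) (fun k => (Fintype.sum_equiv (Units.mkOfMulEqOne _ _ ((mul_comm _ _).trans e)).mulLeft
    _ _ fun j => by simp [← mul_assoc, e, mul_comm j u]).symm.trans (hm k)) (u * j), ← mul_assoc, e, one_mul]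

omit h in
theorem ex_out {s : Finset (ZMod n)} (hs : #s + 1 < n) : ∃ x, x ≠ 0 ∧ x ∉ s := by
  obtain ⟨x, -, hx⟩ := exists_mem_notMem_of_card_lt_card (s := insert 0 s) (t := univ)
    ((card_insert_le _ _).trans_lt (by rwa [card_univ, ZMod.card]))
  exact ⟨x, by simpa using hx⟩

theorem cls' (n43 : 683 ≤ n) {m : ZMod n → ℕ} (hm : ∀ j, (m (u * j) : ℤ) = m j) (hQ : Qf (fun j => m j) ≤ 11 * n) :
    ∃ a j ε δ, j ≠ 0 ∧ 0 ≤ a ∧ (ε = 0 ∨ (ε = 1 ∨ ε = -1) ∧ δ ^ 2 ≤ 1) ∧ (fun j => (m j : ℤ)) = dv u a j ε δ := by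
  obtain ⟨a, j, ε, δ, j0, h1, h2⟩ : ∃ a j ε δ, j ≠ 0 ∧ (ε = 0 ∨ (ε = 1 ∨ ε = -1) ∧ δ ^ 2 ≤ 1) ∧
      (fun j => (m j : ℤ)) = dv u a j ε δ := by
    rcases h.cls n43 hm hQ with ⟨a, ha⟩ | ⟨a, j, ε, δ, j0, h1, h2, h3⟩
    · obtain ⟨j, j0, -⟩ := ex_out (s := (∅ : Finset (ZMod n))) (by simp; omega)
      refine ⟨a, j, 0, m 0 - a, j0, .inl rfl, funext fun x => ?_⟩
      by_cases z : x = 0
      · simp [dv, z]
      · simp [dv, z, ha x z]
    · exact ⟨a, j, ε, δ, j0, .inr ⟨h1, h2⟩, h3⟩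
  obtain ⟨x, x0, hx⟩ := ex_out (s := Ob u j) (by have := card_Ob_le u j; omega)
  exact ⟨a, j, ε, δ, j0, by simpa [dv, x0, hx] using (Nat.cast_nonneg _).trans_eq (congrFun h2 x), h1, h2⟩

theorem ft_dv (j0 : j ≠ 0) (k : ZMod n) : ft (dv u 0 j 1 0) k = ∑ i ∈ range 11, ZMod.stdAddChar (u ^ i * j * k) := by
  simp only [ft, dv, zero_add, ite_self, add_zero, Int.cast_ite, Int.cast_one, Int.cast_zero, ite_mul, one_mul, zero_mul,
    sum_ite_mem, univ_inter]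
  exact sum_image (h.injOn j0)

theorem sq_dv (o : Odd n) (j0 : j ≠ 0) : ∃ (d : ZMod n → ℤ) (s : Finset (ZMod n)), #s ≤ 66 ∧ 0 ∉ s ∧
    (∀ x, x ∉ s → d x = 0) ∧ ∀ k, ft (dv u 0 j 1 0) k ^ 2 = ft d k := by
  refine ⟨fun x => ∑ p ∈ range 11 ×ˢ range 11, 1 * if x = u ^ p.1 * j + u ^ p.2 * j then 1 else 0,
    (range 6).biUnion fun l => Ob u ((1 + u ^ l) * j), card_biUnion_le.trans ((sum_le_card_nsmul _ _ 11 fun _ _ =>
      card_Ob_le _ _).trans (by simp)), fun z => ?_, fun x hx => sum_eq_zero fun p hp => ?_, fun k => ?_⟩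
  · obtain ⟨l, hl, z⟩ := mem_biUnion.1 z
    have e : u ^ l * j = -j := by
      obtain ⟨i, e⟩ := h.mem_iff.1 (h.symm z)
      linear_combination -e
    rcases l.eq_zero_or_pos with rfl | l0
    · exact j0 (((ZMod.isUnit_iff_coprime 2 n).2 (Nat.coprime_two_left.2 o)).mul_right_eq_zero.1 (by
        push_cast; linear_combination e))
    · exact j0 (h.fr (l + l) j (by omega) (by have := mem_range.1 hl; omega) (by
        rw [pow_add, mul_assoc, e, mul_neg, e, neg_neg]))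
  · rw [if_neg, mul_zero]
    rintro rfl
    obtain ⟨l, hl, e⟩ : ∃ l < 6, (p.1 + l) % 11 = p.2 ∨ (p.2 + l) % 11 = p.1 := by
      have : ∀ a < 11, ∀ b < 11, ∃ l < 6, (a + l) % 11 = b ∨ (b + l) % 11 = a := by decide
      exact this _ (mem_range.1 (mem_product.1 hp).1) _ (mem_range.1 (mem_product.1 hp).2)
    refine hx (mem_biUnion.2 ⟨l, mem_range.2 hl, h.mem_iff.2 ?_⟩)
    rcases e with e | e
    · exact ⟨p.1, by rw [← e, ← pow_eq_pow_mod _ h.u7]; ring⟩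
    · exact ⟨p.2, by rw [← e, ← pow_eq_pow_mod _ h.u7]; ring⟩
  · rw [ft_sum, h.ft_dv j0, sq, sum_mul_sum, sum_product]
    simp [ft, add_mul, AddChar.map_add_eq_mul]
end Fr

end H6.UE
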