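import Cfsg.Agent.H6.UE3
import Cfsg.Agent.H6.UE0
import Cfsg.Agent.H20.US8
import Cfsg.Agent.H6.Hecke
import Cfsg.Agent.H21.ExcAb
import Cfsg.Agent.H5.Integral

/-! S5855 part 4: exceptional characters (chunk EX). -/

set_option autoImplicit false
set_option linter.unusedSectionVars false
set_option linter.style.haveILetI false

namespace H6.UE
open Finset Cfsg H5
open scoped ComplexConjugate Classical

universe u

variable {Γ : Type u} [Group Γ] [Fintype Γ] {n : ℕ} {ρ : Γ →* Matrix (Fin n) (Fin n) ℂ} {Z0 Zs N : Subgroup Γ} {c y : Γ}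
  {s t g : ℕ} {χ χ' θ : Γ → ℂ} {μ : Zs →* ℂˣ}

/-- powers -/
def ph (c : Γ) (t : ℕ) (k : ZMod (11 * t + 1)) : Γ := c ^ k.val

/-- the regular elements of the torus -/
noncomputable def WW (Zs : Subgroup Γ) (c : Γ) (t : ℕ) : Finset Γ :=
  ((Zs : Set Γ).toFinset ×ˢ univ.erase 0).image fun p => p.1 * ph c t p.2

/-- their conjugates -/
noncomputable def SS (Zs : Subgroup Γ) (c : Γ) (t : ℕ) : Finset Γ :=
  (univ ×ˢ WW Zs c t).image fun p => p.1 * p.2 * p.1⁻¹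

export H20.US (Cc mu_conj mu_norm cc_of nrm2)

/-- multiplicities on the cyclic group -/
def Rp (c : Γ) (t : ℕ) (χ : Γ → ℂ) (d : ZMod (11 * t + 1) → ℤ) : Prop := ∀ k, χ (ph c t k) = ft d k

/-- characters of degree eleven -/
def XX (c : Γ) (s t : ℕ) (χ : Γ → ℂ) : Prop := IsIrrCharacter Γ χ ∧ ∃ j, j ≠ 0 ∧ Rp c t χ (dv (s : ZMod _) 0 j 1 0)

theorem ph_zero : ph c t 0 = 1 := by simp [ph]

section
variable (h : XH ρ Z0 Zs N c y s t g)
include h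

theorem c43 : 683 ≤ 11 * t + 1 := by have := h.g1; have := h.t6; omega

theorem ph_nat (a : ℕ) : ph c t a = c ^ a := by rw [ph, ZMod.val_natCast, ← h.oc, pow_mod_orderOf]

theorem ph_add (k l : ZMod (11 * t + 1)) : ph c t (k + l) = ph c t k * ph c t l := by
  rw [← k.natCast_zmod_val, ← l.natCast_zmod_val, ← Nat.cast_add, ph_nat h, ph_nat h, ph_nat h, pow_add]

theorem ph_mul (a : ℕ) (k : ZMod (11 * t + 1)) : ph c t (a * k) = ph c t k ^ a := by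
  rw [← k.natCast_zmod_val, ← Nat.cast_mul, ph_nat h, ph_nat h, mul_comm, pow_mul]

theorem ph_inj : Function.Injective (ph c t) := fun k l e => ZMod.val_injective _
  (pow_injOn_Iio_orderOf (k.val_lt.trans_eq h.oc.symm) (l.val_lt.trans_eq h.oc.symm) e)

theorem ph_mem {a : Γ} : a ∈ Subgroup.zpowers c ↔ ∃ k, ph c t k = a :=
  ⟨fun e => let ⟨k, e⟩ := mem_powers_iff_mem_zpowers.2 e; ⟨k, (ph_nat h k).trans e⟩, fun ⟨_, e⟩ => e ▸ Subgroup.npow_mem_zpowers _ _⟩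

theorem ph_one {k : ZMod (11 * t + 1)} : ph c t k = 1 ↔ k = 0 := by rw [← ph_zero (t := t) (c := c), (ph_inj h).eq_iff]

theorem fr : Fr (s : ZMod (11 * t + 1)) :=
  ⟨ph_inj h (by rw [← Nat.cast_pow, ph_nat h, h.s7, ← Nat.cast_one, ph_nat h, pow_one]), fun i k i0 i7 e =>
    (ph_one h).1 (h.fr _ ((ph_mem h).2 ⟨k, rfl⟩) i i0 i7 (by rw [← ph_mul h, Nat.cast_pow, e]))⟩

theorem mem_WW {w : Γ} : w ∈ WW Zs c t ↔ ∃ z ∈ Zs, ∃ a ∈ Subgroup.zpowers c, a ≠ 1 ∧ z * a = w := by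
  simp only [WW, mem_image, mem_product, Set.mem_toFinset, SetLike.mem_coe, mem_erase, mem_univ, and_true, Prod.exists]
  exact ⟨fun ⟨z, k, ⟨a, b⟩, e⟩ => ⟨z, a, _, (ph_mem h).2 ⟨k, rfl⟩, mt (ph_one h).1 b, e⟩, fun ⟨z, a, _, b, d, e⟩ => by
    obtain ⟨k, rfl⟩ := (ph_mem h).1 b
    exact ⟨z, k, ⟨a, mt (ph_one h).2 d⟩, e⟩⟩

theorem dis {a : Γ} (h1 : a ∈ Zs) (h2 : a ∈ Subgroup.zpowers c) : a = 1 := (Subgroup.eq_bot_iff_forall _).1 h.dis a ⟨h1, h2⟩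

theorem cnt (F : Γ → ℝ) (h1 : ∀ x w, F (x * w * x⁻¹) = F w) (h2 : ∀ (z : Zs) w, F (z * w) = F w) :
    11 * (11 * t + 1) * ∑ w ∈ SS Zs c t, F w = Nat.card Γ * ∑ k ∈ univ.erase 0, F (ph c t k) := by
  have e2 : ∑ w ∈ WW Zs c t, F w = Nat.card Zs * ∑ k ∈ univ.erase 0, F (ph c t k) := by
    rw [WW, sum_image, sum_product, sum_congr rfl fun z hz => sum_congr rfl fun k _ => h2 ⟨z, by simpa using hz⟩ _]
    · simp only [sum_const, ← Nat.card_eq_card_toFinset, nsmul_eq_mul]; rfl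
    rintro ⟨z, k⟩ a ⟨z', k'⟩ b (e : z * _ = z' * _)
    have := dis h (a := z'⁻¹ * z) (mul_mem (inv_mem (by simpa using (mem_product.1 b).1)) (by simpa using (mem_product.1 a).1))
      (by rw [show z'⁻¹ * z = ph c t k' * (ph c t k)⁻¹ by rw [eq_mul_inv_iff_mul_eq, mul_assoc, e, inv_mul_cancel_left]]
          exact mul_mem ((ph_mem h).2 ⟨_, rfl⟩) (inv_mem ((ph_mem h).2 ⟨_, rfl⟩)))
    obtain rfl := inv_mul_eq_one.1 this
    exact Prod.ext rfl (ph_inj h (mul_left_cancel e))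
  have e3 := sum_comp (s := univ ×ˢ WW Zs c t) F fun p => p.1 * p.2 * p.1⁻¹
  rw [sum_product, sum_congr rfl fun x _ => sum_congr rfl fun w _ => h1 x w, sum_const, e2, card_univ,
    sum_congr rfl (g := fun w => Nat.card N • F w) fun w hw => by
      obtain ⟨⟨x0, w0⟩, hp, rfl⟩ := mem_image.1 hw
      obtain ⟨z0, a0, b0, d0, e0, rfl⟩ := (mem_WW h).1 (mem_product.1 hp).2
      congr 1
      refine .trans ?_ (Nat.card_eq_card_toFinset (N : Set Γ)).symm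
      refine card_nbij' (fun p => x0⁻¹ * p.1) (fun m => (x0 * m, m⁻¹ * (z0 * b0) * m)) ?_ ?_ ?_ fun m _ => by simp
      · rintro ⟨x, w⟩ hp
        obtain ⟨hp, e⟩ := mem_filter.1 hp
        obtain ⟨z, a, b, d, e1, rfl⟩ := (mem_WW h).1 (mem_product.1 hp).2
        simpa using h.ti (x0⁻¹ * x) z a z0 a0 b d b0 d0 e1 (by
          rw [show z0 * b0 = x0⁻¹ * (x * (z * b) * x⁻¹) * x0 by rw [e]; group]; group)
      · intro m hm
        obtain ⟨i, hi⟩ := h.nN m⁻¹ (inv_mem (by simpa using hm))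
        obtain ⟨k, rfl⟩ := d0
        refine mem_filter.2 ⟨mem_product.2 ⟨mem_univ _, (mem_WW h).2 ⟨z0, a0, m⁻¹ * c ^ k * (m⁻¹)⁻¹, ?_, mt conj_eq_one_iff.1 e0, ?_⟩⟩,
          by group⟩
        · rw [← conj_zpow, hi]; exact zpow_mem (Subgroup.npow_mem_zpowers _ _) _
        · rw [← mul_assoc, ← mul_assoc, ← Subgroup.mem_center_iff.1 (h.cen a0)]; group
      · rintro ⟨x, w⟩ hp
        have e : x * w * x⁻¹ = _ := (mem_filter.1 hp).2
        exact Prod.ext (by simp) (by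
          simp only; rw [show z0 * b0 = x0⁻¹ * (x * w * x⁻¹) * x0 by rw [e]; group]; group),
    ← smul_sum, h.cN, ← Nat.card_eq_fintype_card] at e3
  simp only [nsmul_eq_mul] at e3
  push_cast at e3
  exact mul_left_cancel₀ (card_pos_real Zs).ne' (by rw [SS]; linear_combination -e3)

theorem nm (h1 : IsClassFunction Γ θ) (h2 : Cc μ θ) {d : ZMod (11 * t + 1) → ℤ} (hd : Rp c t θ d) :
    11 * (11 * t + 1) * ∑ x, ‖θ x‖ ^ 2 = Nat.card Γ * Qf d + 11 * (11 * t + 1) * ∑ x ∈ (SS Zs c t)ᶜ, ‖θ x‖ ^ 2 := by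
  rw [← sum_add_sum_compl (SS Zs c t), mul_add, cnt h (fun x => ‖θ x‖ ^ 2) (fun x w => by rw [h1])
    fun z w => by rw [h2, norm_mul, mu_norm, one_mul], ← pars]
  simp only [hd _]

theorem ex_mu (hχ : IsIrrCharacter Γ χ) : ∃ μ : Zs →* ℂˣ, Cc μ χ :=
  hχ.exists_centerHom Zs (h.cen.trans hχ.center_le_charCenter)

theorem ex_m (hχ : IsCharacter Γ χ) : ∃ m : ZMod (11 * t + 1) → ℕ, Rp c t χ (fun j => m j) ∧ ∀ j, (m (s * j) : ℤ) = m j := by
  let f : Multiplicative (ZMod (11 * t + 1)) →* Γ := ⟨⟨fun k => ph c t k.toAdd, ph_zero⟩, fun k l => ph_add h _ _⟩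
  obtain ⟨m, hm⟩ := ex_ft (fun k => χ (ph c t k)) fun j => by
    obtain ⟨m, hm⟩ := (hχ.comp f).exists_classInner_nat (isIrrCharacter_monoidHom
      (ZMod.stdAddChar.mulShift j).toMonoidHom).isCharacter
    refine ⟨m, ?_⟩
    rw [← hm]
    exact (Fintype.sum_equiv Multiplicative.ofAdd _ _ fun _ => rfl).trans
      ((card_mul_classInner (fun x => χ (f x)) (ZMod.stdAddChar.mulShift j).toMonoidHom).symm.trans
      (congrArg (fun x : ℕ => (x : ℂ) * _) (Nat.card_zmod (11 * t + 1))))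
  refine ⟨m, hm, (fr h).inv_ft (m := fun j => m j) fun k => ?_⟩
  rw [← hm, ← hm, ph_mul h, ph, ← pow_mul, mul_comm, pow_mul, ← h.cy, conj_pow, hχ.isClassFunction]

theorem irr_le (hχ : IsIrrCharacter Γ χ) {d : ZMod (11 * t + 1) → ℤ} (hd : Rp c t χ d) :
    11 * (11 * t + 1) * ∑ x ∈ (SS Zs c t)ᶜ, ‖χ x‖ ^ 2 = Nat.card Γ * (11 * (11 * t + 1 : ℕ) - Qf d : ℤ) := by
  obtain ⟨μ, hμ⟩ := ex_mu h hχ
  have := nm h hχ.isClassFunction hμ hd
  rw [hχ.sum_norm_sq] at this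
  push_cast; linear_combination -this

theorem ex_dv (hχ : IsIrrCharacter Γ χ) : ∃ (m : ZMod (11 * t + 1) → ℕ) (a : ℤ) (j : ZMod (11 * t + 1)) (ε δ : ℤ),
    Rp c t χ (fun j => m j) ∧ j ≠ 0 ∧ 0 ≤ a ∧ (ε = 0 ∨ (ε = 1 ∨ ε = -1) ∧ δ ^ 2 ≤ 1) ∧
    (fun j => (m j : ℤ)) = dv s a j ε δ := by
  obtain ⟨m, h1, h2⟩ := ex_m h hχ.isCharacter
  obtain ⟨a, j, ε, δ, h3⟩ := (fr h).cls' (c43 h) h2 (by
    have := le_trans (a := 0) (by positivity) (irr_le h hχ h1).le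
    rw [mul_nonneg_iff_of_pos_left (card_pos_real Γ)] at this
    exact sub_nonneg.1 (by exact_mod_cast this))
  exact ⟨m, a, j, ε, δ, h1, h3⟩

theorem rb (hχ : IsIrrCharacter Γ χ) {a ε δ : ℤ} {j : ZMod (11 * t + 1)} (hd : Rp c t χ (dv s a j ε δ)) (j0 : j ≠ 0)
    (hε : ε = 1 ∨ ε = -1) (hδ : δ ^ 2 ≤ 1) : 11 * (11 * t + 1) * ∑ x ∈ (SS Zs c t)ᶜ, ‖χ x‖ ^ 2 ≤ Nat.card Γ * 121 := by
  rw [irr_le h hχ hd, (fr h).Qf_dv j0]
  refine mul_le_mul_of_nonneg_left ?_ (Nat.cast_nonneg _)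
  have := c43 h
  obtain ⟨h1, h2⟩ := abs_le.1 ((sq_le_one_iff_abs_le_one _).1 hδ)
  norm_cast
  rcases hε with rfl | rfl <;> interval_cases δ <;> omega

theorem two (hχ : IsIrrCharacter Γ χ) (hχ' : IsIrrCharacter Γ χ') {a ε δ a' ε' δ' : ℤ} {j j' : ZMod (11 * t + 1)}
    (hd : Rp c t χ (dv s a j ε δ)) (j0 : j ≠ 0) (hε : ε = 1 ∨ ε = -1) (hδ : δ ^ 2 ≤ 1)
    (hd' : Rp c t χ' (dv s a' j' ε' δ')) (j0' : j' ≠ 0) (hε' : ε' = 1 ∨ ε' = -1) (hδ' : δ' ^ 2 ≤ 1)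
    (h1 : IsClassFunction Γ θ) (h2 : Cc μ θ) (h3 : ∑ x, ‖θ x‖ ^ 2 = 2 * Nat.card Γ) (h4 : ∀ x, ‖θ x‖ ≤ ‖χ x‖ + ‖χ' x‖)
    {b e : ℤ} (h5 : Rp c t θ (dv s b j 0 e)) (h6 : e ^ 2 ≤ 4) : False := by
  have k1 := nm h h1 h2 h5
  have k2 : ∑ x ∈ (SS Zs c t)ᶜ, ‖θ x‖ ^ 2 ≤ 2 * ∑ x ∈ (SS Zs c t)ᶜ, ‖χ x‖ ^ 2 + 2 * ∑ x ∈ (SS Zs c t)ᶜ, ‖χ' x‖ ^ 2 := by
    rw [mul_sum, mul_sum, ← sum_add_distrib]
    exact sum_le_sum fun x _ => (pow_le_pow_left₀ (norm_nonneg _) (h4 x) 2).trans (by nlinarith [sq_nonneg (‖χ x‖ - ‖χ' x‖)])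
  have k3 := rb h hχ hd j0 hε hδ
  have k4 := rb h hχ' hd' j0' hε' hδ'
  have k5 : ((Qf (dv (s : ZMod (11 * t + 1)) b j 0 e) : ℤ) : ℝ) ≤ 4 * (11 * t + 1) := by
    rw [(fr h).Qf_dv j0]; norm_cast; push_cast; nlinarith [sq_nonneg e]
  have k6 : (683 : ℝ) ≤ 11 * t + 1 := by exact_mod_cast c43 h
  have k7 := card_pos_real Γ
  rw [h3] at k1
  nlinarith [mul_le_mul_of_nonneg_left k2 (show (0 : ℝ) ≤ 11 * (11 * t + 1) by positivity), mul_le_mul_of_nonneg_left k5 k7.le,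
    mul_le_mul_of_nonneg_left k6 k7.le]

theorem nocancel (hχ : IsIrrCharacter Γ χ) (hχ' : IsIrrCharacter Γ χ') (c1 : Cc μ χ) (c2 : Cc μ χ') {a δ a' δ' : ℤ}
    {j j' : ZMod (11 * t + 1)} (hd : Rp c t χ (dv s a j 1 δ)) (j0 : j ≠ 0) (hδ : δ ^ 2 ≤ 1)
    (hd' : Rp c t χ' (dv s a' j' (-1) δ')) (j0' : j' ≠ 0) (hδ' : δ' ^ 2 ≤ 1) (e : Ob s j' = Ob (s : ZMod _) j) : False := by
  refine two h (μ := μ) hχ hχ' hd j0 (.inl rfl) hδ hd' j0' (.inr rfl) hδ' (hχ.isClassFunction.add hχ'.isClassFunction)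
    (fun z x => by simp [c1 z, c2 z, mul_add]) (nrm2 hχ hχ' ?_).1 (fun x => norm_add_le _ _) (b := a + a') (e := δ + δ')
    (fun k => by
      rw [Pi.add_apply, hd, hd', ← ft_add]
      refine congrArg (ft · k) (funext fun x => ?_); simp only [dv, e]; split_ifs <;> ring) (by nlinarith [sq_nonneg (δ - δ')])
  rintro rfl
  obtain ⟨x, x0, hx⟩ := Fr.ex_out (s := Ob (s : ZMod (11 * t + 1)) j) (by have := card_Ob_le (s : ZMod _) j; have := c43 h; omega)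
  have k := ft_inj fun k => (hd k).symm.trans (hd' k)
  have k1 := k x
  have k2 := k j
  simp only [dv, e, hx, x0, j0, self_Ob, if_true, if_false] at k1 k2
  omega

theorem agree (hχ : XX c s t χ) (hχ' : XX c s t χ') (c1 : Cc μ χ) (c2 : Cc μ χ') {x : Γ} (hx : x ∉ SS Zs c t) :
    χ x = χ' x := by
  obtain ⟨hχ, j, j0, hd⟩ := hχ
  obtain ⟨hχ', j', j0', hd'⟩ := hχ'
  by_contra ne
  have k1 := (nrm2 hχ hχ' fun e => ne (e ▸ rfl)).2
  have k2 : Cc μ (χ - χ') := fun z x => by simp [c1 z, c2 z, mul_sub]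
  have k3 := hχ.isClassFunction.sub hχ'.isClassFunction
  have k4 : Rp c t (χ - χ') _ := fun k => by rw [Pi.sub_apply, hd, hd', ← ft_sub]
  by_cases e : j' ∈ Ob s j
  · exact two h hχ hχ' hd j0 (.inl rfl) (by simp) hd' j0' (.inl rfl) (by simp) k3 k2 k1 (fun x => norm_sub_le _ _)
      (b := 0) (e := 0) (by convert k4 using 1; ext x; simp [dv, (fr h).Ob_eq e]) (by simp)
  have k5 := nm h k3 k2 k4
  simp only [Pi.sub_apply, k1, (fr h).Qf_two j0 j0' e] at k5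
  have k6 : ∑ x ∈ (SS Zs c t)ᶜ, ‖χ x - χ' x‖ ^ 2 = 0 :=
    mul_left_cancel₀ (show (11 * (11 * t + 1) : ℝ) ≠ 0 by positivity) (by push_cast at k5; linear_combination -k5)
  exact ne (by simpa [sub_eq_zero] using (sum_eq_zero_iff_of_nonneg fun _ _ => sq_nonneg _).1 k6 x (mem_compl.2 hx))

theorem xx_of (hχ : IsIrrCharacter Γ χ) {m : ZMod (11 * t + 1) → ℕ} {j : ZMod (11 * t + 1)} {ε δ : ℤ}
    (hd : Rp c t χ fun j => m j) (j0 : j ≠ 0) (hε : ε = 0 ∨ (ε = 1 ∨ ε = -1) ∧ δ ^ 2 ≤ 1)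
    (e : (fun j => (m j : ℤ)) = dv s 0 j ε δ) (m0 : m 0 = 0) : Rp c t χ (dv s 0 j 1 0) := by
  have k1 := congrFun e 0
  have k2 := congrFun e j
  simp only [dv, m0, j0, self_Ob, if_true, if_false, show 0 ∉ Ob s j from fun z => (fr h).ne0 j0 z rfl] at k1 k2
  obtain rfl : δ = 0 := by omega
  rw [e] at hd
  obtain rfl | rfl : ε = 0 ∨ ε = 1 := by omega
  · exact absurd (by simpa [ph_zero, ft, dv] using hd 0) hχ.apply_one_ne_zero
  · exact hd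

theorem xx7 (hχ : XX c s t χ) : χ 1 = 11 := by
  obtain ⟨-, j, j0, hd⟩ := hχ
  simpa [ph_zero, (fr h).ft_dv j0] using hd 0

theorem sqr (hχ : XX c s t χ) : ∃ ψ, XX c s t ψ ∧ ∀ x ∉ SS Zs c t, χ x ^ 2 = 11 * ψ x := by
  obtain ⟨μ, hμ⟩ := ex_mu h hχ.1
  obtain ⟨cf, hc⟩ := (hχ.1.isCharacter.pow 2).exists_eq_sum_nat
  have hc' : ∀ x, χ x ^ 2 = ∑ ψ, cf ψ * ψ.1 x := fun x => by simpa using congrFun hc x
  choose m a j ε δ h1 h2 h3 h4 h5 using fun ψ : IrrCharacter Γ => ex_dv h ψ.2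
  have k : ∀ ψ, cf ψ ≠ 0 → XX c s t ψ ∧ Cc (μ ^ 2) ψ.1 := fun ψ c0 => by
    obtain ⟨-, j1, j0, hd⟩ := hχ
    obtain ⟨d, S, s1, s2, s3, s4⟩ := (fr h).sq_dv h.odd j0
    have k1 : ∀ x ∉ S, m ψ x = 0 := fun x hx => by
      have := ft_inj (d := fun x => ∑ ψ, cf ψ * (m ψ x : ℤ)) (d' := d) (fun k => by
        rw [ft_sum, ← s4, ← hd, hc']; simp only [h1 _ _, Int.cast_natCast]) x
      rw [s3 x hx, sum_eq_zero_iff_of_nonneg fun _ _ => by positivity] at this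
      simpa [c0] using this ψ (mem_univ _)
    obtain ⟨x, x0, hx⟩ := Fr.ex_out (s := S ∪ Ob s (j ψ)) (by
      have := card_Ob_le (s : ZMod _) (j ψ); have := c43 h; have := card_union_le S (Ob s (j ψ)); omega)
    rw [mem_union, not_or] at hx
    have a0 : a ψ = 0 := by simpa [dv, k1 x hx.1, hx.2, x0] using (congrFun (h5 ψ) x).symm
    obtain ⟨ν, hν⟩ := ex_mu h ψ.2
    exact ⟨⟨ψ.2, _, h2 ψ, xx_of h ψ.2 (h1 ψ) (h2 ψ) (h4 ψ) (a0 ▸ h5 ψ) (k1 0 s2)⟩, cc_of (θ := χ ^ 2)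
      (fun z x => by simp [hμ z, mul_pow]) hν (by rw [hc, classInner_sum_irr_left]; exact_mod_cast c0)⟩
  have k7 : ∑ ψ, (cf ψ : ℂ) = 11 := mul_right_cancel₀ (show (11 : ℂ) ≠ 0 by norm_num) (by
    rw [← sq, ← xx7 h hχ, hc', sum_mul]
    exact sum_congr rfl fun ψ _ => by by_cases z : cf ψ = 0 <;> simp [z, xx7 h hχ, xx7 h (k ψ _).1])
  obtain ⟨ψ, -, c0⟩ := exists_ne_zero_of_sum_ne_zero (k7.trans_ne (by norm_num))
  replace c0 := Nat.cast_ne_zero.1 c0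
  refine ⟨ψ, (k ψ c0).1, fun x hx => ?_⟩
  rw [hc', ← k7, sum_mul]
  exact sum_congr rfl fun ψ' _ => by
    by_cases z : cf ψ' = 0
    · simp [z]
    · rw [agree h (k _ z).1 (k _ c0).1 (k _ z).2 (k _ c0).2 hx]

theorem val7 (hχ : XX c s t χ) {x : Γ} (hx : x ∉ SS Zs c t) (x0 : χ x ≠ 0) : ‖χ x‖ = 11 := by
  obtain ⟨ψ, ⟨h1, h2⟩, h3⟩ := Set.exists_min_image {ψ | XX c s t ψ ∧ ψ x ≠ 0} (fun ψ => ‖ψ x‖)
    ((finite_setOf_irr Γ).subset fun _ a => a.1.1) ⟨χ, hχ, x0⟩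
  obtain ⟨ψ', h4, h5⟩ := sqr h h1
  have h6 := congrArg norm (h5 x hx)
  have h7 := h3 ψ' ⟨h4, fun z => h2 (by simpa [z] using h5 x hx)⟩
  have h8 := hχ.1.isCharacter.norm_apply_le x
  rw [norm_pow, norm_mul, Complex.norm_ofNat] at h6
  rw [xx7 h hχ] at h8
  exact le_antisymm (by simpa using h8) (le_trans (by nlinarith [norm_pos_iff.2 h2]) (h3 χ ⟨hχ, x0⟩))

theorem eq7 {j k : ZMod (11 * t + 1)} (j0 : j ≠ 0) (e : ‖ft (dv s 0 j 1 0) k‖ = 11) : s * (j * k) = j * k := by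
  rw [(fr h).ft_dv j0] at e
  obtain ⟨ω, -, e⟩ := exists_eq_of_norm_sum_eq_card ((range 11).val.map fun i => ZMod.stdAddChar ((s : ZMod _) ^ i * j * k))
    (fun z hz => by obtain ⟨i, -, rfl⟩ := Multiset.mem_map.1 hz; simp) (by
      rw [← sum_eq_multiset_sum, e]; simp)
  simpa [mul_assoc] using ZMod.injective_stdAddChar ((e _ (Multiset.mem_map_of_mem _ (show 1 ∈ range 11 by simp))).trans
    (e _ (Multiset.mem_map_of_mem _ (show 0 ∈ range 11 by simp))).symm)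

theorem fin1 (P : Finset (ZMod (11 * t + 1))) (hP : 11 * t + 1 < #P + #P)
    (hX : ∀ j ∈ P, j ≠ 0 ∧ ∃ χ, IsIrrCharacter Γ χ ∧ Cc μ χ ∧ Rp c t χ (dv s 0 j 1 0)) :
    ∃ Y : Subgroup Γ, Y.Normal ∧ Zs ≤ Y ∧ Y ⊓ Subgroup.zpowers c = ⊥ ∧ Nat.card Γ = 11 * (11 * t + 1) * Nat.card Y := by
  let Y : Subgroup Γ := ⨅ χ : {χ // XX c s t χ ∧ Cc μ χ}, charCenter χ.1
  have nY : Y.Normal := Subgroup.normal_iInf_normal fun χ => χ.2.1.1.isCharacter.charCenter_normal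
  have zY : Zs ≤ Y := le_iInf fun χ => h.cen.trans χ.2.1.1.center_le_charCenter
  have mY : ∀ {x}, x ∈ Y ↔ ∀ χ, XX c s t χ → Cc μ χ → ‖χ x‖ = 11 := Subgroup.mem_iInf.trans
    ⟨fun a χ b d => by simpa [xx7 h b] using b.1.isCharacter.mem_charCenter_iff.1 (a ⟨χ, b, d⟩),
      fun a χ => χ.2.1.1.isCharacter.mem_charCenter_iff.2 (by simpa [xx7 h χ.2.1] using a χ.1 χ.2.1 χ.2.2)⟩
  have cY : ∀ a ∈ Y, a ∈ Subgroup.zpowers c → a = 1 := fun a ha b => by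
    obtain ⟨k, rfl⟩ := (ph_mem h).1 b
    have k1 : ∀ j ∈ P, s * (j * k) = j * k := fun j hj => by
      obtain ⟨j0, χ, h1, h2, h3⟩ := hX j hj
      exact eq7 h j0 (h3 k ▸ mY.1 ha χ ⟨h1, j, j0, h3⟩ h2)
    obtain ⟨j, hj⟩ := inter_nonempty_of_card_lt_card_add_card (subset_univ P) (subset_univ (P.image (· + 1)))
      (by rwa [card_image_of_injective _ (add_left_injective 1), card_univ, ZMod.card])
    obtain ⟨j', hj', rfl⟩ := mem_image.1 (mem_inter.1 hj).2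
    exact (ph_one h).2 ((fr h).fr 1 k one_pos (by norm_num) (by linear_combination k1 _ (mem_inter.1 hj).1 - k1 _ hj'))
  refine ⟨Y, nY, zY, (Subgroup.eq_bot_iff_forall _).2 fun a ha => cY a ha.1 ha.2, ?_⟩
  obtain ⟨j, hj⟩ := card_pos.1 (show 0 < #P by omega)
  obtain ⟨j0, χ, h1, h2, h3⟩ := hX j hj
  have xx : XX c s t χ := ⟨h1, j, j0, h3⟩
  have k := irr_le h h1 h3
  rw [(fr h).Qf_dv j0, ← sum_subset (s₁ := (Y : Set Γ).toFinset), sum_congr rfl (g := fun _ => (121 : ℝ)) fun x hx => by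
    rw [mY.1 (by simpa using hx) χ xx h2]; norm_num, sum_const, ← Nat.card_eq_card_toFinset] at k
  · have : (Nat.card Γ : ℝ) = 11 * (11 * t + 1) * Nat.card Y := by
      rw [nsmul_eq_mul] at k; push_cast at k
      exact mul_left_cancel₀ (show (121 : ℝ) ≠ 0 by norm_num) (by linear_combination -k)
    exact_mod_cast this
  · intro w hw
    refine mem_compl.2 fun z => ?_
    obtain ⟨⟨x, w⟩, hp, rfl⟩ := mem_image.1 z
    obtain ⟨z', a, b, d, e, rfl⟩ := (mem_WW h).1 (mem_product.1 hp).2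
    exact e (cY b ((mul_mem_cancel_left (zY a)).1 (by simpa using nY.mem_comm (Set.mem_toFinset.1 hw))) d)
  · intro x hx hY
    by_contra z
    exact hY (Set.mem_toFinset.2 (mY.2 fun ψ a b => agree h xx a h2 b (mem_compl.1 hx) ▸
      val7 h xx (mem_compl.1 hx) fun e => z (by simp [e])))

theorem mul {ι : Type*} [Fintype ι] (cf : ι → ℕ) (ψ : ι → Γ → ℂ) (lam : ι → Zs →* ℂˣ) (hl : ∀ i, Cc (lam i) (ψ i))
    (hc : ∀ x, (ρ x).trace = ∑ i, cf i * ψ i x) (m : ι → ZMod (11 * t + 1) → ℕ) (hm : ∀ i, Rp c t (ψ i) fun j => m i j)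
    (hi : ∀ i j, (m i (s * j) : ℤ) = m i j) (μ : Zs →* ℂˣ) : (∃ b : ℤ, ∀ j, j ≠ 0 → ∑ i with lam i = μ, (cf i * m i j : ℤ) = b) ∧
      ∀ j, ∑ i with lam i = μ, cf i * m i j ≤ g := by
  have k1 : ∀ k, Nat.card Zs * ft (fun j => ∑ i with lam i = μ, (cf i * m i j : ℤ)) k =
      ∑ z : Zs, (ρ (z * ph c t k)).trace * conj (μ z : ℂ) := fun k => by
    rw [ft_sum, sum_filter, mul_sum]
    simp only [hc, hl _ _, sum_mul, ← hm _ k]
    rw [sum_comm]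
    refine sum_congr rfl fun i _ => ?_
    rw [sum_congr rfl (g := fun z => cf i * ψ i (ph c t k) * ((lam i z : ℂ) * conj (μ z : ℂ))) fun _ _ => by ring, ← mul_sum,
      H21.sum_unitsHom_mul_conj]
    split_ifs <;> simp [mul_comm]
  have k2 : ∀ k, Nat.card Zs * ‖ft (fun j => ∑ i with lam i = μ, (cf i * m i j : ℤ)) k‖ ≤
      ∑ z : Zs, ‖(ρ (z * ph c t k)).trace‖ := fun k => by
    rw [← Complex.norm_natCast, ← norm_mul, k1]
    exact (norm_sum_le _ _).trans_eq (sum_congr rfl fun z _ => by rw [norm_mul, Complex.norm_conj, mu_norm, mul_one])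
  have k3 : ∀ k ∈ univ.erase 0, ‖ft (fun j => ∑ i with lam i = μ, (cf i * m i j : ℤ)) k‖ ≤ 1 := fun k hk => by
    have := k2 k
    rw [sum_congr rfl fun (z : Zs) _ => h.w1 z z.2 _ ((ph_mem h).2 ⟨k, rfl⟩) fun e => ne_of_mem_erase hk ((ph_one h).1
      (dis h ((mul_mem_cancel_left z.2).1 (h.z0 e)) ((ph_mem h).2 ⟨k, rfl⟩))), sum_const, card_univ,
      ← Nat.card_eq_fintype_card, nsmul_eq_mul] at this
    exact le_of_mul_le_mul_left this (card_pos_real Zs)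
  have ce : #(univ.erase (0 : ZMod (11 * t + 1))) = 11 * t := by rw [card_erase_of_mem (mem_univ _), card_univ, ZMod.card]; rfl
  refine ⟨?_, fun j => ?_⟩
  · have := (pars _).ge.trans (sum_le_card_nsmul _ _ 1 fun k hk => pow_le_one₀ (norm_nonneg _) (k3 k hk))
    rw [ce, nsmul_eq_mul, mul_one] at this
    norm_cast at this
    refine ((fr h).cls (c43 h) (fun j => by simp only [hi]) (by push_cast at this ⊢; linarith)).resolve_right ?_
    rintro ⟨a, j, ε, δ, j0, hε, hδ, e⟩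
    push_cast at this e
    rw [e, (fr h).Qf_dv j0] at this
    have := c43 h
    obtain ⟨h1, h2⟩ := abs_le.1 ((sq_le_one_iff_abs_le_one _).1 hδ)
    rcases hε with rfl | rfl <;> interval_cases δ <;> omega
  have k4 := (k2 0).trans (sum_le_sum (g := fun z : Zs => 1 + if z.1 ∈ Z0 then (n : ℝ) else 0) fun z _ => by
    rw [ph_zero, mul_one]
    split_ifs with e
    · exact ((isCharacter_matrix_trace ρ).norm_apply_le z).trans (by simp)
    · simpa using (h.w1 z z.2 1 (one_mem _) (by simpa using e)).le)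
  rw [sum_add_distrib, ← sum_filter, sum_const, sum_const, card_univ, ← Fintype.card_subtype, ← Nat.card_eq_fintype_card,
    ← Nat.card_eq_fintype_card, show Nat.card {z : Zs // z.1 ∈ Z0} = Nat.card Z0 from
      Nat.card_congr (Subgroup.subgroupOfEquivOfLe h.z0).toEquiv] at k4
  have k5 := (congrArg norm (ft_inv (fun j => ∑ i with lam i = μ, (cf i * m i j : ℤ)) j)).ge.trans (norm_sum_le _ _)
  simp only [norm_mul, Complex.norm_conj, AddChar.norm_apply, mul_one] at k5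
  rw [← add_sum_erase _ _ (mem_univ 0), Complex.norm_natCast, Complex.norm_intCast, abs_of_nonneg (by positivity)] at k5
  have k6 := sum_le_card_nsmul _ _ 1 k3
  have k7 := congrArg (Nat.cast : ℕ → ℝ) h.wd
  have k8 := card_pos_real Zs
  have k9 := card_pos_real Z0
  rw [ce] at k6
  simp only [nsmul_eq_mul] at k4 k6
  push_cast at k5 k6 k7
  refine Nat.le_of_lt_succ (Nat.cast_lt (α := ℝ).1 (lt_of_mul_lt_mul_left (a := (Nat.card Zs * (11 * t + 1) : ℝ)) ?_ (by positivity)))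
  push_cast
  nlinarith [mul_le_mul_of_nonneg_left k5 k8.le, mul_le_mul_of_nonneg_left k6 k8.le]
end

theorem aux3 {n d : ℤ} (h : 683 ≤ n) (k : 0 ≤ 11 * n - (n * (11 * 0 ^ 2 + d ^ 2) - (11 * 0 + d) ^ 2)) : -d ≤ 3 := by
  by_contra! z
  nlinarith [mul_le_mul_of_nonneg_left (show 16 ≤ d ^ 2 by nlinarith) (show 0 ≤ n - 1 by linarith)]

theorem ex : EX.{u} := fun Γ _ _ n ρ Z0 Zs N c y s t g h => by
  obtain ⟨cf, hc⟩ := (isCharacter_matrix_trace ρ).exists_eq_sum_nat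
  choose m a j ε δ h1 h2 h3 h4 h5 using fun ψ : IrrCharacter Γ => ex_dv h ψ.2
  choose lam hl using fun ψ : IrrCharacter Γ => ex_mu h ψ.2
  have o0 : ∀ ψ, 0 ∉ Ob (s : ZMod (11 * t + 1)) (j ψ) := fun ψ z => (fr h).ne0 (h2 ψ) z rfl
  have m5 : ∀ ψ x, (m ψ x : ℤ) = dv s (a ψ) (j ψ) (ε ψ) (δ ψ) x := fun ψ => congrFun (h5 ψ)
  have hm := mul h cf (fun ψ => ψ.1) lam hl (fun x => by simpa using congrFun hc x) m h1 (fun ψ x => by
    have : (s : ZMod (11 * t + 1)) * x ∈ Ob s x := by simpa using (fr h).pow_mem 1 x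
    have e : ∀ w, (s : ZMod (11 * t + 1)) * x ∈ Ob s w ↔ x ∈ Ob s w := fun w =>
      ⟨fun k => (fr h).Ob_eq k ▸ (fr h).symm this, fun k => (fr h).Ob_eq k ▸ this⟩
    simp only [m5, dv, e, show (s : ZMod (11 * t + 1)) * x = 0 ↔ x = 0 from
      ⟨fun z => by_contra fun k => (fr h).ne0 k this z, fun z => by simp [z]⟩])
  refine or_iff_not_imp_right.2 fun hn => ?_
  obtain ⟨χ, c0, e0⟩ : ∃ χ, cf χ ≠ 0 ∧ ε χ ≠ 0 := by
    by_contra! k
    refine hn ⟨?_, fun A hA z hz b hb b' hb' b1 b1' => ?_⟩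
    · have n3 := c43 h
      have p1 : ∀ ψ, cf ψ ≠ 0 → ∀ x, x ≠ 0 → (m ψ x : ℤ) = a ψ := fun ψ z0 x x0 => by
        simpa [dv, k ψ z0, x0] using congrFun (h5 ψ) x
      have p0 : ∀ ψ, cf ψ ≠ 0 → (m ψ 0 : ℤ) = a ψ + δ ψ := fun ψ z0 => by simpa [dv, k ψ z0] using congrFun (h5 ψ) 0
      have o1 : (1 : ZMod (11 * t + 1)) ≠ 0 := by
        haveI : Fact (1 < 11 * t + 1) := ⟨by omega⟩
        exact one_ne_zero
      have d1 : ∀ ψ, cf ψ ≠ 0 → ψ.1 1 = (a ψ * (11 * t + 1) + δ ψ : ℤ) := fun ψ z0 => by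
        rw [← ph_zero (c := c) (t := t), h1, ft_zero, ← add_sum_erase _ _ (mem_univ 0), p0 ψ z0,
          sum_congr rfl fun x hx => p1 ψ z0 x (ne_of_mem_erase hx), sum_const, card_erase_of_mem (mem_univ _), card_univ, ZMod.card]
        simp only [Nat.add_sub_cancel, nsmul_eq_mul]; push_cast; ring
      have d2 : ∀ ψ, cf ψ ≠ 0 → ψ.1 (ph c t 1) = δ ψ := fun ψ z0 => by
        rw [h1, ft_flat (p1 ψ z0) o1, ← Int.cast_natCast, p0 ψ z0]; push_cast; ring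
      have s1 : (n : ℤ) = (∑ ψ, cf ψ * a ψ) * (11 * t + 1) + ∑ ψ, cf ψ * δ ψ := by
        have := congrFun hc 1
        simp only [map_one, Matrix.trace_one, Fintype.card_fin, Finset.sum_apply, Pi.smul_apply, smul_eq_mul] at this
        rw [sum_congr rfl (g := fun ψ => ((cf ψ * a ψ * (11 * t + 1) + cf ψ * δ ψ : ℤ) : ℂ)) fun ψ _ => by
          by_cases z : cf ψ = 0
          · simp [z]
          · rw [d1 ψ z]; push_cast; ring] at this
        rw [sum_mul, ← sum_add_distrib]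
        exact_mod_cast this
      have s2 : |∑ ψ, cf ψ * δ ψ| = 1 := by
        have := h.w1 1 (one_mem _) _ ((ph_mem h).2 ⟨1, rfl⟩) fun e => o1 ((ph_one h).1
          (dis h (by simpa using h.z0 e) ((ph_mem h).2 ⟨1, rfl⟩)))
        have e := congrFun hc (ph c t 1)
        simp only [Finset.sum_apply, Pi.smul_apply, smul_eq_mul] at e
        rw [one_mul, e, sum_congr rfl (g := fun ψ => ((cf ψ * δ ψ : ℤ) : ℂ)) fun ψ _ => by
          by_cases z : cf ψ = 0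
          · simp [z]
          · rw [d2 ψ z]; push_cast; ring, ← Int.cast_sum, Complex.norm_intCast] at this
        exact_mod_cast this
      obtain ⟨w, hw⟩ := Subgroup.card_dvd_of_le h.z0
      have s3 : n + 1 = g * w * (11 * t + 1) := Nat.eq_of_mul_eq_mul_right (Nat.card_pos (α := Z0)) (by rw [h.wd, hw]; ring)
      have s4 : ∑ ψ, cf ψ * δ ψ < 0 := by
        by_contra! z
        rw [abs_of_nonneg z] at s2
        have : ((11 * t + 1 : ℕ) : ℤ) ∣ 2 := ⟨g * w - ∑ ψ, cf ψ * a ψ, by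
          have := congrArg (Nat.cast : ℕ → ℤ) s3; push_cast at this ⊢; linear_combination this - s1 - s2⟩
        have := Int.le_of_dvd two_pos this
        omega
      obtain ⟨ψ, -, hψ⟩ := exists_lt_of_sum_lt (s := univ) (g := fun _ => (0 : ℤ)) (s4.trans_eq (by simp))
      have z0 : cf ψ ≠ 0 := fun z => by simp [z] at hψ
      have d0 : δ ψ < 0 := by by_contra! z; exact absurd hψ (not_lt.2 (by positivity))
      have q1 := le_trans (a := 0) (by positivity) (irr_le h ψ.2 (h5 ψ ▸ h1 ψ)).le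
      rw [mul_nonneg_iff_of_pos_left (card_pos_real Γ), (fr h).Qf_dv (h2 ψ), k ψ z0] at q1
      replace q1 : (0 : ℤ) ≤ 11 * (11 * t + 1 : ℕ) - ((11 * t + 1 : ℕ) * (11 * 0 ^ 2 + δ ψ ^ 2) - (11 * 0 + δ ψ) ^ 2) := by
        exact_mod_cast q1
      have q2 := (single_le_sum (f := fun i => cf i * m i 1) (fun _ _ => Nat.zero_le _)
        (show ψ ∈ ({i | lam i = lam ψ} : Finset _) by simp)).trans ((hm (lam ψ)).2 1)
      have q3 := p1 ψ z0 1 o1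
      have q4 := p0 ψ z0
      have q5 : m ψ 1 ≤ g := le_trans (Nat.le_mul_of_pos_left _ (Nat.pos_of_ne_zero z0)) q2
      have q6 : -δ ψ ≤ 3 := aux3 (by exact_mod_cast n3) q1
      obtain ⟨jn, hj⟩ := Int.eq_ofNat_of_zero_le (neg_nonneg.2 d0.le)
      generalize m ψ 1 = A at q3 q5
      generalize m ψ 0 = B at q4
      have q7 : jn ≤ A := by omega
      refine ⟨A, jn, q5, by omega, by omega, q7, ψ.2.dvd_card ?_⟩
      rw [d1 ψ z0, ← q3, Nat.cast_sub (q7.trans (Nat.le_mul_of_pos_right _ (Nat.succ_pos _))), show δ ψ = -jn by omega]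
      push_cast; ring
    let R : Representation ℂ Γ (Fin n → ℂ) := (Matrix.toLinAlgEquiv' : Matrix _ _ ℂ ≃ₐ[ℂ] _).toMonoidHom.comp ρ
    have hT : H6.Cm R (Matrix.toLinAlgEquiv' A) := fun x =>
      (show Commute (ρ x) A from (hA x).symm).map (Matrix.toLinAlgEquiv' : Matrix _ _ ℂ ≃ₐ[ℂ] _)
    have e : ∀ x, (A * ρ x).trace = H6.trf R (Matrix.toLinAlgEquiv' A) x := fun x => by
      rw [hA, ← Matrix.trace_toLin'_eq]; exact congrArg _ (map_mul (Matrix.toLinAlgEquiv' : Matrix _ _ ℂ ≃ₐ[ℂ] _) _ _)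
    rw [e, e, (H6.trf_cf hT).apply_eq_sum_irr, (H6.trf_cf hT).apply_eq_sum_irr]
    refine sum_congr rfl fun ψ _ => ?_
    by_cases z0 : cf ψ = 0
    · rw [H6.trf_inner_zero hT ψ.2 (by
        rw [show R.character = _ from (funext fun x => Matrix.trace_toLin'_eq (ρ x)).trans hc, classInner_sum_irr_left, z0,
          Nat.cast_zero]), zero_mul, zero_mul]
    obtain ⟨l, rfl⟩ := (ph_mem h).1 hb
    obtain ⟨l', rfl⟩ := (ph_mem h).1 hb'
    have f : ∀ x, x ≠ 0 → (m ψ x : ℤ) = a ψ := fun x x0 => by simpa [dv, k ψ z0, x0] using congrFun (h5 ψ) x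
    rw [hl ψ ⟨z, hz⟩, hl ψ ⟨z, hz⟩, h1, h1, ft_flat f (mt (ph_one h).2 b1), ft_flat f (mt (ph_one h).2 b1')]
  obtain ⟨⟨b, hb⟩, hg⟩ := hm (lam χ)
  have dev : ∀ x, x ≠ 0 → ∃ ψ, lam ψ = lam χ ∧ cf ψ ≠ 0 ∧ ε ψ ≠ 0 ∧ x ∈ Ob s (j ψ) := fun x x0 => by
    by_contra! k
    have k1 := (hb _ (h2 χ)).trans (hb x x0).symm
    simp only [m5, dv, x0, h2 χ, if_false, add_zero, mul_add, sum_add_distrib, add_right_inj] at k1
    rw [sum_eq_zero (s := _) (f := fun ψ => (cf ψ : ℤ) * if x ∈ Ob s (j ψ) then ε ψ else 0) fun ψ hψ => by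
      by_cases z : cf ψ = 0 ∨ ε ψ = 0
      · rcases z with z | z <;> simp [z]
      · push Not at z; simp [k ψ (mem_filter.1 hψ).2 z.1 z.2]] at k1
    replace k1 := congrArg (ε χ * ·) k1
    simp only [mul_sum, mul_zero] at k1
    refine absurd ((sum_eq_zero_iff_of_nonneg fun ψ hψ => ?_).1 k1 χ (by simp)) (by simp [self_Ob, c0, e0])
    rw [mul_left_comm]
    refine mul_nonneg (Nat.cast_nonneg _) ?_
    split_ifs with o
    swap; · simp
    have l := (mem_filter.1 hψ).2 ▸ hl ψ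
    have r1 := h5 χ ▸ h1 χ
    have r2 := h5 ψ ▸ h1 ψ
    obtain ⟨a1 | a1, a2⟩ := (h4 χ).resolve_left e0 <;> rcases h4 ψ with b1 | ⟨b1 | b1, b2⟩ <;> rw [a1] at r1 ⊢ <;>
      rw [b1] at r2 ⊢ <;> try norm_num
    · exact nocancel h χ.2 ψ.2 (hl χ) l r1 (h2 χ) a2 r2 (h2 ψ) b2 ((fr h).Ob_eq o).symm
    · exact nocancel h ψ.2 χ.2 l (hl χ) r2 (h2 ψ) b2 r1 (h2 χ) a2 ((fr h).Ob_eq o)
  have g1 := h.g1
  have t6 := h.t6
  have ce : #(univ.erase (0 : ZMod (11 * t + 1))) = 11 * t := by rw [card_erase_of_mem (mem_univ _), card_univ, ZMod.card]; rfl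
  let B1 : Finset (IrrCharacter Γ) := {ψ ∈ ({ψ | lam ψ = lam χ} : Finset _) | cf ψ ≠ 0 ∧ a ψ ≠ 0}
  let B2 : Finset (IrrCharacter Γ) := {ψ ∈ ({ψ | lam ψ = lam χ} : Finset _) | cf ψ ≠ 0 ∧ m ψ 0 ≠ 0}
  have b2 : #B2 ≤ g := (card_nsmul_le_sum B2 _ 1 fun ψ hψ => Nat.one_le_iff_ne_zero.2 (mul_ne_zero (mem_filter.1 hψ).2.1
    (mem_filter.1 hψ).2.2)).trans' (by simp) |>.trans ((sum_le_sum_of_subset (filter_subset _ _)).trans (hg 0))
  have b1 : #B1 ≤ g := by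
    have k1 := sum_le_card_nsmul (univ.erase 0) _ g fun x _ => hg x
    rw [sum_comm, ce] at k1
    have k2 := (card_nsmul_le_sum B1 _ (11 * t - 11) fun ψ hψ => ?_).trans ((sum_le_sum_of_subset (filter_subset _ _)).trans k1)
    · simp only [smul_eq_mul] at k2
      by_contra! z
      obtain ⟨r, rfl⟩ : ∃ r, t = r + 1 := ⟨t - 1, by omega⟩
      rw [show 11 * (r + 1) - 11 = 11 * r by omega] at k2
      nlinarith
    obtain ⟨c1, a1⟩ := (mem_filter.1 hψ).2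
    refine le_trans ?_ (sum_le_sum_of_subset (s := univ.erase 0 \ Ob s (j ψ)) sdiff_subset)
    refine le_trans ?_ (card_nsmul_le_sum _ _ 1 fun x hx => Nat.one_le_iff_ne_zero.2 (mul_ne_zero c1 fun z => a1 (by
      simpa [dv, z, (mem_sdiff.1 hx).2, ne_of_mem_erase (mem_sdiff.1 hx).1] using (m5 ψ x).symm)))
    have := le_card_sdiff (Ob (s : ZMod (11 * t + 1)) (j ψ)) (univ.erase 0)
    have := card_Ob_le (s : ZMod (11 * t + 1)) (j ψ)
    simp only [smul_eq_mul]; omega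
  refine fin1 h (μ := lam χ) (univ.erase 0 \ (B1 ∪ B2).biUnion fun ψ => Ob s (j ψ)) ?_ fun x hx => ?_
  · have := le_card_sdiff ((B1 ∪ B2).biUnion fun ψ => Ob (s : ZMod (11 * t + 1)) (j ψ)) (univ.erase 0)
    have := card_biUnion_le_card_mul (B1 ∪ B2) _ 11 fun ψ _ => card_Ob_le (s : ZMod (11 * t + 1)) (j ψ)
    have := card_union_le B1 B2
    omega
  have x0 := ne_of_mem_erase (mem_sdiff.1 hx).1
  obtain ⟨ψ, l, c1, -, o⟩ := dev x x0
  have k : ψ ∉ B1 ∪ B2 := fun z => (mem_sdiff.1 hx).2 (mem_biUnion.2 ⟨ψ, z, o⟩)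
  simp only [B1, B2, mem_union, mem_filter, mem_univ, l, c1, ne_eq, not_false_eq_true, true_and, not_or, not_not] at k
  refine ⟨x0, ψ, ψ.2, l ▸ hl ψ, ?_⟩
  convert xx_of h ψ.2 (h1 ψ) (h2 ψ) (h4 ψ) (k.1 ▸ h5 ψ) k.2 using 1
  ext w; simp only [dv, (fr h).Ob_eq o]

end H6.UE
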