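import Cfsg.Agent.H6.UE1
import Cfsg.Agent.H4.US7

/-! S5855: applications of the Weil bound. -/

set_option autoImplicit false
set_option linter.unusedSectionVars false

open Polynomial Finset Module

namespace H6.UE

universe u

export H4.US (rs og cnt2 deg_of W3.mp)

theorem cw : CW.{u} := fun wb F K _ _ _ _ _ q γ fd n1 n2 hγ => by
  classical
  have γF : ∀ {x : K}, x = γ ∨ x = -γ → x ∉ Set.range (algebraMap F K) := by
    rintro _ (rfl | rfl) ⟨a, e⟩
    exacts [fd.Ek_F hγ (fd.mem_F.1 ⟨a, e⟩), fd.Ek_F hγ (fd.mem_F.1 ⟨-a, by simp [e]⟩)]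
  have w0 : ∀ a, γ + algebraMap F K a ≠ 0 := fun a e => γF (.inr rfl) ⟨a, eq_neg_of_add_eq_zero_right e⟩
  have hN := fd.NN_mul
  have q2 := fd.q2
  obtain g | g := (ar q fd.q2).2.2.2.2.2.1
  · obtain ⟨κ, h⟩ := fd.ex_k
    rw [g, one_mul] at hN
    exact ⟨κ, h, by rw [← pow_mul, hN, FiniteField.pow_card_sub_one_eq_one _ (w0 κ)]⟩
  have g7 : 11 ∣ q + 1 := g ▸ Nat.gcd_dvd_right 11 _
  have e7 : NN q * (q + 1) = (Fintype.card K - 1) / 11 := by rw [← hN, g, mul_left_comm, Nat.mul_div_cancel_left _ (by norm_num)]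
  have d1 : 11 ∣ q ^ 2 - 1 := by rw [← one_pow 2, Nat.sq_sub_sq]; exact g7.mul_right _
  have d2 : q ^ 2 - 1 ∣ Fintype.card K - 1 := by
    rw [fd.cK, show q ^ 22 = (q ^ 2) ^ 11 by ring]; simpa using Nat.sub_dvd_pow_sub_pow (q ^ 2) 1 11
  have nm : ∀ w : K, w ^ ((Fintype.card K - 1) / 11) = algebraMap F K (Algebra.norm F w ^ ((q ^ 2 - 1) / 11)) := fun w => by
    rw [map_pow, FiniteField.algebraMap_norm_eq_pow, Nat.card_eq_fintype_card, Nat.card_eq_fintype_card, fd.hF, ← pow_mul,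
      ← Nat.mul_div_assoc _ d1, Nat.div_mul_cancel d2]
  have p7 : (finrank F K).Prime := by rw [fd.hK]; norm_num
  simp only [← pow_mul, e7]
  have q41 : 109 ≤ q := by
    obtain ⟨p, k, pp, -, -, e⟩ := H11.exists_prime_pow_of_card_sq fd.hF
    have : ∀ r, r.Prime → r ∣ q → r = p := fun r hr h => (Nat.prime_dvd_prime_iff_eq hr pp).1 (hr.dvd_of_dvd_pow (e ▸ h))
    have h2 := this 2 Nat.prime_two
    have h3 := this 3 Nat.prime_three
    have h5 := this 5 Nat.prime_five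
    have h7 := this 7 (by norm_num)
    have h13 := this 13 (by norm_num)
    have h19 := this 19 (by norm_num)
    have h29 := this 29 (by norm_num)
    by_contra! z
    obtain ⟨k, hk⟩ := g7
    have : k < 10 := by omega
    interval_cases k <;> omega
  by_contra! n
  obtain ⟨χ, o, hχ⟩ := rs K (d1.trans d2)
  have b : ∀ j ∈ range 10, ‖1 + ∑ a : F, χ (γ - algebraMap F K a) ^ (j + 1)‖ ≤ 9 * q := fun j hj => by
    have := wb F K 1 (fun _ => γ) (fun _ => χ ^ (j + 1)) (by rw [fd.hK]; norm_num) (fun _ => deg_of p7 (γF (.inl rfl)))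
      (fun _ _ _ => Subsingleton.elim _ _) ⟨0, pow_ne_one_of_lt_orderOf j.succ_ne_zero (by have := mem_range.1 hj; omega)⟩
      fun a a0 => by
        rw [Fin.prod_univ_one, MulChar.pow_apply' _ j.succ_ne_zero, (hχ _ (by simpa)).2, one_pow]
        rw [nm, Algebra.norm_algebraMap, fd.hK, ← pow_mul, Nat.mul_div_cancel' d1, ← fd.hF,
          FiniteField.pow_card_sub_one_eq_one _ a0, map_one]
    simp only [Fin.prod_univ_one, MulChar.pow_apply' _ j.succ_ne_zero, fd.hK, fd.hF] at this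
    refine this.trans (le_of_eq ?_)
    rw [Nat.cast_pow, Real.sqrt_sq (by positivity)]; norm_num
  have s : (q : ℂ) ^ 2 - 10 = 11 * #{a : F | χ (γ - algebraMap F K a) = 1} -
      ∑ j ∈ range 10, (1 + ∑ a : F, χ (γ - algebraMap F K a) ^ (j + 1)) := by
    have : ∑ a : F, ∑ j ∈ range 11, χ (γ - algebraMap F K a) ^ j = 11 * #{a : F | χ (γ - algebraMap F K a) = 1} := by
      rw [sum_congr rfl fun a _ => og (M := 11) (by
        rw [← MulChar.pow_apply' _ (by norm_num), ← o, pow_orderOf_eq_one, MulChar.one_apply (Ne.isUnit (by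
          simpa [sub_eq_add_neg] using w0 (-a)))]), ← sum_filter]
      simp [mul_comm]
    rw [← this, sum_comm, sum_range_succ', sum_add_distrib]
    simp [fd.hF]; ring
  have c : (#{a : F | χ (γ - algebraMap F K a) = 1} : ℝ) ≤ q := by
    rw [Nat.cast_le, ← fd.card_k, ← Set.ncard_coe_finset]
    refine Set.ncard_le_ncard fun a ha => by_contra fun z => n (-a) (fun e => z ?_) ((hχ _ (w0 _)).1 ?_)
    · exact neg_injective ((map_neg fd.sg a).symm.trans e)
    · simpa [sub_eq_add_neg] using ha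
  have := (norm_sub_le _ _).trans_eq' (congrArg norm s).symm
  have h2 := norm_sum_le_of_le _ b
  rw [show (q : ℂ) ^ 2 - 10 = ((q ^ 2 - 10 : ℝ) : ℂ) by simp, Complex.norm_real] at this
  simp only [norm_mul, Complex.norm_ofNat, Complex.norm_natCast, sum_const, card_range, nsmul_eq_mul, Nat.cast_ofNat] at this h2
  have h3 : (109 : ℝ) ≤ q := by exact_mod_cast q41
  nlinarith [le_abs_self ((q : ℝ) ^ 2 - 10), Real.norm_eq_abs ((q : ℝ) ^ 2 - 10)]

theorem co : CO.{u} := fun wb cv F K _ _ _ _ _ q G fd n32 n43 q3 iv => by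
  classical
  have hN := fd.NN_mul
  have g17 := (ar q fd.q2).2.2.2.2.2.1
  set M := gg q * (q + 1) with hM
  have M0 : 0 < M := by rcases g17 with e | e <;> simp [hM, e]
  obtain ⟨χ, o, hχ⟩ := rs K (M := M) ⟨_, by rw [← hN, mul_comm]⟩
  rw [← hN, Nat.mul_div_cancel _ M0] at hχ
  let E : Subfield K := fd.br.eqLocusField (RingHom.id K)
  have cE : Fintype.card E = q ^ 11 := by rw [← fd.card_E, ← Nat.card_eq_fintype_card]; rfl
  have dE : finrank E K = 2 := Nat.pow_right_injective (Fintype.one_lt_card (α := E)) (by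
    simp only [← Module.card_eq_pow_finrank]; rw [fd.cK', cE])
  have κE : ∀ {κ : F}, κ ^ q ≠ κ → algebraMap F K κ ∉ Set.range (algebraMap E K) := fun {κ} h ⟨a, e⟩ =>
    h ((algebraMap F K).injective ((fd.br_alg κ).symm.trans (e ▸ a.2)))
  have w0 : ∀ {κ : F} {γ : K}, κ ^ q ≠ κ → γ ^ q ^ 11 = γ → γ + algebraMap F K κ ≠ 0 := fun h a e =>
    κE h ⟨-⟨_, a⟩, (eq_neg_of_add_eq_zero_right e).symm⟩
  have pM : ∀ {w}, w ≠ 0 → χ w ^ M = 1 := fun h => by
    rw [← MulChar.pow_apply' _ M0.ne', ← o, pow_orderOf_eq_one, MulChar.one_apply h.isUnit]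
  let U := nthRootsFinset (q + 1) (1 : ℂ)
  have mU : ∀ {z}, z ∈ U ↔ z ^ (q + 1) = 1 := mem_nthRootsFinset q.succ_pos _
  have cU : #U = q + 1 := (Complex.isPrimitiveRoot_exp _ q.succ_ne_zero).card_nthRootsFinset
  have hU : ∀ {w}, w ≠ 0 → (χ w ∈ U ↔ (w ^ NN q) ^ (q + 1) = 1) := fun h => by
    rw [mU, ← map_pow, hχ _ (pow_ne_zero _ h), pow_right_comm]
  replace iv : ∀ {κ : F} {γ γ'}, κ ^ q ≠ κ → Ek q γ → Ek q γ' → χ (γ + algebraMap F K κ) = χ (γ' + algebraMap F K κ) →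
      χ (γ + algebraMap F K κ) ∈ U → G γ = G γ' := fun h a b e u => iv _ _ _ h a b (by
    have h1 := w0 h b.1
    rw [← div_eq_one_iff_eq (pow_ne_zero _ h1), ← div_pow, ← hχ _ (div_ne_zero (w0 h a.1) h1)]
    exact mul_right_cancel₀ (ne_zero_pow M0.ne' ((pM h1).trans_ne one_ne_zero)) (by
      rw [← map_mul, div_mul_cancel₀ _ h1, e, one_mul])) ((hU (w0 h a.1)).1 u)
  have big : ∀ {κ κ' : F}, κ ^ q ≠ κ → κ' ^ q ≠ κ' → κ' ≠ κ → κ' ≠ κ ^ q → ∀ X ⊆ U, ∀ Y ⊆ U, q ≤ #X * #Y →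
      ∃ γ, Ek q γ ∧ χ (γ + algebraMap F K κ) ∈ X ∧ χ (γ + algebraMap F K κ') ∈ Y := fun {κ κ'} h h' n1 n2 X hX Y hY c => by
    have k : ∀ {X}, X ⊆ U → ∀ ζ ∈ X, ζ ^ M = 1 := fun hX ζ a => by rw [hM, mul_comm, pow_mul, mU.1 (hX a), one_pow]
    have := cnt2 M0 (k hX) (k hY) (v := fun γ : E => χ (γ + algebraMap F K κ)) (w := fun γ : E => χ (γ + algebraMap F K κ'))
      (fun γ => pM (w0 h γ.2)) (fun γ => pM (w0 h' γ.2)) (B := 2 * (q ^ 5 * √q) + 1) (by positivity) fun i hi j hj ij => by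
        have := wb E K 2 ![algebraMap F K κ, algebraMap F K κ'] ![χ ^ i, χ ^ j] dE.ge (fun t => deg_of (dE ▸ Nat.prime_two) (by
          fin_cases t; exacts [κE h, κE h'])) (by
            have : minpoly E (algebraMap F K κ) ≠ minpoly E (algebraMap F K κ') := fun e => by
              have := minpoly.aeval E (algebraMap F K κ')
              rw [← e, ← eval_map_algebraMap, W3.mp, deg_of (dE ▸ Nat.prime_two) (κE h), dE, cE] at this
              simp [prod_range_succ, sub_eq_zero, ← map_pow, fd.p7, n1, n2] at this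
            intro a b e
            fin_cases a <;> fin_cases b <;> simp_all) (by
            rcases ij with e | e
            exacts [⟨0, pow_ne_one_of_lt_orderOf e (o ▸ hi)⟩, ⟨1, pow_ne_one_of_lt_orderOf e (o ▸ hj)⟩]) fun a a0 => by
            have a1 : (a : K) ≠ 0 := by simpa
            have : χ (Units.mk0 _ a1) = 1 := (hχ _ a1).2 (by
              rw [NN, pow_mul, ← cE, ← SubmonoidClass.coe_pow, FiniteField.pow_card_sub_one_eq_one _ a0]; simp)
            change ∏ t, (![χ ^ i, χ ^ j] t) (Units.mk0 _ a1) = 1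
            simp only [Fin.prod_univ_two, Matrix.cons_val_zero, Matrix.cons_val_one, MulChar.pow_apply_coe, this, one_pow,
              mul_one]
        rw [← Equiv.sum_comp (Equiv.neg E), dE, cE] at this
        have e : ∀ (i : ℕ) {κ : F} (γ : E), κ ^ q ≠ κ → (χ ^ i) (algebraMap F K κ - algebraMap E K (-γ)) =
            χ (γ + algebraMap F K κ) ^ i := fun i κ γ h => by
          rw [map_neg, sub_neg_eq_add, add_comm]; exact MulChar.pow_apply_coe χ i (Units.mk0 _ (w0 h γ.2))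
        simp only [Fin.prod_univ_two, Matrix.cons_val_zero, Matrix.cons_val_one, Equiv.neg_apply, e _ _ h, e _ _ h'] at this
        refine (norm_le_add_norm_add' 1 _).trans ?_
        rw [show (q : ℝ) ^ 5 * √q = √((q ^ 11 : ℕ) : ℝ) by
          rw [← Real.sqrt_sq (show (0 : ℝ) ≤ q ^ 5 by positivity), ← Real.sqrt_mul (by positivity)]; congr 1; push_cast; ring]
        norm_num at this ⊢
        exact this
    by_contra! n
    have c2 : (#{γ : E | χ (γ + algebraMap F K κ) ∈ X ∧ χ (γ + algebraMap F K κ') ∈ Y} : ℝ) ≤ q := by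
      rw [Nat.cast_le, ← Set.ncard_coe_finset]
      refine le_trans (Set.ncard_le_ncard_of_injOn Subtype.val (fun γ a => ?_) Subtype.val_injective.injOn)
        (H27.ncard_pow_eq_le (F := K) fd.q2).2
      simp only [coe_filter, mem_univ, true_and, Set.mem_ofPred_eq] at a
      exact by_contra fun z => n γ ⟨γ.2, z⟩ a.1 a.2
    have c3 : M ^ 2 * (2 * q ^ 5 + 2) < q ^ 11 := by
      rcases g17 with e | e
      · obtain ⟨r, rfl⟩ := Nat.exists_eq_add_of_le' q3
        rw [hM, e]; ring_nf; omega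
      · have : 11 ∣ q + 1 := e ▸ Nat.gcd_dvd_right 11 _
        obtain ⟨p, k, pp, -, -, e'⟩ := H11.exists_prime_pow_of_card_sq fd.hF
        have h1 : ∀ r, r.Prime → r ∣ q → r = p := fun r hr h => (Nat.prime_dvd_prime_iff_eq hr pp).1 (hr.dvd_of_dvd_pow (e' ▸ h))
        have h2 := h1 2 Nat.prime_two
        have h3 := h1 3 Nat.prime_three
        have h5 := h1 5 Nat.prime_five
        have h7 := h1 7 (by norm_num)
        obtain ⟨r, rfl⟩ := Nat.exists_eq_add_of_le' (show 32 ≤ q by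
          by_contra! z
          obtain ⟨k, hk⟩ := this
          have : k < 3 := by omega
          interval_cases k <;> omega)
        rw [hM, e]; ring_nf; omega
    have c4 : (2 * q ^ 5 + 2 : ℝ) < (q ^ 11 : ℕ) / (M : ℝ) ^ 2 := by
      rw [lt_div_iff₀' (by positivity)]; exact_mod_cast c3
    have r1 : √(q : ℝ) ≤ √(#X * #Y) := Real.sqrt_le_sqrt (by exact_mod_cast c)
    have r2 : 1 ≤ √(q : ℝ) := Real.one_le_sqrt.2 (by exact_mod_cast (by omega : 1 ≤ q))
    have r3 := Real.mul_self_sqrt (show (0 : ℝ) ≤ q by positivity)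
    rw [cE, mul_div_assoc, ← Real.mul_self_sqrt (show (0 : ℝ) ≤ #X * #Y by positivity), Real.sqrt_mul_self (by positivity)] at this
    generalize √((#X : ℝ) * #Y) = s at this r1
    generalize √(q : ℝ) = r at this r1 r2 r3
    generalize ((q ^ 11 : ℕ) : ℝ) / (M : ℝ) ^ 2 = A at this c4
    have q0 : (0 : ℝ) ≤ q ^ 5 := by positivity
    have k1 : r * (2 * q ^ 5 + 2) < s * A := mul_lt_mul' r1 c4 (by positivity) (by linarith)
    have k2 : r * r < s * (s * A - (2 * (q ^ 5 * r) + 1)) := mul_lt_mul' r1 (by linarith) (by linarith) (by linarith)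
    linarith
  have two : ∀ {κ κ' : F} {γ : K}, κ ^ q ≠ κ → κ' ^ q ≠ κ' → κ' ≠ κ → κ' ≠ κ ^ q → Ek q γ → χ (γ + algebraMap F K κ) ∈ U →
      ∀ δ, Ek q δ → χ (δ + algebraMap F K κ') ∈ U → G δ = G γ := fun {κ κ' γ} h h' n1 n2 hγ u δ hδ u' => by
    let X := {ζ ∈ U | ∃ δ, Ek q δ ∧ χ (δ + algebraMap F K κ) = ζ ∧ G δ = G γ}
    let Y := {ζ ∈ U | ∃ δ, Ek q δ ∧ χ (δ + algebraMap F K κ') = ζ ∧ G δ = G γ}
    have sX : X ⊆ U := filter_subset _ _
    have sY : Y ⊆ U := filter_subset _ _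
    have k1 : #X * #(U \ Y) < q := lt_of_not_ge fun c => by
      obtain ⟨δ, a, b, c⟩ := big h h' n1 n2 _ sX _ sdiff_subset c
      obtain ⟨b, ε, d, e, f⟩ := mem_filter.1 b
      exact (mem_sdiff.1 c).2 (mem_filter.2 ⟨(mem_sdiff.1 c).1, δ, a, rfl, (iv h a d e.symm b).trans f⟩)
    have k2 : #(U \ X) * #Y < q := lt_of_not_ge fun c => by
      obtain ⟨δ, a, c, b⟩ := big h h' n1 n2 _ sdiff_subset _ sY c
      obtain ⟨b, ε, d, e, f⟩ := mem_filter.1 b
      exact (mem_sdiff.1 c).2 (mem_filter.2 ⟨(mem_sdiff.1 c).1, δ, a, rfl, (iv h' a d e.symm b).trans f⟩)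
    have k3 : 0 < #X := card_pos.2 ⟨_, mem_filter.2 ⟨u, γ, hγ, rfl, rfl⟩⟩
    have k4 := card_sdiff_add_card_eq_card sX
    have k5 := card_sdiff_add_card_eq_card sY
    have : #(U \ Y) = 0 := by_contra fun z => by
      generalize #(U \ Y) = a at *
      generalize #(U \ X) = b at *
      generalize #X = c at *
      generalize #Y = d at *
      obtain ⟨a, rfl⟩ := Nat.exists_eq_add_one_of_ne_zero z
      obtain ⟨c, rfl⟩ := Nat.exists_eq_add_one_of_ne_zero k3.ne'
      rcases b with _ | b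
      · nlinarith
      rcases d with _ | d <;> nlinarith
    obtain ⟨b, ε, d, e, f⟩ := mem_filter.1 (sdiff_eq_empty_iff_subset.1 (card_eq_zero.1 this) u')
    exact (iv h' hδ d e.symm b).trans f
  intro γ γ' a a'
  obtain ⟨κ, h, u⟩ := cv F K q γ fd n32 n43 a
  obtain ⟨κ', h', u'⟩ := cv F K q γ' fd n32 n43 a'
  obtain ⟨l, hl⟩ : ∃ l, l ∉ {a : F | a ^ q = a} ∪ {κ, κ ^ q, κ', κ' ^ q} := by
    by_contra! n
    have := (Set.ncard_le_ncard (s := Set.univ) fun l _ => n l).trans (Set.ncard_union_le _ _)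
    have h4 : ({κ, κ ^ q, κ', κ' ^ q} : Set F).ncard ≤ 4 := (Set.ncard_insert_le _ _).trans (Nat.succ_le_succ
      ((Set.ncard_insert_le _ _).trans (Nat.succ_le_succ ((Set.ncard_insert_le _ _).trans (by simp)))))
    rw [fd.card_k, Set.ncard_univ, Nat.card_eq_fintype_card, fd.hF] at this
    nlinarith
  simp only [Set.mem_union, Set.mem_ofPred_eq, Set.mem_insert_iff, Set.mem_singleton_iff, not_or] at hl
  obtain ⟨δ, d1, -, d2⟩ := big h hl.1 hl.2.1 hl.2.2.1 U subset_rfl U subset_rfl (by rw [cU]; nlinarith)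
  rw [← two h hl.1 hl.2.1 hl.2.2.1 a ((hU (w0 h a.1)).2 u) δ d1 d2,
    two h' hl.1 hl.2.2.2.1 hl.2.2.2.2 a' ((hU (w0 h' a'.1)).2 u') δ d1 d2]

end H6.UE
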